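/-
The fundamental theorem of projective geometry, for a map on non-zero vectors which preserves spans.
-/
import Mathlib

set_option autoImplicit false
set_option linter.unusedSimpArgs false
set_option linter.unusedVariables false

namespace CfsgLib.PSA

open Matrix Submodule

variable {ι : Type*} [Fintype ι] [DecidableEq ι] {F : Type*} [Field F]

/-- The standard basis vectors. -/
abbrev bb (i : ι) : ι → F := Pi.single i 1

/-- A map on non-zero vectors which preserves spans and is injective on points. -/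
structure Coll (θ : (ι → F) → (ι → F)) : Prop where
  ne : ∀ v, v ≠ 0 → θ v ≠ 0
  span : ∀ (S : Set (ι → F)) (u : ι → F), u ≠ 0 → (∀ s ∈ S, s ≠ 0) → u ∈ Submodule.span F S → θ u ∈ Submodule.span F (θ '' S)
  inj : ∀ u v, u ≠ 0 → v ≠ 0 → θ u ∈ Submodule.span F {θ v} → u ∈ Submodule.span F {v}

/-- The normalised situation. -/
structure Nrm (θ : (ι → F) → (ι → F)) (i₀ : ι) : Prop extends Coll θ where
  h0 : ∀ i, θ (bb i) ∈ Submodule.span F {bb i}
  h1 : ∀ i, i ≠ i₀ → θ (bb i₀ + bb i) ∈ Submodule.span F {bb i₀ + bb i}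

/-- The coordinate function. -/
noncomputable def sg (θ : (ι → F) → (ι → F)) (i₀ j : ι) (c : F) : F :=
  θ (bb i₀ + c • bb j) j / θ (bb i₀ + c • bb j) i₀

variable {θ : (ι → F) → (ι → F)} {i₀ : ι}

lemma bb_ne (i : ι) : (bb i : ι → F) ≠ 0 := by
  intro h
  have := congrFun h i
  simp at this

lemma pp_apply {j : ι} (hj : j ≠ i₀) (c : F) : (bb i₀ + c • bb j : ι → F) i₀ = 1 := by
  simp [Pi.single_apply, hj.symm]

lemma ne_of_coord {u : ι → F} (h : u i₀ = 1) : u ≠ 0 := by
  rintro rfl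
  simp at h

lemma Coll.pair (hθ : Coll θ) {u p q p' q' : ι → F} (hu : u ≠ 0) (hp : p ≠ 0) (hq : q ≠ 0)
    (h : u ∈ Submodule.span F {p, q}) (hp' : θ p ∈ Submodule.span F {p'}) (hq' : θ q ∈ Submodule.span F {q'}) :
    θ u ∈ Submodule.span F {p', q'} := by
  have h1 := hθ.span {p, q} u hu (by rintro s (rfl | rfl) <;> assumption) h
  rw [Set.image_pair] at h1
  refine (Submodule.span_le.mpr ?_) h1
  rintro _ (rfl | rfl)
  · exact Submodule.span_mono (by simp) hp'
  · exact Submodule.span_mono (by simp) hq'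

lemma Nrm.base_ne (hθ : Nrm θ i₀) {j : ι} (hj : j ≠ i₀) (c : F) : θ (bb i₀ + c • bb j) i₀ ≠ 0 := by
  intro h0
  have hP : (bb i₀ + c • bb j : ι → F) ≠ 0 := ne_of_coord (pp_apply hj c)
  have h1 : θ (bb i₀ + c • bb j) ∈ Submodule.span F {bb i₀, bb j} := by
    refine hθ.toColl.pair hP (bb_ne _) (bb_ne _) ?_ (hθ.h0 _) (hθ.h0 _)
    rw [Submodule.mem_span_pair]
    exact ⟨1, c, by simp⟩
  rw [Submodule.mem_span_pair] at h1
  obtain ⟨a, b, hab⟩ := h1
  have ha : a = 0 := by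
    have := congrFun hab i₀
    rw [h0] at this
    simpa [Pi.single_apply, hj.symm] using this
  have h2 : θ (bb i₀ + c • bb j) ∈ Submodule.span F {θ (bb j)} := by
    have h3 : bb j ∈ Submodule.span F {θ (bb j)} := by
      obtain ⟨d, hd⟩ := Submodule.mem_span_singleton.mp (hθ.h0 j)
      have hd0 : d ≠ 0 := by
        rintro rfl
        rw [zero_smul] at hd
        exact hθ.ne _ (bb_ne j) hd.symm
      rw [Submodule.mem_span_singleton]
      refine ⟨d⁻¹, ?_⟩
      rw [← hd, smul_smul, inv_mul_cancel₀ hd0, one_smul]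
    rw [← hab, ha, zero_smul, zero_add]
    exact Submodule.smul_mem _ _ h3
  have h4 := hθ.inj _ _ hP (bb_ne j) h2
  obtain ⟨e, he⟩ := Submodule.mem_span_singleton.mp h4
  have := congrFun he i₀
  simp [Pi.single_apply, hj.symm, hj] at this

/-- The normal form of a vector with coordinate one. -/
noncomputable def nf (θ : (ι → F) → (ι → F)) (i₀ : ι) (u : ι → F) : ι → F :=
  fun j => if j = i₀ then 1 else sg θ i₀ j (u j)

lemma Nrm.coord (hθ : Nrm θ i₀) {u : ι → F} (hu : u i₀ = 1) {j : ι} (hj : j ≠ i₀) :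
    θ u j = sg θ i₀ j (u j) * θ u i₀ := by
  let f : (ι → F) →ₗ[F] F := LinearMap.proj j - (sg θ i₀ j (u j)) • LinearMap.proj i₀
  have hf : ∀ y, f y = y j - sg θ i₀ j (u j) * y i₀ := fun y => by simp [f]
  let S : Set (ι → F) := insert (bb i₀ + u j • bb j) {x | ∃ i, i ≠ i₀ ∧ i ≠ j ∧ x = bb i}
  have hS : ∀ s ∈ S, s ≠ 0 := by
    rintro s (rfl | ⟨i, _, _, rfl⟩)
    · exact ne_of_coord (pp_apply hj _)
    · exact bb_ne i
  have hmem : u ∈ Submodule.span F S := by
    have e : u = (bb i₀ + u j • bb j) + (u - (bb i₀ + u j • bb j)) := by abel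
    rw [e]
    refine Submodule.add_mem _ (Submodule.subset_span (Set.mem_insert _ _)) ?_
    set y := u - (bb i₀ + u j • bb j) with hy
    have hy0 : y i₀ = 0 := by
      simp [hy, hu, Pi.single_apply, hj.symm]
    have hyj : y j = 0 := by
      simp [hy, Pi.single_apply, hj]
    rw [pi_eq_sum_univ y]
    refine Submodule.sum_mem _ fun i _ => ?_
    by_cases h1 : i = i₀
    · subst h1
      rw [hy0, zero_smul]
      exact Submodule.zero_mem _
    by_cases h2 : i = j
    · subst h2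
      rw [hyj, zero_smul]
      exact Submodule.zero_mem _
    refine Submodule.smul_mem _ _ (Submodule.subset_span (Set.mem_insert_of_mem _ ⟨i, h1, h2, ?_⟩))
    ext k
    simp [Pi.single_apply, eq_comm]
  have h1 := hθ.span S u (ne_of_coord hu) hS hmem
  have h2 : Submodule.span F (θ '' S) ≤ LinearMap.ker f := by
    rw [Submodule.span_le]
    rintro _ ⟨s, hs, rfl⟩
    rw [SetLike.mem_coe, LinearMap.mem_ker, hf]
    rcases hs with rfl | ⟨i, hi1, hi2, rfl⟩
    · rw [sg]
      rw [div_mul_cancel₀ _ (hθ.base_ne hj _), sub_self]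
    · obtain ⟨d, hd⟩ := Submodule.mem_span_singleton.mp (hθ.h0 i)
      rw [← hd]
      simp [Pi.single_apply, hi1.symm, hi2.symm]
  have h3 := h2 h1
  rw [LinearMap.mem_ker, hf, sub_eq_zero] at h3
  exact h3

lemma Nrm.coord_ne (hθ : Nrm θ i₀) {u : ι → F} (hu : u i₀ = 1) : θ u i₀ ≠ 0 := by
  intro h0
  apply hθ.ne u (ne_of_coord hu)
  funext j
  by_cases hj : j = i₀
  · subst hj
    exact h0
  · rw [hθ.coord hu hj, h0, mul_zero]
    rfl

lemma Nrm.mem_nf (hθ : Nrm θ i₀) {u : ι → F} (hu : u i₀ = 1) : θ u ∈ Submodule.span F {nf θ i₀ u} := by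
  rw [Submodule.mem_span_singleton]
  refine ⟨θ u i₀, ?_⟩
  funext j
  by_cases hj : j = i₀
  · subst hj
    simp [nf]
  · simp only [Pi.smul_apply, smul_eq_mul, nf, hj, if_false]
    rw [hθ.coord hu hj, mul_comm]

lemma Nrm.nf_mem (hθ : Nrm θ i₀) {u : ι → F} (hu : u i₀ = 1) : nf θ i₀ u ∈ Submodule.span F {θ u} := by
  obtain ⟨d, hd⟩ := Submodule.mem_span_singleton.mp (hθ.mem_nf hu)
  have hd0 : d = θ u i₀ := by
    have := congrFun hd i₀
    simpa [nf] using this
  have hd1 : d ≠ 0 := by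
    rw [hd0]
    exact hθ.coord_ne hu
  rw [Submodule.mem_span_singleton]
  refine ⟨d⁻¹, ?_⟩
  rw [← hd, smul_smul, inv_mul_cancel₀ hd1, one_smul]

lemma Nrm.sg_zero (hθ : Nrm θ i₀) {j : ι} (hj : j ≠ i₀) : sg θ i₀ j 0 = 0 := by
  rw [sg]
  simp only [zero_smul, add_zero]
  obtain ⟨d, hd⟩ := Submodule.mem_span_singleton.mp (hθ.h0 i₀)
  rw [← hd]
  simp [Pi.single_apply, hj]

lemma Nrm.sg_one (hθ : Nrm θ i₀) {j : ι} (hj : j ≠ i₀) : sg θ i₀ j 1 = 1 := by
  have h0 := hθ.base_ne hj 1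
  rw [sg]
  simp only [one_smul] at h0 ⊢
  obtain ⟨d, hd⟩ := Submodule.mem_span_singleton.mp (hθ.h1 j hj)
  rw [← hd] at h0 ⊢
  simp [Pi.single_apply, hj, hj.symm] at h0 ⊢
  exact h0

/-- A span statement in normal forms. -/
lemma Nrm.pair_nf (hθ : Nrm θ i₀) {u p q : ι → F} (hu : u ≠ 0) (hp : p i₀ = 1) (hq : q i₀ = 1)
    (h : u ∈ Submodule.span F {p, q}) : θ u ∈ Submodule.span F {nf θ i₀ p, nf θ i₀ q} :=
  hθ.toColl.pair hu (ne_of_coord hp) (ne_of_coord hq) h (hθ.mem_nf hp) (hθ.mem_nf hq)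

/-- All the coordinate functions are equal. -/
lemma Nrm.sg_eq (hθ : Nrm θ i₀) {j₁ j₂ : ι} (h1 : j₁ ≠ i₀) (h2 : j₂ ≠ i₀) (h12 : j₁ ≠ j₂) (c : F) :
    sg θ i₀ j₁ c = sg θ i₀ j₂ c := by
  by_cases hc : c = 0
  · rw [hc, hθ.sg_zero h1, hθ.sg_zero h2]
  set D : ι → F := bb j₁ - bb j₂ with hD
  have hD0 : D ≠ 0 := by
    intro h
    have := congrFun h j₁
    simp [hD, Pi.single_apply, h12, h12.symm] at this
  -- y is in the line
  have hy0 : θ D i₀ = 0 := by
    have h3 : θ D ∈ Submodule.span F {bb j₁, bb j₂} := by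
      refine hθ.toColl.pair hD0 (bb_ne _) (bb_ne _) ?_ (hθ.h0 _) (hθ.h0 _)
      rw [Submodule.mem_span_pair]
      exact ⟨1, -1, by simp [hD, sub_eq_add_neg]⟩
    rw [Submodule.mem_span_pair] at h3
    obtain ⟨a, b, hab⟩ := h3
    rw [← hab]
    simp [Pi.single_apply, h1.symm, h2.symm, h1, h2]
  have hnz : ∃ α : F, α ≠ 0 ∧ θ D = α • D := by
    have h3 : θ D ∈ Submodule.span F {bb i₀ + bb j₁, bb i₀ + bb j₂} := by
      have h4 : D ∈ Submodule.span F {bb i₀ + bb j₁, bb i₀ + bb j₂} := by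
        rw [Submodule.mem_span_pair]
        exact ⟨1, -1, by simp only [hD, one_smul, neg_smul]; abel⟩
      exact hθ.toColl.pair hD0 (ne_of_coord (i₀ := i₀) (by simp [Pi.single_apply, h1.symm]))
        (ne_of_coord (i₀ := i₀) (by simp [Pi.single_apply, h2.symm])) h4 (hθ.h1 _ h1) (hθ.h1 _ h2)
    rw [Submodule.mem_span_pair] at h3
    obtain ⟨a, b, hab⟩ := h3
    have hab0 : a + b = 0 := by
      have := congrFun hab i₀
      rw [hy0] at this
      simpa [Pi.single_apply, h1.symm, h2.symm, h1, h2] using this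
    have hb : b = -a := by linear_combination hab0
    have e : θ D = a • D := by
      rw [← hab, hb, hD]
      funext k
      simp only [Pi.add_apply, Pi.smul_apply, Pi.sub_apply, smul_eq_mul]
      ring
    refine ⟨a, ?_, e⟩
    rintro rfl
    rw [zero_smul] at e
    exact hθ.ne _ hD0 e
  obtain ⟨α, hα, hαD⟩ := hnz
  have h5 : D ∈ Submodule.span F {bb i₀ + c • bb j₁, bb i₀ + c • bb j₂} := by
    rw [Submodule.mem_span_pair]
    refine ⟨c⁻¹, -c⁻¹, ?_⟩
    rw [neg_smul, ← sub_eq_add_neg, ← smul_sub]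
    have : (bb i₀ + c • bb j₁ - (bb i₀ + c • bb j₂) : ι → F) = c • D := by
      rw [hD, smul_sub]
      abel
    rw [this, smul_smul, inv_mul_cancel₀ hc, one_smul]
  have h6 := hθ.pair_nf hD0 (pp_apply h1 c) (pp_apply h2 c) h5
  rw [Submodule.mem_span_pair] at h6
  obtain ⟨a, b, hab⟩ := h6
  have e0 := congrFun hab i₀
  have e1 := congrFun hab j₁
  have e2 := congrFun hab j₂
  rw [hy0] at e0
  rw [hαD] at e1 e2
  simp only [Pi.add_apply, Pi.smul_apply, smul_eq_mul, nf, if_true, hD, Pi.sub_apply, h1, h2, if_false, Pi.single_apply,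
    h12, h12.symm, h1.symm, h2.symm, add_zero, zero_add, mul_one, mul_zero, sub_zero, zero_sub, Pi.zero_apply] at e0 e1 e2
  try simp only [if_true, if_false, mul_one, mul_zero, add_zero, zero_add] at e1 e2
  rw [hθ.sg_zero h1] at e1
  rw [hθ.sg_zero h2] at e2
  have hb : b = -a := by linear_combination e0
  rw [hb] at e2
  have ha : a ≠ 0 := by
    rintro rfl
    simp at e1
    exact hα e1.symm
  simp only [mul_zero, add_zero, zero_add, mul_one] at e1 e2
  apply mul_left_cancel₀ ha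
  linear_combination e1 + e2


section Common

variable {j₁ j₂ : ι}

lemma Nrm.nf_eq (hθ : Nrm θ i₀) (h1 : j₁ ≠ i₀) (h2 : j₂ ≠ i₀) (h12 : j₁ ≠ j₂) {u : ι → F} (hu : u i₀ = 1) :
    nf θ i₀ u = fun k => sg θ i₀ j₁ (u k) := by
  funext k
  by_cases hk : k = i₀
  · subst hk
    simp [nf, hu, hθ.sg_one h1]
  · simp only [nf, hk, if_false]
    by_cases hk1 : k = j₁
    · rw [hk1]
    · exact hθ.sg_eq hk h1 hk1 _

lemma Nrm.sg_add (hθ : Nrm θ i₀) (h1 : j₁ ≠ i₀) (h2 : j₂ ≠ i₀) (h12 : j₁ ≠ j₂) (c d : F) :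
    sg θ i₀ j₁ (c + d) = sg θ i₀ j₁ c + sg θ i₀ j₁ d := by
  by_cases hd : d = 0
  · rw [hd, add_zero, hθ.sg_zero h1, add_zero]
  have hs0 := hθ.sg_zero h1
  have hs1 := hθ.sg_one h1
  set D : ι → F := bb j₁ + bb j₂ with hD
  have hD0 : D ≠ 0 := by
    intro h
    have := congrFun h j₁
    simp [hD, Pi.single_apply, h12, h12.symm] at this
  have hy0 : θ D i₀ = 0 := by
    have h3 : θ D ∈ Submodule.span F {bb j₁, bb j₂} := by
      refine hθ.toColl.pair hD0 (bb_ne _) (bb_ne _) ?_ (hθ.h0 _) (hθ.h0 _)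
      rw [Submodule.mem_span_pair]
      exact ⟨1, 1, by simp [hD]⟩
    rw [Submodule.mem_span_pair] at h3
    obtain ⟨a, b, hab⟩ := h3
    rw [← hab]
    simp [Pi.single_apply, h1.symm, h2.symm, h1, h2]
  have hnz : ∃ α : F, α ≠ 0 ∧ θ D j₁ = α ∧ θ D j₂ = α := by
    have hp : (bb i₀ + bb j₁ + bb j₂ : ι → F) i₀ = 1 := by simp [Pi.single_apply, h1.symm, h2.symm]
    have hq : (bb i₀ : ι → F) i₀ = 1 := by simp
    have h4 : D ∈ Submodule.span F {bb i₀ + bb j₁ + bb j₂, bb i₀} := by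
      rw [Submodule.mem_span_pair]
      exact ⟨1, -1, by simp only [hD, one_smul, neg_smul]; abel⟩
    have h3 := hθ.pair_nf hD0 hp hq h4
    rw [hθ.nf_eq h1 h2 h12 hp, hθ.nf_eq h1 h2 h12 hq, Submodule.mem_span_pair] at h3
    obtain ⟨a, b, hab⟩ := h3
    have e0 := congrFun hab i₀
    rw [hy0] at e0
    simp only [Pi.add_apply, Pi.smul_apply, smul_eq_mul, Pi.single_apply, h1.symm, h2.symm, h1, h2, if_true, if_false,
      add_zero, hs1] at e0
    have hb : b = -a := by linear_combination e0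
    have ej1 := congrFun hab j₁
    have ej2 := congrFun hab j₂
    simp only [Pi.add_apply, Pi.smul_apply, smul_eq_mul, Pi.single_apply, h1.symm, h2.symm, h1, h2, if_true, if_false,
      add_zero, zero_add, hs1, hs0, h12, h12.symm, mul_zero, mul_one] at ej1 ej2
    refine ⟨a, ?_, ej1.symm, ej2.symm⟩
    rintro rfl
    apply hθ.ne _ hD0
    rw [← hab, hb]
    simp
  obtain ⟨α, hα, hα1, hα2⟩ := hnz
  have hp : (bb i₀ + c • bb j₁ : ι → F) i₀ = 1 := by simp [Pi.single_apply, h1.symm, h2.symm]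
  have hq : (bb i₀ + (c + d) • bb j₁ + d • bb j₂ : ι → F) i₀ = 1 := by simp [Pi.single_apply, h1.symm, h2.symm]
  have h5 : D ∈ Submodule.span F {bb i₀ + c • bb j₁, bb i₀ + (c + d) • bb j₁ + d • bb j₂} := by
    rw [Submodule.mem_span_pair]
    refine ⟨-d⁻¹, d⁻¹, ?_⟩
    rw [neg_smul, neg_add_eq_sub, ← smul_sub]
    have : (bb i₀ + (c + d) • bb j₁ + d • bb j₂ - (bb i₀ + c • bb j₁) : ι → F) = d • D := by
      rw [hD, smul_add, add_smul]
      abel
    rw [this, smul_smul, inv_mul_cancel₀ hd, one_smul]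
  have h6 := hθ.pair_nf hD0 hp hq h5
  rw [hθ.nf_eq h1 h2 h12 hp, hθ.nf_eq h1 h2 h12 hq, Submodule.mem_span_pair] at h6
  obtain ⟨a, b, hab⟩ := h6
  have e0 := congrFun hab i₀
  have e1 := congrFun hab j₁
  have e2 := congrFun hab j₂
  rw [hy0] at e0
  rw [hα1] at e1
  rw [hα2] at e2
  simp only [Pi.add_apply, Pi.smul_apply, smul_eq_mul, Pi.single_apply, h1.symm, h2.symm, h1, h2, if_true, if_false,
    add_zero, zero_add, hs1, hs0, h12, h12.symm, mul_zero, mul_one] at e0 e1 e2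
  have hb0 : b ≠ 0 := by
    rintro rfl
    apply hα
    rw [← e2]
    ring
  apply mul_left_cancel₀ hb0
  have ha : a = -b := by linear_combination e0
  rw [ha] at e1
  linear_combination e1 - e2 + b * 0

lemma Nrm.sg_mul (hθ : Nrm θ i₀) (h1 : j₁ ≠ i₀) (h2 : j₂ ≠ i₀) (h12 : j₁ ≠ j₂) (c d : F) :
    sg θ i₀ j₁ (c * d) = sg θ i₀ j₁ c * sg θ i₀ j₁ d := by
  have hs0 := hθ.sg_zero h1
  have hs1 := hθ.sg_one h1
  have hu : (bb i₀ + c • bb j₁ + (c * d) • bb j₂ : ι → F) i₀ = 1 := by simp [Pi.single_apply, h1.symm, h2.symm]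
  have hp : (bb i₀ : ι → F) i₀ = 1 := by simp
  have hq : (bb i₀ + bb j₁ + d • bb j₂ : ι → F) i₀ = 1 := by simp [Pi.single_apply, h1.symm, h2.symm]
  have h5 : (bb i₀ + c • bb j₁ + (c * d) • bb j₂ : ι → F) ∈ Submodule.span F {bb i₀, bb i₀ + bb j₁ + d • bb j₂} := by
    rw [Submodule.mem_span_pair]
    refine ⟨1 - c, c, ?_⟩
    funext k
    simp only [Pi.add_apply, Pi.smul_apply, smul_eq_mul]
    ring
  have h6 := hθ.pair_nf (ne_of_coord hu) hp hq h5
  have h7 := hθ.nf_mem hu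
  have h8 : nf θ i₀ (bb i₀ + c • bb j₁ + (c * d) • bb j₂) ∈ Submodule.span F {nf θ i₀ (bb i₀), nf θ i₀ (bb i₀ + bb j₁ + d • bb j₂)} := by
    refine (Submodule.span_le.mpr ?_) h7
    rintro _ rfl
    exact h6
  rw [hθ.nf_eq h1 h2 h12 hu, hθ.nf_eq h1 h2 h12 hp, hθ.nf_eq h1 h2 h12 hq, Submodule.mem_span_pair] at h8
  obtain ⟨a, b, hab⟩ := h8
  have e0 := congrFun hab i₀
  have e1 := congrFun hab j₁
  have e2 := congrFun hab j₂
  simp only [Pi.add_apply, Pi.smul_apply, smul_eq_mul, Pi.single_apply, h1.symm, h2.symm, h1, h2, if_true, if_false,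
    add_zero, zero_add, hs1, hs0, h12, h12.symm, mul_zero, mul_one] at e0 e1 e2
  rw [← e2, ← e1]

/-- The ring homomorphism of the normalised situation. -/
noncomputable def Nrm.ring (hθ : Nrm θ i₀) (h1 : j₁ ≠ i₀) (h2 : j₂ ≠ i₀) (h12 : j₁ ≠ j₂) : F →+* F where
  toFun := sg θ i₀ j₁
  map_one' := hθ.sg_one h1
  map_zero' := hθ.sg_zero h1
  map_add' := hθ.sg_add h1 h2 h12
  map_mul' := hθ.sg_mul h1 h2 h12

lemma Nrm.ring_apply (hθ : Nrm θ i₀) (h1 : j₁ ≠ i₀) (h2 : j₂ ≠ i₀) (h12 : j₁ ≠ j₂) (c : F) :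
    hθ.ring h1 h2 h12 c = sg θ i₀ j₁ c := rfl

theorem Nrm.main (hθ : Nrm θ i₀) (h1 : j₁ ≠ i₀) (h2 : j₂ ≠ i₀) (h12 : j₁ ≠ j₂) (v : ι → F) (hv : v ≠ 0) :
    θ v ∈ Submodule.span F {fun k => hθ.ring h1 h2 h12 (v k)} := by
  set σ := hθ.ring h1 h2 h12 with hσ
  have hnf : ∀ u : ι → F, u i₀ = 1 → nf θ i₀ u = fun k => σ (u k) := fun u hu => hθ.nf_eq h1 h2 h12 hu
  by_cases hv0 : v i₀ = 0
  · -- the hyperplane at infinity
    have hy0 : θ v i₀ = 0 := by
      let S : Set (ι → F) := {x | ∃ i, i ≠ i₀ ∧ x = bb i}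
      have hS : ∀ s ∈ S, s ≠ 0 := by
        rintro s ⟨i, _, rfl⟩
        exact bb_ne i
      have hmem : v ∈ Submodule.span F S := by
        rw [pi_eq_sum_univ v]
        refine Submodule.sum_mem _ fun i _ => ?_
        by_cases h : i = i₀
        · subst h
          rw [hv0, zero_smul]
          exact Submodule.zero_mem _
        refine Submodule.smul_mem _ _ (Submodule.subset_span ⟨i, h, ?_⟩)
        ext k
        simp [Pi.single_apply, eq_comm]
      have h3 := hθ.span S v hv hS hmem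
      have h4 : Submodule.span F (θ '' S) ≤ LinearMap.ker (LinearMap.proj i₀ : (ι → F) →ₗ[F] F) := by
        rw [Submodule.span_le]
        rintro _ ⟨s, ⟨i, hi, rfl⟩, rfl⟩
        obtain ⟨d, hd⟩ := Submodule.mem_span_singleton.mp (hθ.h0 i)
        rw [← hd]
        simp [Pi.single_apply, hi.symm]
      simpa using h4 h3
    have hp : (bb i₀ : ι → F) i₀ = 1 := by simp
    have hq : (bb i₀ + v : ι → F) i₀ = 1 := by simp [hv0]
    have h5 : v ∈ Submodule.span F {bb i₀, bb i₀ + v} := by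
      rw [Submodule.mem_span_pair]
      exact ⟨-1, 1, by simp⟩
    have h6 := hθ.pair_nf hv hp hq h5
    rw [hnf _ hp, hnf _ hq, Submodule.mem_span_pair] at h6
    obtain ⟨a, b, hab⟩ := h6
    have e0 := congrFun hab i₀
    rw [hy0] at e0
    simp only [Pi.add_apply, Pi.smul_apply, smul_eq_mul, Pi.single_apply, if_true, hv0, add_zero, map_one, mul_one] at e0
    have ha : a = -b := by linear_combination e0
    rw [Submodule.mem_span_singleton]
    refine ⟨b, ?_⟩
    rw [← hab, ha]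
    funext k
    simp only [Pi.add_apply, Pi.smul_apply, smul_eq_mul, map_add]
    ring
  · set u : ι → F := (v i₀)⁻¹ • v with hu
    have hu1 : u i₀ = 1 := by
      simp [hu, hv0]
    have h3 : θ u ∈ Submodule.span F {fun k => σ (u k)} := by
      rw [← hnf u hu1]
      exact hθ.mem_nf hu1
    have h4 : v ∈ Submodule.span F {u} := by
      rw [Submodule.mem_span_singleton]
      refine ⟨v i₀, ?_⟩
      rw [hu, smul_smul, mul_inv_cancel₀ hv0, one_smul]
    have h5 := hθ.span {u} v hv (by rintro _ rfl; exact ne_of_coord hu1) h4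
    rw [Set.image_singleton] at h5
    refine (Submodule.span_le.mpr ?_) h5
    rintro _ rfl
    refine (Submodule.span_le.mpr ?_) h3
    rintro _ rfl
    rw [SetLike.mem_coe, Submodule.mem_span_singleton]
    refine ⟨σ (v i₀)⁻¹, ?_⟩
    funext k
    simp [hu]

end Common

/-- The fundamental theorem of projective geometry. -/
theorem ftpg [Fintype F] {θ : (ι → F) → (ι → F)} (hθ : Coll θ)
    (hsurj : ∀ y, y ≠ 0 → ∃ x, x ≠ 0 ∧ y ∈ Submodule.span F {θ x})
    {i₀ j₁ j₂ : ι} (h1 : j₁ ≠ i₀) (h2 : j₂ ≠ i₀) (h12 : j₁ ≠ j₂) :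
    ∃ (g : GL ι F) (σ : F ≃+* F), ∀ v, v ≠ 0 →
      θ v ∈ Submodule.span F {(g : Matrix ι ι F) *ᵥ (fun k => σ (v k))} := by
  classical
  let w : ι → ι → F := fun i => θ (bb i)
  have htop : ⊤ ≤ Submodule.span F (Set.range w) := by
    intro y _
    by_cases hy : y = 0
    · rw [hy]
      exact Submodule.zero_mem _
    obtain ⟨x, hx, hyx⟩ := hsurj y hy
    have h3 : x ∈ Submodule.span F (Set.range (bb : ι → ι → F)) := by
      rw [pi_eq_sum_univ x]
      exact Submodule.sum_mem _ fun i _ => Submodule.smul_mem _ _ (Submodule.subset_span ⟨i, by ext k; simp [Pi.single_apply, eq_comm]⟩)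
    have h4 := hθ.span _ x hx (by
      rintro _ ⟨i, rfl⟩
      exact bb_ne i) h3
    have h5 : θ '' Set.range (bb : ι → ι → F) = Set.range w := by
      ext z
      simp [w]
    rw [h5] at h4
    exact (Submodule.span_le.mpr (by rintro _ rfl; exact h4)) hyx
  have hli : LinearIndependent F w :=
    linearIndependent_of_top_le_span_of_card_eq_finrank htop (by simp)
  -- the scalars
  have hpair : ∀ i, i ≠ i₀ → ∃ κ : F, κ ≠ 0 ∧ θ (bb i₀ + bb i) ∈ Submodule.span F {w i₀ + κ • w i} := by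
    intro i hi
    have hP : (bb i₀ + bb i : ι → F) ≠ 0 := ne_of_coord (i₀ := i₀) (by simp [Pi.single_apply, hi.symm])
    have h3 : θ (bb i₀ + bb i) ∈ Submodule.span F {w i₀, w i} := by
      have := hθ.span {bb i₀, bb i} (bb i₀ + bb i) hP (by
        rintro _ (rfl | rfl) <;> exact bb_ne _) (by
        rw [Submodule.mem_span_pair]
        exact ⟨1, 1, by simp⟩)
      rwa [Set.image_pair] at this
    rw [Submodule.mem_span_pair] at h3
    obtain ⟨a, b, hab⟩ := h3
    have hna : a ≠ 0 := by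
      rintro rfl
      rw [zero_smul, zero_add] at hab
      have h4 : θ (bb i₀ + bb i) ∈ Submodule.span F {θ (bb i)} := by
        rw [Submodule.mem_span_singleton]
        exact ⟨b, hab⟩
      obtain ⟨e, he⟩ := Submodule.mem_span_singleton.mp (hθ.inj _ _ hP (bb_ne i) h4)
      have := congrFun he i₀
      simp [Pi.single_apply, hi.symm, hi] at this
    have hnb : b ≠ 0 := by
      rintro rfl
      rw [zero_smul, add_zero] at hab
      have h4 : θ (bb i₀ + bb i) ∈ Submodule.span F {θ (bb i₀)} := by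
        rw [Submodule.mem_span_singleton]
        exact ⟨a, hab⟩
      obtain ⟨e, he⟩ := Submodule.mem_span_singleton.mp (hθ.inj _ _ hP (bb_ne i₀) h4)
      have := congrFun he i
      simp [Pi.single_apply, hi.symm, hi] at this
    refine ⟨b / a, div_ne_zero hnb hna, ?_⟩
    rw [Submodule.mem_span_singleton]
    refine ⟨a, ?_⟩
    rw [← hab, smul_add, smul_smul, mul_div_cancel₀ _ hna]
  choose! κ hκ0 hκ using hpair
  let κ' : ι → F := fun i => if i = i₀ then 1 else κ i
  have hκ'0 : ∀ i, κ' i ≠ 0 := by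
    intro i
    by_cases hi : i = i₀
    · simp [κ', hi]
    · simp only [κ', hi, if_false]
      exact hκ0 i hi
  let c : ι → ι → F := fun i => κ' i • w i
  have hli' : LinearIndependent F c := by
    have := hli.units_smul (fun i => Units.mk0 (κ' i) (hκ'0 i))
    exact this
  let G : Matrix ι ι F := Matrix.of fun a b => c b a
  have hG : ∀ i, G *ᵥ bb i = c i := by
    intro i
    funext a
    simp [G, mulVec_single_one, Matrix.col_apply]
  have hGu : IsUnit G := by
    rw [← Matrix.linearIndependent_cols_iff_isUnit]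
    exact hli'
  obtain ⟨g, hg⟩ : ∃ g : GL ι F, (g : Matrix ι ι F) = G := ⟨hGu.unit, rfl⟩
  have hginv : ∀ x, ((g⁻¹ : GL ι F) : Matrix ι ι F) *ᵥ ((g : Matrix ι ι F) *ᵥ x) = x := by
    intro x
    rw [mulVec_mulVec, ← Units.val_mul, inv_mul_cancel, Units.val_one, one_mulVec]
  have hginv' : ∀ x, (g : Matrix ι ι F) *ᵥ (((g⁻¹ : GL ι F) : Matrix ι ι F) *ᵥ x) = x := by
    intro x
    rw [mulVec_mulVec, ← Units.val_mul, mul_inv_cancel, Units.val_one, one_mulVec]
  let L : (ι → F) →ₗ[F] (ι → F) := Matrix.mulVecLin ((g⁻¹ : GL ι F) : Matrix ι ι F)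
  have hL : ∀ x, L x = ((g⁻¹ : GL ι F) : Matrix ι ι F) *ᵥ x := fun x => rfl
  have hLinj : ∀ x, L x = 0 → x = 0 := by
    intro x hx
    rw [← hginv' x, ← hL, hx, mulVec_zero]
  let θ' : (ι → F) → (ι → F) := fun v => L (θ v)
  have hLb : ∀ i, L (w i) = (κ' i)⁻¹ • bb i := by
    intro i
    have : w i = (κ' i)⁻¹ • ((g : Matrix ι ι F) *ᵥ bb i) := by
      rw [hg, hG]
      simp only [c]
      rw [smul_smul, inv_mul_cancel₀ (hκ'0 i), one_smul]
    rw [this, map_smul, hL, hginv]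
  have hN : Nrm θ' i₀ := {
    ne := fun v hv h => hθ.ne v hv (hLinj _ h)
    span := by
      intro S u hu hS hmem
      have h3 := hθ.span S u hu hS hmem
      have h4 : L (θ u) ∈ Submodule.map L (Submodule.span F (θ '' S)) := Submodule.mem_map_of_mem h3
      rw [Submodule.map_span, ← Set.image_comp] at h4
      exact h4
    inj := by
      intro u v hu hv h
      apply hθ.inj u v hu hv
      obtain ⟨e, he⟩ := Submodule.mem_span_singleton.mp h
      rw [Submodule.mem_span_singleton]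
      refine ⟨e, ?_⟩
      have h5 : L (e • θ v) = L (θ u) := by
        rw [map_smul]
        exact he
      have h6 := congrArg (fun x => (g : Matrix ι ι F) *ᵥ x) h5
      simp only [hL, hginv'] at h6
      exact h6
    h0 := by
      intro i
      change L (w i) ∈ _
      rw [hLb]
      exact Submodule.smul_mem _ _ (Submodule.mem_span_singleton_self _)
    h1 := by
      intro i hi
      change L (θ (bb i₀ + bb i)) ∈ _
      obtain ⟨e, he⟩ := Submodule.mem_span_singleton.mp (hκ i hi)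
      rw [← he, map_smul, map_add, map_smul, hLb, hLb]
      have h3 : κ' i₀ = 1 := by simp [κ']
      have h4 : κ' i = κ i := by simp [κ', hi]
      rw [h3, h4, smul_smul, mul_inv_cancel₀ (hκ0 i hi), inv_one, one_smul, one_smul]
      exact Submodule.smul_mem _ _ (Submodule.mem_span_singleton_self _) }
  let σ := hN.ring h1 h2 h12
  have hσ : Function.Bijective σ := ⟨σ.injective, Finite.surjective_of_injective σ.injective⟩
  refine ⟨g, RingEquiv.ofBijective σ hσ, ?_⟩
  intro v hv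
  have h3 := hN.main h1 h2 h12 v hv
  obtain ⟨e, he⟩ := Submodule.mem_span_singleton.mp h3
  rw [Submodule.mem_span_singleton]
  refine ⟨e, ?_⟩
  have h6 := congrArg (fun x => (g : Matrix ι ι F) *ᵥ x) he
  simp only [θ', hL, hginv', mulVec_smul] at h6
  exact h6

end CfsgLib.PSA
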