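/-
Root elements of `PSp_{2m}(F)`: lifting commutation and equality, and the double perpendicular.
-/
import Cfsg.Agent.Lib.PSpAut.FTPG
import Cfsg.Agent.Lib.ClassGeo.SpSimple
import Cfsg.Prelude.Def_LieTypeDatum

set_option autoImplicit false
set_option linter.unusedSimpArgs false
set_option linter.unusedVariables false

namespace CfsgLib.PSA

open Matrix Cfsg CfsgLib.ClassGeo

variable {F : Type*} [Field F] {m : ℕ}

local notation "MM" => Matrix (Fin m ⊕ Fin m) (Fin m ⊕ Fin m) F

/-- The symplectic group. -/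
abbrev SP (m : ℕ) (F : Type*) [Field F] := symplecticGroup (Fin m) F

/-- The projection to `PSp`. -/
noncomputable def Pr : SP m F →* PSp m F := QuotientGroup.mk' _

lemma Pr_surj : Function.Surjective (Pr : SP m F →* PSp m F) := QuotientGroup.mk'_surjective _

/-- The root elements of `PSp`. -/
noncomputable def TT (v : Fin m ⊕ Fin m → F) (t : F) : PSp m F := Pr (spT v t)

lemma Pr_eq_iff {x y : SP m F} : Pr x = Pr y ↔ x⁻¹ * y ∈ Subgroup.center (SP m F) := QuotientGroup.eq

lemma fix_scalar (n : SP m F) (hn : ∀ v, v ≠ 0 → (n : MM) *ᵥ v ∈ Submodule.span F {v}) :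
    ∃ a : F, ∀ v, (n : MM) *ᵥ v = a • v := by
  let f : (Fin m ⊕ Fin m → F) →ₗ[F] (Fin m ⊕ Fin m → F) := Matrix.toLin' (n : MM)
  have hf : ∀ v, f v = (n : MM) *ᵥ v := fun v => Matrix.toLin'_apply _ _
  have hcoll : ∀ v, ¬ LinearIndependent F ![v, f v] := by
    intro v hli
    have hv : v ≠ 0 := by
      rintro rfl
      have := hli.ne_zero 0
      simp at this
    obtain ⟨a, ha⟩ := Submodule.mem_span_singleton.mp (hn v hv)
    rw [LinearIndependent.pair_iff] at hli
    have := hli (-a) 1 (by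
      rw [hf, ← ha, one_smul, neg_smul, neg_add_cancel])
    exact one_ne_zero this.2
  obtain ⟨a, ha⟩ := LinearMap.exists_eq_smul_id_of_forall_notLinearIndependent hcoll
  refine ⟨a, fun v => ?_⟩
  rw [← hf, ha]
  simp

lemma center_of_fix (n : SP m F) (hn : ∀ v, v ≠ 0 → (n : MM) *ᵥ v ∈ Submodule.span F {v}) :
    n ∈ Subgroup.center (SP m F) := by
  obtain ⟨a, hscal⟩ := fix_scalar n hn
  rw [Subgroup.mem_center_iff]
  intro g
  apply sp_ext
  intro x
  rw [sp_mul_mulVec, sp_mul_mulVec, hscal, hscal, mulVec_smul]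

lemma sp_inv_apply (g : SP m F) (x : Fin m ⊕ Fin m → F) : ((g⁻¹ : SP m F) : MM) *ᵥ ((g : MM) *ᵥ x) = x := by
  rw [← sp_mul_mulVec, inv_mul_cancel]
  change (1 : MM) *ᵥ x = x
  rw [one_mulVec]

lemma sp_apply_inv (g : SP m F) (x : Fin m ⊕ Fin m → F) : (g : MM) *ᵥ (((g⁻¹ : SP m F) : MM) *ᵥ x) = x := by
  rw [← sp_mul_mulVec, mul_inv_cancel]
  change (1 : MM) *ᵥ x = x
  rw [one_mulVec]

lemma sp_ne (g : SP m F) {x : Fin m ⊕ Fin m → F} (hx : x ≠ 0) : (g : MM) *ᵥ x ≠ 0 := by
  intro h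
  apply hx
  rw [← sp_inv_apply g x, h, mulVec_zero]

lemma exists_symp_ne {v : Fin m ⊕ Fin m → F} (hv : v ≠ 0) : ∃ x, sympForm m F x v ≠ 0 := by
  by_contra h
  push Not at h
  exact hv (symp_nondeg h)

lemma spT_eq_imp {v w : Fin m ⊕ Fin m → F} {t s : F} (hv : v ≠ 0) (ht : t ≠ 0) (h : spT v t = spT w s) :
    v ∈ Submodule.span F {w} := by
  obtain ⟨x, hx⟩ := exists_symp_ne hv
  have h1 : (spT v t : MM) *ᵥ x = (spT w s : MM) *ᵥ x := by rw [h]
  rw [spT_mulVec, spT_mulVec, add_right_inj] at h1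
  rw [Submodule.mem_span_singleton]
  refine ⟨(t * sympForm m F x v)⁻¹ * (s * sympForm m F x w), ?_⟩
  rw [← smul_smul, ← h1, smul_smul, inv_mul_cancel₀ (mul_ne_zero ht hx), one_smul]

lemma spT_pow (v : Fin m ⊕ Fin m → F) (t : F) (k : ℕ) : (spT v t) ^ k = spT v (k * t) := by
  induction k with
  | zero => simp [spT_zero]
  | succ k ih =>
    rw [pow_succ, ih, spT_add]
    congr 1
    push_cast
    ring

lemma spT_ne_one {v : Fin m ⊕ Fin m → F} {t : F} (hv : v ≠ 0) (ht : t ≠ 0) : spT v t ≠ 1 := by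
  intro h
  obtain ⟨x, hx⟩ := exists_symp_ne hv
  have h1 : (spT v t : MM) *ᵥ x = ((1 : SP m F) : MM) *ᵥ x := by rw [h]
  rw [spT_mulVec] at h1
  change _ = (1 : MM) *ᵥ x at h1
  rw [one_mulVec, add_eq_left, smul_eq_zero] at h1
  rcases h1 with h1 | h1
  · exact mul_ne_zero ht hx h1
  · exact hv h1

lemma spT_comm_of_perp {v w : Fin m ⊕ Fin m → F} (t s : F) (h : sympForm m F w v = 0) :
    Commute (spT v t) (spT w s) := by
  have h1 : spT v t * spT w s * (spT v t)⁻¹ = spT w s := by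
    rw [sp_conj_T, spT_mulVec, h]
    simp
  rw [Commute, SemiconjBy]
  rw [mul_inv_eq_iff_eq_mul] at h1
  exact h1

lemma spT_comm_imp {v w : Fin m ⊕ Fin m → F} {t s : F} (hv : v ≠ 0) (hw : w ≠ 0) (ht : t ≠ 0) (hs : s ≠ 0)
    (h : Commute (spT v t) (spT w s)) : sympForm m F w v = 0 := by
  have h1 : spT v t * spT w s * (spT v t)⁻¹ = spT w s := by
    rw [h.eq, mul_inv_cancel_right]
  rw [sp_conj_T] at h1
  have h2 := spT_eq_imp hw hs h1.symm
  obtain ⟨c, hc⟩ := Submodule.mem_span_singleton.mp h2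
  rw [spT_mulVec] at hc
  by_contra hne
  have h3 : c * sympForm m F w v = sympForm m F w v := by
    have := congrArg (fun z => sympForm m F z v) hc
    simp only [symp_smul_left, symp_add_left, symp_self, mul_zero, add_zero] at this
    exact this
  have h4 : c = 1 := by
    apply mul_right_cancel₀ hne
    rw [h3, one_mul]
  rw [h4, one_smul, add_eq_left, smul_eq_zero] at hc
  rcases hc with hc | hc
  · exact mul_ne_zero ht hne hc
  · exact hv hc

lemma center_scalar [NeZero m] {n : SP m F} (hn : n ∈ Subgroup.center (SP m F)) :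
    ∃ a : F, a * a = 1 ∧ ∀ v, (n : MM) *ᵥ v = a • v := by
  have h1 : ∀ v, v ≠ 0 → (n : MM) *ᵥ v ∈ Submodule.span F {v} := by
    intro v hv
    have h2 : n * spT v 1 * n⁻¹ = spT v 1 := by
      rw [(Subgroup.mem_center_iff.mp hn (spT v 1)).symm, mul_inv_cancel_right]
    rw [sp_conj_T] at h2
    exact spT_eq_imp (sp_ne n hv) one_ne_zero h2
  obtain ⟨a, ha⟩ := fix_scalar n h1
  refine ⟨a, ?_, ha⟩
  have hne : (Pi.single (Sum.inl 0) 1 : Fin m ⊕ Fin m → F) ≠ 0 := by
    intro h
    have := congrFun h (Sum.inl 0)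
    simp at this
  obtain ⟨x, hx⟩ := exists_symp_ne hne
  have h2 := (mem_sp_iff (n : MM)).mp n.2 x (Pi.single (Sum.inl 0) 1)
  rw [ha, ha, symp_smul_left, symp_smul_right, ← mul_assoc] at h2
  exact mul_right_cancel₀ hx (by rw [h2, one_mul])

variable {p : ℕ} [hp : Fact p.Prime] [CharP F p]

lemma spT_pow_char (v : Fin m ⊕ Fin m → F) (t : F) : (spT v t) ^ p = 1 := by
  rw [spT_pow, CharP.cast_eq_zero, zero_mul, spT_zero]

lemma center_pow_one [NeZero m] {n : SP m F} (hn : n ∈ Subgroup.center (SP m F)) (h : n ^ p = 1) : n = 1 := by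
  obtain ⟨a, ha, hv⟩ := center_scalar hn
  have hpow : ∀ (k : ℕ) (v : Fin m ⊕ Fin m → F), ((n ^ k : SP m F) : MM) *ᵥ v = a ^ k • v := by
    intro k
    induction k with
    | zero =>
      intro v
      change (1 : MM) *ᵥ v = _
      simp
    | succ k ih =>
      intro v
      rw [pow_succ, sp_mul_mulVec, hv, mulVec_smul, ih, smul_smul, pow_succ, mul_comm]
  have hne : (Pi.single (Sum.inl 0) 1 : Fin m ⊕ Fin m → F) ≠ 0 := by
    intro h
    have := congrFun h (Sum.inl 0)
    simp at this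
  have hap : a ^ p = 1 := by
    have h1 := hpow p (Pi.single (Sum.inl 0) 1)
    rw [h] at h1
    change (1 : MM) *ᵥ _ = _ at h1
    rw [one_mulVec] at h1
    have h2 := congrFun h1 (Sum.inl 0)
    simpa using h2.symm
  have ha1 : a = 1 := by
    rcases hp.out.eq_two_or_odd' with h2 | ⟨k, hk⟩
    · subst h2
      have h3 : (a - 1) * (a - 1) = 0 := by
        have e : (2 : F) = 0 := by exact_mod_cast CharP.cast_eq_zero F 2
        linear_combination ha - (a - 1) * e
      have := mul_self_eq_zero.mp h3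
      exact sub_eq_zero.mp this
    · rw [hk, pow_succ, pow_mul, pow_two, ha, one_pow, one_mul] at hap
      exact hap
  apply sp_ext
  intro x
  rw [hv, ha1, one_smul]
  change _ = (1 : MM) *ᵥ x
  rw [one_mulVec]

lemma eq_of_Pr [NeZero m] {x y : SP m F} (hx : x ^ p = 1) (hy : y ^ p = 1) (h : Pr x = Pr y) : x = y := by
  have hn := Pr_eq_iff.mp h
  set n := x⁻¹ * y with hndef
  have hy' : y = x * n := by rw [hndef, mul_inv_cancel_left]
  have hc : Commute x n := (Subgroup.mem_center_iff.mp hn) x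
  have h1 : n ^ p = 1 := by
    have := hc.mul_pow p
    rw [← hy', hy, hx, one_mul] at this
    exact this.symm
  rw [hy', center_pow_one hn h1, mul_one]

lemma comm_of_Pr [NeZero m] {x y : SP m F} (hy : y ^ p = 1) (h : Commute (Pr x) (Pr y)) : Commute x y := by
  have h1 : (x * y * x⁻¹) ^ p = 1 := by
    rw [conj_pow, hy]
    simp
  have h2 : Pr (x * y * x⁻¹) = Pr y := by
    rw [map_mul, map_mul, map_inv, h.eq, mul_inv_cancel_right]
  have h3 := eq_of_Pr h1 hy h2
  rw [Commute, SemiconjBy]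
  rwa [mul_inv_eq_iff_eq_mul] at h3

lemma TT_conj (g : SP m F) (v : Fin m ⊕ Fin m → F) (t : F) : Pr g * TT v t * (Pr g)⁻¹ = TT ((g : MM) *ᵥ v) t := by
  rw [TT, TT, ← sp_conj_T, map_mul, map_mul, map_inv]

lemma TT_add (v : Fin m ⊕ Fin m → F) (s t : F) : TT v s * TT v t = TT v (s + t) := by
  rw [TT, TT, TT, ← map_mul, spT_add]

lemma TT_zero (v : Fin m ⊕ Fin m → F) : TT v (0 : F) = 1 := by
  rw [TT, spT_zero, map_one]

lemma TT_smul (a : F) (v : Fin m ⊕ Fin m → F) (c : F) : TT (a • v) c = TT v (a * a * c) := by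
  rw [TT, TT, spT_smul]

lemma TT_eq_imp (p : ℕ) [Fact p.Prime] [CharP F p] [NeZero m] {v w : Fin m ⊕ Fin m → F} {t s : F} (hv : v ≠ 0) (ht : t ≠ 0) (h : TT v t = TT w s) :
    v ∈ Submodule.span F {w} :=
  spT_eq_imp hv ht (eq_of_Pr (p := p) (spT_pow_char v t) (spT_pow_char w s) h)

lemma TT_ne_one (p : ℕ) [Fact p.Prime] [CharP F p] [NeZero m] {v : Fin m ⊕ Fin m → F} {t : F} (hv : v ≠ 0) (ht : t ≠ 0) : TT v t ≠ 1 := by
  intro h
  have h1 : Pr (spT v t) = Pr (1 : SP m F) := by rw [map_one]; exact h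
  exact spT_ne_one hv ht (eq_of_Pr (p := p) (spT_pow_char v t) (one_pow _) h1)

lemma TT_comm_iff (p : ℕ) [Fact p.Prime] [CharP F p] [NeZero m] {v w : Fin m ⊕ Fin m → F} {t s : F} (hv : v ≠ 0) (hw : w ≠ 0) (ht : t ≠ 0) (hs : s ≠ 0) :
    Commute (TT v t) (TT w s) ↔ sympForm m F w v = 0 := by
  constructor
  · intro h
    exact spT_comm_imp hv hw ht hs (comm_of_Pr (p := p) (spT_pow_char w s) h)
  · intro h
    have := spT_comm_of_perp t s h
    rw [Commute, SemiconjBy] at this ⊢
    rw [TT, TT, ← map_mul, ← map_mul, this]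

/-- Every linear functional comes from the form. -/
lemma exists_symp_eq (f : (Fin m ⊕ Fin m → F) →ₗ[F] F) : ∃ x, ∀ y, sympForm m F x y = f y := by
  refine ⟨Sum.elim (fun i => - f (Pi.single (Sum.inr i) 1 : Fin m ⊕ Fin m → F)) (fun i => f (Pi.single (Sum.inl i) 1 : Fin m ⊕ Fin m → F)), fun y => ?_⟩
  rw [symp_apply, LinearMap.pi_apply_eq_sum_univ f y, Fintype.sum_sum_type, ← Finset.sum_add_distrib]
  refine Finset.sum_congr rfl fun i _ => ?_
  have e1 : (fun j : Fin m ⊕ Fin m => if Sum.inl i = j then (1 : F) else 0) = Pi.single (Sum.inl i) 1 := by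
    ext k
    simp [Pi.single_apply, eq_comm]
  have e2 : (fun j : Fin m ⊕ Fin m => if Sum.inr i = j then (1 : F) else 0) = Pi.single (Sum.inr i) 1 := by
    ext k
    simp [Pi.single_apply, eq_comm]
  rw [e1, e2]
  simp only [Sum.elim_inl, Sum.elim_inr, smul_eq_mul]
  ring

/-- The double perpendicular of a set is its span. -/
theorem mem_span_iff_perp (S : Set (Fin m ⊕ Fin m → F)) (y : Fin m ⊕ Fin m → F) :
    y ∈ Submodule.span F S ↔ ∀ x, (∀ s ∈ S, sympForm m F x s = 0) → sympForm m F x y = 0 := by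
  constructor
  · intro hy x hx
    induction hy using Submodule.span_induction with
    | mem z hz => exact hx z hz
    | zero => exact symp_zero_right x
    | add a b _ _ ha hb => rw [symp_add_right, ha, hb, add_zero]
    | smul c a _ ha => rw [symp_smul_right, ha, mul_zero]
  · intro h
    by_contra hy
    obtain ⟨f, hf, hker⟩ := Submodule.exists_le_ker_of_notMem hy
    obtain ⟨x, hx⟩ := exists_symp_eq f
    apply hf
    rw [← hx]
    apply h
    intro s hs
    rw [hx]
    exact hker (Submodule.subset_span hs)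

/-- A form with the same perpendicular relation is proportional. -/
theorem similar_of_perp (g : (Fin m ⊕ Fin m → F) →ₗ[F] (Fin m ⊕ Fin m → F))
    (hperp : ∀ x y, sympForm m F x y = 0 → sympForm m F (g x) (g y) = 0)
    (x₀ y₀ : Fin m ⊕ Fin m → F) (h01 : sympForm m F x₀ y₀ = 1) :
    ∃ c : F, ∀ x y, sympForm m F (g x) (g y) = c * sympForm m F x y := by
  set c := sympForm m F (g x₀) (g y₀) with hc
  have step1 : ∀ u, sympForm m F (g u) (g y₀) = sympForm m F u y₀ * c := by
    intro u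
    have h1 : sympForm m F (u - sympForm m F u y₀ • x₀) y₀ = 0 := by
      rw [symp_sub_left, symp_smul_left, h01]
      ring
    have h2 := hperp _ _ h1
    rw [map_sub, map_smul, symp_sub_left, symp_smul_left, sub_eq_zero] at h2
    exact h2
  have step2 : ∀ u w, sympForm m F u y₀ ≠ 0 → sympForm m F (g u) (g w) = c * sympForm m F u w := by
    intro u w hu
    set r := sympForm m F u y₀ with hr
    have h1 : sympForm m F u (w - (sympForm m F u w / r) • y₀) = 0 := by
      rw [symp_sub_right, symp_smul_right, ← hr]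
      field_simp
      ring
    have h2 := hperp _ _ h1
    rw [map_sub, map_smul, symp_sub_right, symp_smul_right, sub_eq_zero, step1, ← hr] at h2
    rw [h2]
    field_simp
  refine ⟨c, fun u w => ?_⟩
  by_cases hu : sympForm m F u y₀ = 0
  · have h1 := step2 (u + x₀) w (by rw [symp_add_left, hu, h01]; simp)
    have h2 := step2 x₀ w (by rw [h01]; simp)
    rw [map_add, symp_add_left, symp_add_left, h2] at h1
    linear_combination h1
  · exact step2 u w hu

end CfsgLib.PSA
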