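/-
An automorphism of `PSp_{2m}(F)` which permutes the root groups is induced by a semilinear similarity.
-/
import Cfsg.Agent.Lib.PSpAut.Points

set_option autoImplicit false
set_option linter.unusedSimpArgs false
set_option linter.unusedVariables false
set_option maxHeartbeats 1000000

namespace CfsgLib.PSA

open Matrix Cfsg CfsgLib.ClassGeo

variable {F : Type*} [Field F] {m : ℕ}

local notation "MM" => Matrix (Fin m ⊕ Fin m) (Fin m ⊕ Fin m) F

/-- The key property of an automorphism: it permutes root groups. -/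
def KeyA (ψ : PSp m F ≃* PSp m F) : Prop :=
  ∀ v : Fin m ⊕ Fin m → F, v ≠ 0 → ∃ v', v' ≠ 0 ∧ ∀ t : F, ∃ a, ψ (TT v t) = TT v' a

lemma symp_map (σ : F ≃+* F) (x y : Fin m ⊕ Fin m → F) :
    sympForm m F (fun k => σ (x k)) (fun k => σ (y k)) = σ (sympForm m F x y) := by
  rw [symp_apply, symp_apply, map_sum]
  refine Finset.sum_congr rfl fun i _ => ?_
  rw [map_sub, map_mul, map_mul]

lemma symp_single (i : Fin m) : sympForm m F (Pi.single (Sum.inr i) 1) (Pi.single (Sum.inl i) 1) = 1 := by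
  rw [symp_apply, Finset.sum_eq_single i]
  · simp
  · intro j _ hj
    simp [Pi.single_apply, hj]
  · simp

/-- The conjugation criterion: the automorphism is determined by its action on points. -/
theorem aut_of_key {p : ℕ} [Fact p.Prime] [CharP F p] [Fintype F] (hm : 2 ≤ m) (ψ : PSp m F ≃* PSp m F)
    (h1 : KeyA ψ) (h2 : KeyA ψ.symm) :
    ∃ (g : GL (Fin m ⊕ Fin m) F) (σ : F ≃+* F), g ∈ GSp m F ∧ IsInducedBySemilinearPSp g σ ψ := by
  classical
  haveI : NeZero m := ⟨by omega⟩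
  choose! θ hne hT using h1
  have ha : ∀ v, v ≠ 0 → ∀ t : F, t ≠ 0 → ∃ a : F, a ≠ 0 ∧ ψ (TT v t) = TT (θ v) a := by
    intro v hv t ht
    obtain ⟨a, ha⟩ := hT v hv t
    refine ⟨a, ?_, ha⟩
    rintro rfl
    rw [TT_zero, map_eq_one_iff _ ψ.injective] at ha
    exact TT_ne_one p hv ht ha
  have hperp : ∀ v w, v ≠ 0 → w ≠ 0 → (sympForm m F w v = 0 ↔ sympForm m F (θ w) (θ v) = 0) := by
    intro v w hv hw
    obtain ⟨a, ha0, ha1⟩ := ha v hv 1 one_ne_zero
    obtain ⟨b, hb0, hb1⟩ := ha w hw 1 one_ne_zero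
    rw [← TT_comm_iff p hv hw one_ne_zero one_ne_zero, ← TT_comm_iff p (hne v hv) (hne w hw) ha0 hb0, ← ha1, ← hb1]
    constructor
    · intro h
      exact h.map ψ
    · intro h
      have h3 : ψ (TT v 1 * TT w 1) = ψ (TT w 1 * TT v 1) := by
        rw [map_mul, map_mul]
        exact h.eq
      exact ψ.injective h3
  have hsurj : ∀ y, y ≠ 0 → ∃ x, x ≠ 0 ∧ y ∈ Submodule.span F {θ x} := by
    intro y hy
    obtain ⟨x, hx, hxT⟩ := h2 y hy
    obtain ⟨a, ha1⟩ := hxT 1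
    have h3 : TT y 1 = ψ (TT x a) := by
      rw [← ha1]
      simp
    have ha0 : a ≠ 0 := by
      rintro rfl
      rw [TT_zero, map_one] at h3
      exact TT_ne_one p hy one_ne_zero h3
    obtain ⟨b, hb0, hb1⟩ := ha x hx a ha0
    rw [hb1] at h3
    exact ⟨x, hx, TT_eq_imp p hy one_ne_zero h3⟩
  have hspan : ∀ (S : Set (Fin m ⊕ Fin m → F)) (u : Fin m ⊕ Fin m → F), u ≠ 0 → (∀ s ∈ S, s ≠ 0) →
      u ∈ Submodule.span F S → θ u ∈ Submodule.span F (θ '' S) := by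
    intro S u hu hS hmem
    rw [mem_span_iff_perp]
    intro x' hx'
    by_cases hx0 : x' = 0
    · rw [hx0, symp_zero_left]
    obtain ⟨x, hx, hxx⟩ := hsurj x' hx0
    obtain ⟨c, hc⟩ := Submodule.mem_span_singleton.mp hxx
    have hc0 : c ≠ 0 := by
      rintro rfl
      rw [zero_smul] at hc
      exact hx0 hc.symm
    have h3 : ∀ s ∈ S, sympForm m F x s = 0 := by
      intro s hs
      rw [hperp s x (hS s hs) hx]
      have := hx' _ ⟨s, hs, rfl⟩
      rw [← hc, symp_smul_left] at this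
      exact (mul_eq_zero.mp this).resolve_left hc0
    have h4 := (mem_span_iff_perp S u).mp hmem x h3
    rw [hperp u x hu hx] at h4
    rw [← hc, symp_smul_left, h4, mul_zero]
  have hinj : ∀ u v, u ≠ 0 → v ≠ 0 → θ u ∈ Submodule.span F {θ v} → u ∈ Submodule.span F {v} := by
    intro u v hu hv hmem
    rw [mem_span_iff_perp]
    intro x hx
    by_cases hx0 : x = 0
    · rw [hx0, symp_zero_left]
    rw [hperp u x hu hx0]
    have h3 := hx v rfl
    rw [hperp v x hv hx0] at h3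
    exact (mem_span_iff_perp _ _).mp hmem _ (by rintro _ rfl; exact h3)
  have hC : Coll θ := ⟨hne, hspan, hinj⟩
  have hm0 : 0 < m := by omega
  have hm1 : 1 < m := by omega
  obtain ⟨g, σ, hgσ⟩ := ftpg hC hsurj (i₀ := Sum.inl ⟨0, hm0⟩) (j₁ := Sum.inr ⟨0, hm0⟩) (j₂ := Sum.inl ⟨1, hm1⟩)
    (by simp) (by simp) (by simp)
  refine ⟨g, σ, ?_⟩
  have hcoef : ∀ v, v ≠ 0 → ∃ c : F, c ≠ 0 ∧ c • ((g : MM) *ᵥ (fun k => σ (v k))) = θ v := by
    intro v hv
    obtain ⟨c, hc⟩ := Submodule.mem_span_singleton.mp (hgσ v hv)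
    refine ⟨c, ?_, hc⟩
    rintro rfl
    rw [zero_smul] at hc
    exact hne v hv hc.symm
  have hginv : ∀ x, ((g⁻¹ : GL (Fin m ⊕ Fin m) F) : MM) *ᵥ ((g : MM) *ᵥ x) = x := by
    intro x
    rw [mulVec_mulVec, ← Units.val_mul, inv_mul_cancel, Units.val_one, one_mulVec]
  have hginv' : ∀ x, (g : MM) *ᵥ (((g⁻¹ : GL (Fin m ⊕ Fin m) F) : MM) *ᵥ x) = x := by
    intro x
    rw [mulVec_mulVec, ← Units.val_mul, mul_inv_cancel, Units.val_one, one_mulVec]
  -- the inverse of the field map on vectors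
  have hσ1 : ∀ x : Fin m ⊕ Fin m → F, (fun k => σ ((fun k => σ.symm (x k)) k)) = x := by
    intro x
    funext k
    simp
  have hσ0 : ∀ x : Fin m ⊕ Fin m → F, x ≠ 0 → (fun k => σ.symm (x k)) ≠ 0 := by
    intro x hx h
    apply hx
    funext k
    have := congrFun h k
    simpa using this
  have hgperp : ∀ x y : Fin m ⊕ Fin m → F, sympForm m F x y = 0 →
      sympForm m F (Matrix.mulVecLin (g : MM) x) (Matrix.mulVecLin (g : MM) y) = 0 := by
    intro x y hxy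
    simp only [Matrix.mulVecLin_apply]
    by_cases hx : x = 0
    · rw [hx, mulVec_zero, symp_zero_left]
    by_cases hy : y = 0
    · rw [hy, mulVec_zero, symp_zero_right]
    set x₁ : Fin m ⊕ Fin m → F := fun k => σ.symm (x k) with hx₁
    set y₁ : Fin m ⊕ Fin m → F := fun k => σ.symm (y k) with hy₁
    have hx₁0 := hσ0 x hx
    have hy₁0 := hσ0 y hy
    have h3 : sympForm m F y₁ x₁ = 0 := by
      have h4 := symp_map σ y₁ x₁
      rw [hσ1 y, hσ1 x, symp_skew, hxy, neg_zero] at h4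
      exact (map_eq_zero_iff _ σ.injective).mp h4.symm
    rw [hperp x₁ y₁ hx₁0 hy₁0] at h3
    obtain ⟨c, hc, hc1⟩ := hcoef x₁ hx₁0
    obtain ⟨d, hd, hd1⟩ := hcoef y₁ hy₁0
    rw [← hc1, ← hd1, hσ1 x, hσ1 y, symp_smul_left, symp_smul_right, symp_skew] at h3
    have h5 := (mul_eq_zero.mp h3).resolve_left hd
    have h6 := (mul_eq_zero.mp h5).resolve_left hc
    simpa using h6
  have hx01 : sympForm m F (Pi.single (Sum.inr ⟨0, hm0⟩) 1) (Pi.single (Sum.inl ⟨0, hm0⟩) 1) = 1 := symp_single _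
  obtain ⟨c, hcg⟩ := similar_of_perp (Matrix.mulVecLin (g : MM)) hgperp _ _ hx01
  have hc0 : c ≠ 0 := by
    rintro rfl
    have h3 := hcg (((g⁻¹ : GL (Fin m ⊕ Fin m) F) : MM) *ᵥ (Pi.single (Sum.inr ⟨0, hm0⟩) 1))
      (((g⁻¹ : GL (Fin m ⊕ Fin m) F) : MM) *ᵥ (Pi.single (Sum.inl ⟨0, hm0⟩) 1))
    simp only [Matrix.mulVecLin_apply, hginv', hx01, zero_mul] at h3
    exact one_ne_zero h3
  constructor
  · exact ⟨Units.mk0 c hc0, fun u v => by simpa using hcg u v⟩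
  · intro s s' hs
    obtain ⟨y, hy⟩ := Pr_surj (ψ (Pr s))
    change ψ (Pr s) = Pr s'
    rw [← hy, Pr_eq_iff]
    apply center_of_fix
    intro w hw
    -- write `w` through the field map
    set w₀ : Fin m ⊕ Fin m → F := ((g⁻¹ : GL (Fin m ⊕ Fin m) F) : MM) *ᵥ w with hw₀
    have hw₀0 : w₀ ≠ 0 := by
      intro h
      apply hw
      rw [← hginv' w, ← hw₀, h, mulVec_zero]
    set v : Fin m ⊕ Fin m → F := fun k => σ.symm (w₀ k) with hv
    have hv0 : v ≠ 0 := hσ0 w₀ hw₀0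
    have hwv : (g : MM) *ᵥ (fun k => σ (v k)) = w := by
      rw [hv, hσ1, hw₀, hginv']
    have hsv : (fun k => σ (((s : MM) *ᵥ v) k)) = (s : MM).map σ *ᵥ (fun k => σ (v k)) := by
      funext k
      exact RingHom.map_mulVec (σ : F →+* F) (s : MM) v k
    have hs'w : (s' : MM) *ᵥ w = (g : MM) *ᵥ (fun k => σ (((s : MM) *ᵥ v) k)) := by
      rw [hs, hsv, ← hwv, mulVec_mulVec, mulVec_mulVec]
      congr 1
      rw [mul_assoc _ _ (g : MM), ← Units.val_mul, inv_mul_cancel, Units.val_one, mul_one]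
    have hsv0 : (s : MM) *ᵥ v ≠ 0 := sp_ne s hv0
    have hrel : ψ (TT ((s : MM) *ᵥ v) 1) = Pr y * ψ (TT v 1) * (Pr y)⁻¹ := by
      rw [← TT_conj, map_mul, map_mul, map_inv, hy]
    obtain ⟨a₁, ha₁, ha₁e⟩ := ha _ hsv0 1 one_ne_zero
    obtain ⟨a₂, ha₂, ha₂e⟩ := ha _ hv0 1 one_ne_zero
    rw [ha₁e, ha₂e, TT_conj] at hrel
    have h3 := TT_eq_imp p (hne _ hsv0) ha₁ hrel
    obtain ⟨c₁, hc₁, hc₁e⟩ := hcoef _ hsv0
    obtain ⟨c₂, hc₂, hc₂e⟩ := hcoef _ hv0
    rw [← hc₁e, ← hc₂e, hwv, ← hs'w, mulVec_smul] at h3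
    obtain ⟨e, he⟩ := Submodule.mem_span_singleton.mp h3
    rw [Submodule.mem_span_singleton]
    refine ⟨c₁⁻¹ * e * c₂, ?_⟩
    rw [sp_mul_mulVec]
    have h4 : (s' : MM) *ᵥ w = (c₁⁻¹ * e * c₂) • ((y : MM) *ᵥ w) := by
      have h5 := congrArg (fun z => c₁⁻¹ • z) he
      simp only [smul_smul, inv_mul_cancel₀ hc₁, one_smul] at h5
      rw [← h5, mul_assoc]
    rw [h4, mulVec_smul, sp_inv_apply]

end CfsgLib.PSA
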