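/-
The unitriangular subgroup of the symplectic group and the elements of it which we use.
-/
import Cfsg.Agent.Lib.PSpAut.Main

set_option autoImplicit false
set_option linter.unusedSimpArgs false
set_option linter.unusedVariables false
set_option maxHeartbeats 1000000

namespace CfsgLib.PSA

open Matrix Cfsg CfsgLib.ClassGeo

variable {F : Type*} [Field F] {m : ℕ}

local notation "MM" => Matrix (Fin m ⊕ Fin m) (Fin m ⊕ Fin m) F

/-- The position of a basis vector in the flag. -/
def rk (m : ℕ) : Fin m ⊕ Fin m → ℕ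
  | Sum.inl i => i
  | Sum.inr i => 2 * m - 1 - i

lemma rk_lt (a : Fin m ⊕ Fin m) : rk m a < 2 * m := by
  rcases a with i | i
  · have := i.2
    simp only [rk]
    omega
  · have := i.2
    simp only [rk]
    omega

/-- Strictly upper triangular matrices. -/
def Strict (N : MM) : Prop := ∀ a b, N a b ≠ 0 → rk m a < rk m b

lemma strict_zero : Strict (0 : MM) := fun a b h => absurd rfl h

lemma strict_add {N M : MM} (hN : Strict N) (hM : Strict M) : Strict (N + M) := by
  intro a b h
  by_cases h1 : N a b = 0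
  · apply hM
    intro h2
    apply h
    simp [h1, h2]
  · exact hN a b h1

lemma strict_mul {N M : MM} (hN : Strict N) (hM : Strict M) : Strict (N * M) := by
  intro a b h
  rw [Matrix.mul_apply] at h
  obtain ⟨c, _, hc⟩ := Finset.exists_ne_zero_of_sum_ne_zero h
  have h1 := hN a c (left_ne_zero_of_mul hc)
  have h2 := hM c b (right_ne_zero_of_mul hc)
  omega

lemma strict_pow {N : MM} (hN : Strict N) (k : ℕ) (a b) (h : (N ^ k) a b ≠ 0) : rk m a + k ≤ rk m b := by
  induction k generalizing b with
  | zero =>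
    have : a = b := by
      by_contra hab
      rw [pow_zero, Matrix.one_apply_ne hab] at h
      exact h rfl
    rw [this]
    omega
  | succ k ih =>
    rw [pow_succ, Matrix.mul_apply] at h
    obtain ⟨c, _, hc⟩ := Finset.exists_ne_zero_of_sum_ne_zero h
    have h1 := ih c (left_ne_zero_of_mul hc)
    have h2 := hN c b (right_ne_zero_of_mul hc)
    omega

lemma strict_pow_zero {N : MM} (hN : Strict N) (k : ℕ) (hk : 2 * m ≤ k) : N ^ k = 0 := by
  ext a b
  by_contra h
  have h1 := strict_pow hN k a b h
  have h2 := rk_lt b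
  rw [Matrix.zero_apply] at h
  omega

lemma strict_mul_unit {s t : MM} (hs : Strict (s - 1)) (ht : Strict (t - 1)) : Strict (s * t - 1) := by
  have e : s * t - 1 = (s - 1) + (t - 1) + (s - 1) * (t - 1) := by noncomm_ring
  rw [e]
  exact strict_add (strict_add hs ht) (strict_mul hs ht)

/-- The unitriangular subgroup. -/
def UU₀ (m : ℕ) (F : Type*) [Field F] [Finite F] : Subgroup (SP m F) where
  carrier := {s | Strict ((s : Matrix (Fin m ⊕ Fin m) (Fin m ⊕ Fin m) F) - 1)}
  mul_mem' := fun {a b} ha hb => by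
    change Strict (((a : Matrix (Fin m ⊕ Fin m) (Fin m ⊕ Fin m) F) * (b : Matrix (Fin m ⊕ Fin m) (Fin m ⊕ Fin m) F)) - 1)
    exact strict_mul_unit ha hb
  one_mem' := by
    change Strict ((1 : Matrix (Fin m ⊕ Fin m) (Fin m ⊕ Fin m) F) - 1)
    rw [sub_self]
    exact strict_zero
  inv_mem' := fun {a} ha => by
    have key : ∀ k : ℕ, Strict (((a ^ k : SP m F) : Matrix (Fin m ⊕ Fin m) (Fin m ⊕ Fin m) F) - 1) := by
      intro k
      induction k with
      | zero =>
        change Strict ((1 : Matrix (Fin m ⊕ Fin m) (Fin m ⊕ Fin m) F) - 1)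
        rw [sub_self]
        exact strict_zero
      | succ k ih =>
        rw [pow_succ]
        change Strict ((((a ^ k : SP m F) : Matrix (Fin m ⊕ Fin m) (Fin m ⊕ Fin m) F) * (a : Matrix (Fin m ⊕ Fin m) (Fin m ⊕ Fin m) F)) - 1)
        exact strict_mul_unit ih ha
    have e : a⁻¹ = a ^ (orderOf a - 1) := by
      apply inv_eq_of_mul_eq_one_right
      rw [← pow_succ', Nat.sub_add_cancel (orderOf_pos a), pow_orderOf_eq_one]
    change Strict (((a⁻¹ : SP m F) : Matrix (Fin m ⊕ Fin m) (Fin m ⊕ Fin m) F) - 1)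
    rw [e]
    exact key _

lemma mem_UU₀ [Finite F] {s : SP m F} : s ∈ UU₀ m F ↔ Strict ((s : MM) - 1) := Iff.rfl

lemma isPGroup_UU₀ [Finite F] [NeZero m] (p : ℕ) [Fact p.Prime] [CharP F p] : IsPGroup p (UU₀ m F) := by
  intro g
  refine ⟨2 * m, ?_⟩
  apply Subtype.ext
  apply Subtype.ext
  have hg : Strict (((g : SP m F) : MM) - 1) := g.2
  have hk : 2 * m ≤ p ^ (2 * m) := (Nat.lt_pow_self (Fact.out : p.Prime).one_lt).le
  have h1 := strict_pow_zero hg _ hk
  have h2 : ((g : SP m F) : MM) = ((g : SP m F) : MM) - 1 + 1 := by abel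
  have h3 : ((g : SP m F) : MM) ^ p ^ (2 * m) = 1 := by
    rw [h2, add_pow_expChar_pow_of_commute _ _ (Commute.one_right _), one_pow, h1, zero_add]
  change ((((g ^ p ^ (2 * m) : UU₀ m F) : SP m F)) : MM) = 1
  simpa using h3

/-- A criterion through the action on basis vectors. -/
lemma mem_UU₀_of_action [Finite F] {s : SP m F}
    (h : ∀ a b, ((s : MM) *ᵥ Pi.single b 1) a - (Pi.single b 1 : Fin m ⊕ Fin m → F) a ≠ 0 → rk m a < rk m b) :
    s ∈ UU₀ m F := by
  intro a b hab
  apply h
  have e : ((s : MM) - 1) a b = ((s : MM) *ᵥ Pi.single b 1) a - (Pi.single b 1 : Fin m ⊕ Fin m → F) a := by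
    rw [Matrix.sub_apply, mulVec_single_one, Matrix.col_apply, Matrix.one_apply, Pi.single_apply]
  rwa [← e]

/-- The basis vectors. -/
abbrev EE (i : Fin m) : Fin m ⊕ Fin m → F := Pi.single (Sum.inl i) 1
/-- The basis vectors. -/
abbrev FF (i : Fin m) : Fin m ⊕ Fin m → F := Pi.single (Sum.inr i) 1

lemma symp_E_right (x : Fin m ⊕ Fin m → F) (i : Fin m) : sympForm m F x (EE i) = x (Sum.inr i) := by
  rw [symp_apply, Finset.sum_eq_single i]
  · simp
  · intro j _ hj
    simp [hj]
  · simp

lemma symp_F_right (x : Fin m ⊕ Fin m → F) (i : Fin m) : sympForm m F x (FF i) = - x (Sum.inl i) := by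
  rw [symp_apply, Finset.sum_eq_single i]
  · simp
  · intro j _ hj
    simp [hj]
  · simp

lemma symp_E_left (x : Fin m ⊕ Fin m → F) (i : Fin m) : sympForm m F (EE i) x = - x (Sum.inr i) := by
  rw [symp_skew, symp_E_right]

lemma symp_F_left (x : Fin m ⊕ Fin m → F) (i : Fin m) : sympForm m F (FF i) x = x (Sum.inl i) := by
  rw [symp_skew, symp_F_right, neg_neg]

lemma EE_inr (i j : Fin m) : (EE i : Fin m ⊕ Fin m → F) (Sum.inr j) = 0 := by simp
lemma FF_inl (i j : Fin m) : (FF i : Fin m ⊕ Fin m → F) (Sum.inl j) = 0 := by simp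
lemma EE_ne (i : Fin m) : (EE i : Fin m ⊕ Fin m → F) ≠ 0 := by
  intro h
  have := congrFun h (Sum.inl i)
  simp at this
lemma FF_ne (i : Fin m) : (FF i : Fin m ⊕ Fin m → F) ≠ 0 := by
  intro h
  have := congrFun h (Sum.inr i)
  simp at this

/-- Vectors in the standard Lagrangian. -/
def IsL (v : Fin m ⊕ Fin m → F) : Prop := ∀ i, v (Sum.inr i) = 0

lemma isL_symp {u v : Fin m ⊕ Fin m → F} (hu : IsL u) (hv : IsL v) : sympForm m F u v = 0 := by
  rw [symp_apply]
  apply Finset.sum_eq_zero
  intro i _
  rw [hu i, hv i]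
  ring

lemma spT_mem_UU₀ [Finite F] {v : Fin m ⊕ Fin m → F} (hv : IsL v) (t : F) : spT v t ∈ UU₀ m F := by
  apply mem_UU₀_of_action
  intro a b h
  rw [spT_mulVec, Pi.add_apply, add_sub_cancel_left, Pi.smul_apply, smul_eq_mul] at h
  have h1 := right_ne_zero_of_mul h
  have h2 := right_ne_zero_of_mul (left_ne_zero_of_mul h)
  rcases a with i | i
  · rcases b with j | j
    · exfalso
      apply h2
      rw [symp_skew, symp_apply]
      have : v (Sum.inr j) = 0 := hv j
      change - ∑ i, (v (Sum.inr i) * (EE j) (Sum.inl i) - v (Sum.inl i) * (EE j) (Sum.inr i)) = 0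
      simp [hv _]
    · simp only [rk]
      have := i.2
      have := j.2
      omega
  · exact absurd (hv i) h1

/-- The short root elements. -/
lemma spS_mem_UU₀ [Finite F] {i j : Fin m} (hij : i < j) (t : F) : spS (EE i) (FF j) t ∈ UU₀ m F := by
  have hB : sympForm m F (EE i) (FF j) = 0 := by
    rw [symp_F_right]
    simp [hij.ne]
  apply mem_UU₀_of_action
  intro a b h
  rw [spS_mulVec _ _ hB] at h
  simp only [Pi.add_apply, Pi.smul_apply, smul_eq_mul, add_assoc, add_sub_cancel_left, symp_E_right, symp_F_right] at h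
  rcases a with k | k
  · rcases b with l | l
    · simp only [Pi.single_apply, Sum.inl.injEq, reduceCtorEq, if_false, mul_zero, add_zero] at h
      have h1 : l = j := by
        by_contra hl
        apply h
        simp [Ne.symm hl]
      have h2 : k = i := by
        by_contra hk
        apply h
        simp [hk]
      subst h1 h2
      exact hij
    · simp [Pi.single_apply] at h
  · rcases b with l | l
    · simp [Pi.single_apply] at h
    · simp only [Pi.single_apply, Sum.inr.injEq, reduceCtorEq, if_false, mul_zero, zero_add] at h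
      have h1 : l = i := by
        by_contra hl
        apply h
        simp [Ne.symm hl]
      have h2 : k = j := by
        by_contra hk
        apply h
        simp [hk]
      subst h1 h2
      have := hij
      have h3 := k.2
      have h4 : (l : ℕ) < k := hij
      simp only [rk]
      omega

end CfsgLib.PSA
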