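/-
The centraliser of the unitriangular group in `PSp`.
-/
import Cfsg.Agent.Lib.PSpAut.Uni

set_option autoImplicit false
set_option linter.unusedSimpArgs false
set_option linter.unusedVariables false
set_option maxHeartbeats 1000000

namespace CfsgLib.PSA

open Matrix Cfsg CfsgLib.ClassGeo

variable {F : Type*} [Field F] {m : ℕ}

local notation "MM" => Matrix (Fin m ⊕ Fin m) (Fin m ⊕ Fin m) F

lemma spS_mul' {x y : Fin m ⊕ Fin m → F} (h : sympForm m F x y = 0) (c d : F) :
    spS x y c * spS x y d = spS x y (c + d) := by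
  have hyx : sympForm m F y x = 0 := by rw [symp_skew, h, neg_zero]
  apply sp_ext
  intro z
  rw [sp_mul_mulVec, spS_mulVec x y h, spS_mulVec x y h, spS_mulVec x y h]
  simp only [symp_add_left, symp_smul_left, hyx, h, symp_self]
  funext k
  simp only [Pi.add_apply, Pi.smul_apply, smul_eq_mul]
  ring

lemma spS_zero' {x y : Fin m ⊕ Fin m → F} (h : sympForm m F x y = 0) : spS x y (0 : F) = 1 := by
  apply sp_ext
  intro z
  rw [spS_mulVec x y h]
  change _ = (1 : MM) *ᵥ z
  simp

lemma spS_pow' {x y : Fin m ⊕ Fin m → F} (h : sympForm m F x y = 0) (c : F) (k : ℕ) :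
    (spS x y c) ^ k = spS x y (k * c) := by
  induction k with
  | zero => simp [spS_zero' h]
  | succ k ih =>
    rw [pow_succ, ih, spS_mul' h]
    congr 1
    push_cast
    ring

lemma spS_pow_char {p : ℕ} [CharP F p] {x y : Fin m ⊕ Fin m → F} (h : sympForm m F x y = 0) (c : F) :
    (spS x y c) ^ p = 1 := by
  rw [spS_pow' h, CharP.cast_eq_zero, zero_mul, spS_zero' h]

lemma sp_conj_S' (g : SP m F) (x y : Fin m ⊕ Fin m → F) (c : F) :
    g * spS x y c * g⁻¹ = spS ((g : MM) *ᵥ x) ((g : MM) *ᵥ y) c := by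
  simp only [spS]
  have e : g * (spT (x + y) c * spT x (-c) * spT y (-c)) * g⁻¹ =
      (g * spT (x + y) c * g⁻¹) * (g * spT x (-c) * g⁻¹) * (g * spT y (-c) * g⁻¹) := by group
  rw [e, sp_conj_T, sp_conj_T, sp_conj_T, mulVec_add]

/-- The centraliser of the unitriangular group. -/
theorem central_form {p : ℕ} [Fact p.Prime] [CharP F p] [Finite F] [NeZero m] {i0 i1 : Fin m} (h01 : i0 < i1)
    (hj : ∀ j, j ≠ i0 → j ≠ i1 → i1 < j) (z : SP m F) (hz : ∀ u ∈ UU₀ m F, Commute (Pr z) (Pr u)) :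
    ∃ a b : F, 2 * b = 0 ∧ Pr z = Pr (spT (EE i0) a * spS (EE i0) (EE i1) b) := by
  have hcT : ∀ v, IsL v → Commute z (spT v 1) := fun v hv =>
    comm_of_Pr (p := p) (spT_pow_char v 1) (hz _ (spT_mem_UU₀ hv 1))
  have hL : ∀ v, IsL v → v ≠ 0 → ∃ a : F, a * a = 1 ∧ (z : MM) *ᵥ v = a • v := by
    intro v hv hv0
    have h1 : z * spT v 1 * z⁻¹ = spT v 1 := by rw [(hcT v hv).eq, mul_inv_cancel_right]
    rw [sp_conj_T] at h1
    obtain ⟨a, ha⟩ := Submodule.mem_span_singleton.mp (spT_eq_imp (sp_ne z hv0) one_ne_zero h1)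
    refine ⟨a, ?_, ha.symm⟩
    rw [← ha, spT_smul] at h1
    obtain ⟨x, hx⟩ := exists_symp_ne hv0
    have h2 : (spT v (a * a * 1) : MM) *ᵥ x = (spT v 1 : MM) *ᵥ x := by rw [h1]
    rw [spT_mulVec, spT_mulVec, add_right_inj] at h2
    have h3 : a * a * 1 * sympForm m F x v = 1 * sympForm m F x v := smul_left_injective F hv0 h2
    rw [mul_one, one_mul] at h3
    exact mul_right_cancel₀ hx (by rw [h3, one_mul])
  have hisL : ∀ i, IsL (EE i : Fin m ⊕ Fin m → F) := fun i j => EE_inr i j
  obtain ⟨ε, hε, hε0⟩ := hL (EE i0) (hisL i0) (EE_ne i0)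
  have hE : ∀ i, (z : MM) *ᵥ EE i = ε • EE i := by
    intro i
    by_cases hi : i = i0
    · rw [hi, hε0]
    obtain ⟨a, _, ha⟩ := hL (EE i) (hisL i) (EE_ne i)
    have hne : (EE i + EE i0 : Fin m ⊕ Fin m → F) ≠ 0 := by
      intro h
      have := congrFun h (Sum.inl i)
      simp [hi] at this
    have hisl : IsL (EE i + EE i0 : Fin m ⊕ Fin m → F) := by
      intro j
      simp
    obtain ⟨c, _, hc⟩ := hL _ hisl hne
    rw [mulVec_add, ha, hε0] at hc
    have e1 := congrFun hc (Sum.inl i)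
    have e2 := congrFun hc (Sum.inl i0)
    simp [hi, Ne.symm hi] at e1 e2
    rw [ha, e1, e2]
  let L : (Fin m ⊕ Fin m → F) →ₗ[F] (Fin m ⊕ Fin m → F) := ε • Matrix.mulVecLin (z : MM) - LinearMap.id
  have hLdef : ∀ x, L x = ε • ((z : MM) *ᵥ x) - x := fun x => rfl
  have hzL : ∀ x, ε • ((z : MM) *ᵥ x) = x + L x := by
    intro x
    rw [hLdef]
    abel
  have hwE : ∀ i, ε • ((z : MM) *ᵥ EE i) = (EE i : Fin m ⊕ Fin m → F) := by
    intro i
    rw [hE, smul_smul, hε, one_smul]
  have hLE : ∀ i, L (EE i) = 0 := by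
    intro i
    rw [hLdef, hwE, sub_self]
  have hBw : ∀ x y, sympForm m F (ε • ((z : MM) *ᵥ x)) (ε • ((z : MM) *ᵥ y)) = sympForm m F x y := by
    intro x y
    rw [symp_smul_left, symp_smul_right, sp_preserves, ← mul_assoc, hε, one_mul]
  have hLinr : ∀ x, IsL (L x) := by
    intro x i
    rw [← symp_E_right (L x) i, hLdef, symp_sub_left]
    have := hBw x (EE i)
    rw [hwE] at this
    rw [this, sub_self]
  have hSym : ∀ x y, sympForm m F (L x) y = sympForm m F (L y) x := by
    intro x y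
    have h1 := hBw x y
    rw [hzL, hzL, symp_add_left, symp_add_right, symp_add_right, isL_symp (hLinr x) (hLinr y),
      symp_skew x (L y)] at h1
    linear_combination h1
  have hComm : ∀ i j : Fin m, i < j → ∀ x, sympForm m F x (EE i) • L (FF j) = sympForm m F (L x) (FF j) • EE i := by
    intro i j hij x
    have hB : sympForm m F (EE i) (FF j) = 0 := by
      rw [symp_F_right]
      simp [hij.ne]
    set g := spS (EE i) (FF j) (1 : F) with hg
    have hcg : Commute z g := comm_of_Pr (p := p) (spS_pow_char hB 1) (hz _ (spS_mem_UU₀ hij 1))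
    have hgact : ∀ y, (g : MM) *ᵥ y = y + (1 * sympForm m F y (FF j)) • EE i + (1 * sympForm m F y (EE i)) • FF j :=
      fun y => spS_mulVec _ _ hB _ y
    have hLg : L ((g : MM) *ᵥ x) = L x + sympForm m F x (EE i) • L (FF j) := by
      rw [hgact]
      simp only [map_add, map_smul, hLE, smul_zero, add_zero, one_mul, smul_eq_mul]
    have h1 : ε • ((z : MM) *ᵥ ((g : MM) *ᵥ x)) = (g : MM) *ᵥ x + L ((g : MM) *ᵥ x) := hzL _
    have h2 : (z : MM) *ᵥ ((g : MM) *ᵥ x) = (g : MM) *ᵥ ((z : MM) *ᵥ x) := by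
      rw [← sp_mul_mulVec, ← sp_mul_mulVec, hcg.eq]
    have h3 : ε • ((g : MM) *ᵥ ((z : MM) *ᵥ x)) = (g : MM) *ᵥ (x + L x) := by
      rw [← mulVec_smul, hzL]
    rw [h2, h3, hLg, hgact, hgact] at h1
    have hEi : sympForm m F (L x) (EE i) = 0 := by
      rw [symp_E_right]
      exact hLinr x i
    simp only [symp_add_left, hEi, add_zero] at h1
    funext k
    have := congrFun h1 k
    simp only [Pi.add_apply, Pi.smul_apply, smul_eq_mul, one_mul] at this ⊢
    linear_combination -this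
  have hb : ∀ i j : Fin m, i < j → L (FF j) = sympForm m F (L (FF i)) (FF j) • EE i := by
    intro i j hij
    have := hComm i j hij (FF i)
    rw [symp_E_right] at this
    simpa using this
  have hb2 : ∀ i j : Fin m, i < j → 2 * sympForm m F (L (FF i)) (FF j) = 0 := by
    intro i j hij
    have h1 := hSym (FF i) (FF j)
    rw [hb i j hij, symp_smul_left, symp_F_right (EE i) i] at h1
    have e : (EE i : Fin m ⊕ Fin m → F) (Sum.inl i) = 1 := by simp
    rw [e] at h1
    linear_combination h1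
  set b := sympForm m F (L (FF i0)) (FF i1) with hbdef
  have hb20 : 2 * b = 0 := hb2 i0 i1 h01
  set a := (L (FF i0)) (Sum.inl i0) with hadef
  have hF1 : L (FF i1) = b • EE i0 := hb i0 i1 h01
  have hFj : ∀ j, j ≠ i0 → j ≠ i1 → L (FF j) = 0 := by
    intro j h1 h2
    have hi1 := hj j h1 h2
    have h3 := hb i0 j (h01.trans hi1)
    have h4 := hb i1 j hi1
    have h5 := congrFun (h3.symm.trans h4) (Sum.inl i0)
    simp [h01.ne, h01.ne'] at h5
    rw [h3, h5, zero_smul]
  have hF0 : L (FF i0) = a • EE i0 + b • EE i1 := by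
    funext k
    rcases k with l | l
    · by_cases h1 : l = i0
      · subst h1
        simp [hadef, h01.ne]
      by_cases h2 : l = i1
      · subst h2
        have e : (L (FF i0)) (Sum.inl l) = - b := by
          rw [hbdef, symp_F_right, neg_neg]
        rw [e]
        simp [h01.ne']
        linear_combination -hb20
      · have e := symp_F_right (L (FF i0)) l
        rw [hSym, hFj l h1 h2, symp_zero_left] at e
        have e' : (L (FF i0)) (Sum.inl l) = 0 := by linear_combination e
        rw [e']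
        simp [Ne.symm h1, Ne.symm h2]
    · rw [hLinr _ l]
      simp
  have hLx : ∀ x, L x = x (Sum.inr i0) • (a • EE i0 + b • EE i1) + x (Sum.inr i1) • (b • EE i0) := by
    intro x
    rw [LinearMap.pi_apply_eq_sum_univ L x, Fintype.sum_sum_type]
    have e1 : ∀ i : Fin m, (fun j : Fin m ⊕ Fin m => if Sum.inl i = j then (1 : F) else 0) = EE i := by
      intro i
      ext k
      simp [Pi.single_apply, eq_comm]
    have e2 : ∀ i : Fin m, (fun j : Fin m ⊕ Fin m => if Sum.inr i = j then (1 : F) else 0) = FF i := by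
      intro i
      ext k
      simp [Pi.single_apply, eq_comm]
    simp only [e1, e2, hLE, smul_zero, Finset.sum_const_zero, zero_add]
    rw [Finset.sum_eq_add i0 i1 h01.ne]
    · rw [hF0, hF1]
    · intro c _ hc
      rw [hFj c hc.1 hc.2, smul_zero]
    · simp
    · simp
  have hB01 : sympForm m F (EE i0) (EE i1) = 0 := isL_symp (hisL _) (hisL _)
  have hB10 : sympForm m F (EE i1) (EE i0) = 0 := isL_symp (hisL _) (hisL _)
  refine ⟨a, b, hb20, ?_⟩
  symm
  rw [Pr_eq_iff]
  apply center_of_fix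
  intro x hx
  rw [sp_mul_mulVec]
  have h1 : (spT (EE i0) a * spS (EE i0) (EE i1) b : SP m F).1 *ᵥ x = ε • ((z : MM) *ᵥ x) := by
    rw [sp_mul_mulVec, spT_mulVec, spS_mulVec _ _ hB01, hzL, hLx]
    simp only [symp_add_left, symp_smul_left, symp_self, hB10, mul_zero, add_zero, symp_E_right]
    funext k
    simp only [Pi.add_apply, Pi.smul_apply, smul_eq_mul]
    rw [EE_inr i0 i0, EE_inr i1 i0]
    ring
  have h2 : (z : MM) *ᵥ x = ε • ((spT (EE i0) a * spS (EE i0) (EE i1) b : SP m F).1 *ᵥ x) := by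
    rw [h1, smul_smul, hε, one_smul]
  rw [h2, mulVec_smul, sp_inv_apply]
  exact Submodule.smul_mem _ _ (Submodule.mem_span_singleton_self _)

end CfsgLib.PSA
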