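/-
Automorphisms of `PSp_{2m}(F)` permute the root groups.
-/
import Cfsg.Agent.Lib.PSpAut.CentForm

set_option autoImplicit false
set_option linter.unusedSimpArgs false
set_option linter.unusedVariables false
set_option maxHeartbeats 1000000

namespace CfsgLib.PSA

open Matrix Cfsg CfsgLib.ClassGeo

variable {F : Type*} [Field F] {m : ℕ}

local notation "MM" => Matrix (Fin m ⊕ Fin m) (Fin m ⊕ Fin m) F

lemma sp_nondeg_top (u : Fin m ⊕ Fin m → F) (_ : u ∈ (⊤ : Submodule F (Fin m ⊕ Fin m → F)))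
    (hu : ∀ w ∈ (⊤ : Submodule F (Fin m ⊕ Fin m → F)), sympForm m F u w = 0) : u = 0 :=
  symp_nondeg' fun w => hu w trivial

/-- The Sylow step: the image of a root group centralises a conjugate of the unitriangular group. -/
theorem exists_conj_centralizer {p : ℕ} [hp : Fact p.Prime] [CharP F p] [Fintype F] [NeZero m]
    (ψ : PSp m F ≃* PSp m F) (v : Fin m ⊕ Fin m → F) (hv : v ≠ 0) :
    ∃ h : SP m F, ∀ (t : F), ∀ u ∈ UU₀ m F, Commute ((Pr h)⁻¹ * ψ (TT v t) * Pr h) (Pr u) := by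
  classical
  obtain ⟨Q, hQ⟩ := (isPGroup_UU₀ (m := m) (F := F) p).exists_le_sylow
  have hpdvd : p ∣ Nat.card (Fin m ⊕ Fin m → F) := by
    obtain ⟨n, hp', hn⟩ := FiniteField.card F p
    rw [Nat.card_eq_fintype_card, Fintype.card_fun, hn]
    have hm : Fintype.card (Fin m ⊕ Fin m) ≠ 0 := by
      simp
      exact NeZero.ne m
    exact dvd_pow (dvd_pow_self p n.ne_zero) hm
  have hfix0 : (0 : Fin m ⊕ Fin m → F) ∈ MulAction.fixedPoints Q (Fin m ⊕ Fin m → F) := by
    intro q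
    exact smul_zero q
  obtain ⟨v₀, hv₀, hne⟩ := (Q.isPGroup').exists_fixed_point_of_prime_dvd_card_of_fixed_point
    (Fin m ⊕ Fin m → F) hpdvd hfix0
  have hv₀0 : v₀ ≠ 0 := fun h => hne h.symm
  obtain ⟨g, _, hg⟩ := sp_trans_vec (⊤ : Submodule F (Fin m ⊕ Fin m → F)) sp_nondeg_top v₀ v trivial trivial hv₀0 hv
  let S : Sylow p (PSp m F) := Q.mapSurjective Pr_surj
  let α : MulAut (PSp m F) := (MulAut.conj (Pr g)).trans ψ
  have hα : ∀ x, α x = ψ (Pr g * x * (Pr g)⁻¹) := fun x => rfl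
  have hαT : ∀ t, α (TT v₀ t) = ψ (TT v t) := by
    intro t
    rw [hα, TT_conj, hg]
  have hcomm0 : ∀ t, ∀ w ∈ (S : Subgroup (PSp m F)), Commute (TT v₀ t) w := by
    intro t w hw
    have hw' : w ∈ (Q : Subgroup (SP m F)).map Pr := by
      rwa [Sylow.coe_mapSurjective] at hw
    obtain ⟨q, hq, rfl⟩ := hw'
    have hqv : (q : MM) *ᵥ v₀ = v₀ := hv₀ ⟨q, hq⟩
    have h1 : q * spT v₀ t * q⁻¹ = spT v₀ t := by rw [sp_conj_T, hqv]
    rw [mul_inv_eq_iff_eq_mul] at h1
    rw [Commute, SemiconjBy, TT, ← map_mul, ← map_mul, ← h1]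
  obtain ⟨H, hH⟩ := MulAction.exists_smul_eq (PSp m F) S (α • S)
  obtain ⟨h, rfl⟩ := Pr_surj H
  refine ⟨h, fun t u hu => ?_⟩
  have hu1 : Pr u ∈ (S : Subgroup (PSp m F)) := by
    rw [Sylow.coe_mapSurjective]
    exact ⟨u, hQ hu, rfl⟩
  have hu2 : Pr h * Pr u * (Pr h)⁻¹ ∈ ((α • S : Sylow p (PSp m F)) : Subgroup (PSp m F)) := by
    rw [← hH, Sylow.smul_def, Sylow.pointwise_smul_def]
    exact Subgroup.smul_mem_pointwise_smul _ (MulAut.conj (Pr h)) _ hu1
  rw [Sylow.pointwise_smul_def, Subgroup.mem_pointwise_smul_iff_inv_smul_mem] at hu2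
  have h5 := hcomm0 t _ hu2
  have h6 : Commute (α (TT v₀ t)) (α (α⁻¹ • (Pr h * Pr u * (Pr h)⁻¹))) := h5.map α
  have h7 : α (α⁻¹ • (Pr h * Pr u * (Pr h)⁻¹)) = Pr h * Pr u * (Pr h)⁻¹ := by
    rw [MulAut.smul_def, MulAut.inv_apply, MulEquiv.apply_symm_apply]
  rw [h7, hαT] at h6
  have h8 := h6.eq
  rw [Commute, SemiconjBy]
  calc (Pr h)⁻¹ * ψ (TT v t) * Pr h * Pr u
      = (Pr h)⁻¹ * (ψ (TT v t) * (Pr h * Pr u * (Pr h)⁻¹)) * Pr h := by group
    _ = (Pr h)⁻¹ * ((Pr h * Pr u * (Pr h)⁻¹) * ψ (TT v t)) * Pr h := by rw [h8]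
    _ = Pr u * ((Pr h)⁻¹ * ψ (TT v t) * Pr h) := by group

section CharTwo

variable [CharP F 2]

lemma two_eq_zero' : (2 : F) = 0 := by exact_mod_cast CharP.cast_eq_zero F 2

lemma neg_eq_self' (x : F) : -x = x := by
  have := two_eq_zero' (F := F)
  linear_combination -x * this

lemma spT_sq (v : Fin m ⊕ Fin m → F) (t : F) : spT v t * spT v t = 1 := by
  rw [spT_add, ← two_mul, two_eq_zero', zero_mul, spT_zero]

lemma center_trivial [NeZero m] {n : SP m F} (hn : n ∈ Subgroup.center (SP m F)) : n = 1 := by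
  obtain ⟨a, ha, hv⟩ := center_scalar hn
  have h3 : (a - 1) * (a - 1) = 0 := by
    have e := two_eq_zero' (F := F)
    linear_combination ha - (a - 1) * e
  have ha1 : a = 1 := sub_eq_zero.mp (mul_self_eq_zero.mp h3)
  apply sp_ext
  intro x
  rw [hv, ha1, one_smul]
  change _ = (1 : MM) *ᵥ x
  rw [one_mulVec]

lemma Pr_inj [NeZero m] {x y : SP m F} (h : Pr x = Pr y) : x = y := by
  have := center_trivial (Pr_eq_iff.mp h)
  rw [inv_mul_eq_one] at this
  exact this

/-- The property distinguishing transvections. -/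
def HasPi (y : PSp m F) : Prop :=
  ∀ g : PSp m F, (y * (g * y * g⁻¹)) ^ 4 = 1 → (y * (g * y * g⁻¹)) ^ 2 = 1

omit [CharP F 2] in
lemma HasPi.map {y : PSp m F} (hy : HasPi y) (α : PSp m F ≃* PSp m F) : HasPi (α y) := by
  intro g hg
  have e : α y * (g * α y * g⁻¹) = α (y * (α.symm g * y * (α.symm g)⁻¹)) := by
    simp
  rw [e, ← map_pow] at hg ⊢
  have h1 := hy (α.symm g) ((map_eq_one_iff α α.injective).mp hg)
  rw [h1, map_one]

/-- Products of two transvections in characteristic two. -/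
lemma spT_spT_four (v w : Fin m ⊕ Fin m → F) (t : F) (h : (spT v t * spT w t) ^ 4 = 1) :
    (spT v t * spT w t) ^ 2 = 1 := by
  have h2 := two_eq_zero' (F := F)
  set c := sympForm m F v w with hc
  have hwv : sympForm m F w v = c := by rw [symp_skew, ← hc, neg_eq_self']
  by_cases hs : t * c = 0
  · have hcomm : Commute (spT v t) (spT w t) := by
      rcases mul_eq_zero.mp hs with h0 | h0
      · simp only [h0, spT_zero]
        exact Commute.one_left _
      · exact spT_comm_of_perp t t (by rw [hwv, h0])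
    rw [hcomm.mul_pow, pow_two, pow_two, spT_sq, spT_sq, one_mul]
  exfalso
  set s := t * c with hs'
  have hc0 : c ≠ 0 := right_ne_zero_of_mul hs
  set Y := spT v t * spT w t with hY
  have hYv : (Y : MM) *ᵥ v = (1 + s * s) • v + s • w := by
    rw [hY, sp_mul_mulVec, spT_mulVec, spT_mulVec]
    simp only [symp_add_left, symp_smul_left, symp_self, hwv, mul_zero, zero_add, ← hc, ← hs']
    funext k
    simp only [Pi.add_apply, Pi.smul_apply, smul_eq_mul]
    ring
  have hYw : (Y : MM) *ᵥ w = s • v + w := by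
    rw [hY, sp_mul_mulVec, spT_mulVec, spT_mulVec]
    simp only [symp_self, mul_zero, zero_smul, add_zero, hwv, ← hs']
    rw [add_comm]
  have hY2v : ((Y * Y : SP m F) : MM) *ᵥ v = (1 + s * s + s * s * s * s) • v + (s * s * s) • w := by
    rw [sp_mul_mulVec, hYv, mulVec_add, mulVec_smul, mulVec_smul, hYv, hYw]
    funext k
    simp only [Pi.add_apply, Pi.smul_apply, smul_eq_mul]
    linear_combination (s * s * v k + s * w k) * h2
  have hY2w : ((Y * Y : SP m F) : MM) *ᵥ w = (s * s * s) • v + (1 + s * s) • w := by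
    rw [sp_mul_mulVec, hYw, mulVec_add, mulVec_smul, hYv, hYw]
    funext k
    simp only [Pi.add_apply, Pi.smul_apply, smul_eq_mul]
    linear_combination (s * v k) * h2
  have hY4v : ((Y * Y * (Y * Y) : SP m F) : MM) *ᵥ v = v := by
    have e : Y * Y * (Y * Y) = Y ^ 4 := by simp only [pow_succ, pow_zero, one_mul, mul_assoc]
    rw [e, h]
    change (1 : MM) *ᵥ v = v
    rw [one_mulVec]
  rw [sp_mul_mulVec, hY2v, mulVec_add, mulVec_smul, mulVec_smul, hY2v, hY2w] at hY4v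
  have h3 := congrArg (fun z => sympForm m F z v) hY4v
  simp only [symp_add_left, symp_smul_left, symp_self, hwv, mul_zero, add_zero, zero_add] at h3
  have h4 : s * s * s * s * s * s * s * c = 0 := by
    linear_combination h3 - (s * s * s * c + s * s * s * s * s * c) * h2
  have h5 : s ^ 7 * c = 0 := by rw [← h4]; ring
  rcases mul_eq_zero.mp h5 with h6 | h6
  · exact hs (pow_eq_zero_iff (by norm_num) |>.mp h6)
  · exact hc0 h6

lemma hasPi_TT [NeZero m] (v : Fin m ⊕ Fin m → F) (t : F) : HasPi (TT v t) := by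
  intro g hg
  obtain ⟨g₀, rfl⟩ := Pr_surj g
  rw [TT_conj] at hg ⊢
  have e : TT v t * TT ((g₀ : MM) *ᵥ v) t = Pr (spT v t * spT ((g₀ : MM) *ᵥ v) t) := by
    rw [map_mul]
    rfl
  rw [e, ← map_pow] at hg ⊢
  have h1 : (spT v t * spT ((g₀ : MM) *ᵥ v) t) ^ 4 = 1 := by
    apply Pr_inj
    rw [hg, map_one]
  rw [spT_spT_four v _ t h1, map_one]

/-- The action of an element of the centre of the unitriangular group. -/
lemma zact {u₁ u₂ : Fin m ⊕ Fin m → F} (h : sympForm m F u₁ u₂ = 0) (a b : F) (y : Fin m ⊕ Fin m → F) :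
    ((spT u₁ a * spS u₁ u₂ b : SP m F) : MM) *ᵥ y =
      y + (b * sympForm m F y u₂ + a * sympForm m F y u₁) • u₁ + (b * sympForm m F y u₁) • u₂ := by
  have h' : sympForm m F u₂ u₁ = 0 := by rw [symp_skew, h, neg_zero]
  rw [sp_mul_mulVec, spT_mulVec, spS_mulVec _ _ h]
  simp only [symp_add_left, symp_smul_left, symp_self, h', mul_zero, add_zero]
  funext k
  simp only [Pi.add_apply, Pi.smul_apply, smul_eq_mul]
  ring

/-- The square of the product of two such elements. -/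
lemma zz_sq {u₁ u₂ v₁ v₂ : Fin m ⊕ Fin m → F} (a b : F)
    (h1 : sympForm m F u₁ u₂ = 0) (h2 : sympForm m F v₁ v₂ = 0) (h3 : sympForm m F u₁ v₁ = 0)
    (h4 : sympForm m F u₁ v₂ = 0) (h5 : sympForm m F u₂ v₁ = 0) (h6 : sympForm m F u₂ v₂ = 1) :
    ((spT u₁ a * spS u₁ u₂ b) * (spT v₁ a * spS v₁ v₂ b)) *
      ((spT u₁ a * spS u₁ u₂ b) * (spT v₁ a * spS v₁ v₂ b)) = spS u₁ v₁ (b * b) := by
  have e2 := two_eq_zero' (F := F)
  have h1' : sympForm m F u₂ u₁ = 0 := by rw [symp_skew, h1, neg_zero]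
  have h2' : sympForm m F v₂ v₁ = 0 := by rw [symp_skew, h2, neg_zero]
  have h3' : sympForm m F v₁ u₁ = 0 := by rw [symp_skew, h3, neg_zero]
  have h4' : sympForm m F v₂ u₁ = 0 := by rw [symp_skew, h4, neg_zero]
  have h5' : sympForm m F v₁ u₂ = 0 := by rw [symp_skew, h5, neg_zero]
  have h6' : sympForm m F v₂ u₂ = 1 := by rw [symp_skew, h6, neg_eq_self']
  have hact : ∀ w, (((spT u₁ a * spS u₁ u₂ b) * (spT v₁ a * spS v₁ v₂ b) : SP m F) : MM) *ᵥ w =
      w + (b * sympForm m F w v₂ + a * sympForm m F w v₁) • v₁ + (b * sympForm m F w v₁) • v₂ +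
        (b * (sympForm m F w u₂ + b * sympForm m F w v₁) + a * sympForm m F w u₁) • u₁ + (b * sympForm m F w u₁) • u₂ := by
    intro w
    rw [sp_mul_mulVec, zact h2, zact h1]
    simp only [symp_add_left, symp_smul_left, h1, h2, h3, h4, h5, h6, h1', h2', h3', h4', h5', h6',
      mul_zero, add_zero, zero_add, mul_one]
  apply sp_ext
  intro y
  rw [spS_mulVec _ _ h3, sp_mul_mulVec, hact, hact]
  simp only [symp_add_left, symp_smul_left, symp_self, h1, h2, h3, h4, h5, h6, h1', h2', h3', h4', h5', h6',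
    mul_zero, add_zero, zero_add, mul_one]
  funext k
  simp only [Pi.add_apply, Pi.smul_apply, smul_eq_mul]
  set α := sympForm m F y u₁
  set β := sympForm m F y u₂
  set γ := sympForm m F y v₁
  set δ := sympForm m F y v₂
  linear_combination ((b * δ + a * γ) * v₁ k + b * γ * v₂ k + (b * β + b * b * γ + a * α) * u₁ k + b * α * u₂ k) * e2

/-- Non-transvections in the centre do not have the property. -/
lemma not_hasPi [NeZero m] {i0 i1 i2 : Fin m} (h01 : i0 ≠ i1) (h02 : i0 ≠ i2) (h12 : i1 ≠ i2) (a : F) {b : F}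
    (hb : b ≠ 0) : ¬ HasPi (Pr (spT (EE i0) a * spS (EE i0) (EE i1) b)) := by
  intro hP
  have e2 := two_eq_zero' (F := F)
  -- the element moving the pair
  set g₁ := spT (EE i1 + FF i1 : Fin m ⊕ Fin m → F) 1 with hg₁
  have hg₁0 : (g₁ : MM) *ᵥ EE i0 = EE i0 := by
    rw [hg₁, spT_mulVec, symp_add_right, symp_E_right, symp_F_right]
    simp [h01]
  have hg₁1 : (g₁ : MM) *ᵥ EE i1 = - FF i1 := by
    rw [hg₁, spT_mulVec, symp_add_right, symp_E_right, symp_F_right]
    funext k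
    simp
  obtain ⟨A₁, _, hA₁, hA₁z⟩ := sp_step1 (⊤ : Submodule F (Fin m ⊕ Fin m → F)) (EE i0) (FF i0 + FF i2) trivial trivial
    (by rw [symp_add_right, symp_F_right, symp_F_right]; simp [h02])
  obtain ⟨A₂, _, hA₂, hA₂z⟩ := sp_step1 (⊤ : Submodule F (Fin m ⊕ Fin m → F)) (FF i0 + FF i2) (EE i2) trivial trivial
    (by rw [symp_E_right]; simp [Ne.symm h02])
  have hz1 : sympForm m F (- FF i1) (FF i0 + FF i2 - EE i0) = 0 := by
    rw [symp_sub_right, symp_add_right, symp_F_right, symp_F_right, symp_E_right]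
    simp [h01]
  have hz2 : sympForm m F (- FF i1) (EE i2 - (FF i0 + FF i2)) = 0 := by
    rw [symp_sub_right, symp_add_right, symp_F_right, symp_F_right, symp_E_right]
    simp [h12]
  set g₀ := A₂ * A₁ * g₁ with hg₀
  have hg₀0 : (g₀ : MM) *ᵥ EE i0 = EE i2 := by
    rw [hg₀, sp_mul_mulVec, sp_mul_mulVec, hg₁0, hA₁, hA₂]
  have hg₀1 : (g₀ : MM) *ᵥ EE i1 = - FF i1 := by
    rw [hg₀, sp_mul_mulVec, sp_mul_mulVec, hg₁1, hA₁z _ hz1, hA₂z _ hz2]
  set z := spT (EE i0) a * spS (EE i0) (EE i1) b with hz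
  have hx : g₀ * z * g₀⁻¹ = spT (EE i2) a * spS (EE i2) (- FF i1) b := by
    have e : g₀ * z * g₀⁻¹ = (g₀ * spT (EE i0) a * g₀⁻¹) * (g₀ * spS (EE i0) (EE i1) b * g₀⁻¹) := by
      rw [hz]; group
    rw [e, sp_conj_T, sp_conj_S', hg₀0, hg₀1]
  have hsq : (z * (g₀ * z * g₀⁻¹)) * (z * (g₀ * z * g₀⁻¹)) = spS (EE i0) (EE i2) (b * b) := by
    rw [hx, hz]
    apply zz_sq
    · exact isL_symp (fun j => EE_inr _ j) (fun j => EE_inr _ j)
    · rw [symp_neg_right, symp_F_right]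
      simp [h12.symm]
    · exact isL_symp (fun j => EE_inr _ j) (fun j => EE_inr _ j)
    · rw [symp_neg_right, symp_F_right]
      simp [h01]
    · exact isL_symp (fun j => EE_inr _ j) (fun j => EE_inr _ j)
    · rw [symp_neg_right, symp_F_right]
      simp
  have hB02 : sympForm m F (EE i0) (EE i2) = 0 := isL_symp (fun j => EE_inr _ j) (fun j => EE_inr _ j)
  have h4 : (z * (g₀ * z * g₀⁻¹)) ^ 4 = 1 := by
    have e : (z * (g₀ * z * g₀⁻¹)) ^ 4 = ((z * (g₀ * z * g₀⁻¹)) * (z * (g₀ * z * g₀⁻¹))) * ((z * (g₀ * z * g₀⁻¹)) * (z * (g₀ * z * g₀⁻¹))) := by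
      simp only [pow_succ, pow_zero, one_mul, mul_assoc]
    rw [e, hsq, spS_mul' hB02, ← two_mul, e2, zero_mul, spS_zero' hB02]
  have eP : Pr z * (Pr g₀ * Pr z * (Pr g₀)⁻¹) = Pr (z * (g₀ * z * g₀⁻¹)) := by
    simp only [map_mul, map_inv]
  have h5 := hP (Pr g₀) (by
    rw [eP, ← map_pow, h4, map_one])
  rw [eP, ← map_pow] at h5
  have h6 : (z * (g₀ * z * g₀⁻¹)) ^ 2 = 1 := by
    apply Pr_inj
    rw [h5, map_one]
  rw [pow_two, hsq] at h6
  -- a vector moved by it
  have h7 : (spS (EE i0) (EE i2) (b * b) : MM) *ᵥ FF i2 = ((1 : SP m F) : MM) *ᵥ FF i2 := by rw [h6]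
  rw [spS_mulVec _ _ hB02, symp_E_right, symp_E_right] at h7
  change _ = (1 : MM) *ᵥ _ at h7
  rw [one_mulVec] at h7
  have h8 := congrFun h7 (Sum.inl i0)
  simp [h02, Ne.symm h02, hb] at h8

end CharTwo

/-- Automorphisms permute the root groups. -/
theorem keyA {p : ℕ} [hp : Fact p.Prime] [CharP F p] [Fintype F] (hm : 2 ≤ m) (h4 : m = 2 → p ≠ 2)
    (ψ : PSp m F ≃* PSp m F) : KeyA ψ := by
  classical
  haveI : NeZero m := ⟨by omega⟩
  intro v hv
  obtain ⟨h, hh⟩ := exists_conj_centralizer (p := p) ψ v hv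
  let i0 : Fin m := ⟨0, by omega⟩
  let i1 : Fin m := ⟨1, by omega⟩
  have h01 : i0 < i1 := by
    change (0 : ℕ) < 1
    norm_num
  have hj : ∀ j, j ≠ i0 → j ≠ i1 → i1 < j := by
    intro j h1 h2
    have h3 : (j : ℕ) ≠ 0 := fun e => h1 (Fin.ext e)
    have h5 : (j : ℕ) ≠ 1 := fun e => h2 (Fin.ext e)
    change (1 : ℕ) < j
    omega
  refine ⟨(h : MM) *ᵥ EE i0, sp_ne h (EE_ne _), fun t => ?_⟩
  obtain ⟨z, hz⟩ := Pr_surj ((Pr h)⁻¹ * ψ (TT v t) * Pr h)
  obtain ⟨a, b, hb2, hzf⟩ := central_form (p := p) h01 hj z (by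
    intro u hu
    rw [hz]
    exact hh t u hu)
  have hb0 : b = 0 := by
    by_cases hp2 : p = 2
    · subst hp2
      by_contra hb
      have hm3 : 2 < m := by
        rcases Nat.lt_or_ge 2 m with h5 | h5
        · exact h5
        · exact absurd rfl (h4 (by omega))
      let i2 : Fin m := ⟨2, hm3⟩
      have h02 : i0 ≠ i2 := by
        intro e
        have := congrArg Fin.val e
        simp [i0, i2] at this
      have h12 : i1 ≠ i2 := by
        intro e
        have := congrArg Fin.val e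
        simp [i1, i2] at this
      apply not_hasPi h01.ne h02 h12 a hb
      rw [← hzf, hz]
      let α : PSp m F ≃* PSp m F := ψ.trans (MulAut.conj (Pr h)⁻¹)
      have hα : α (TT v t) = (Pr h)⁻¹ * ψ (TT v t) * Pr h := by
        change (Pr h)⁻¹ * ψ (TT v t) * ((Pr h)⁻¹)⁻¹ = _
        rw [inv_inv]
      rw [← hα]
      exact (hasPi_TT v t).map α
    · have h2 : (2 : F) ≠ 0 := by
        intro e
        have : ((2 : ℕ) : F) = 0 := by exact_mod_cast e
        rw [CharP.cast_eq_zero_iff F p] at this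
        have h5 := (Nat.prime_dvd_prime_iff_eq hp.out Nat.prime_two).mp this
        exact hp2 h5
      exact (mul_eq_zero.mp hb2).resolve_left h2
  rw [hb0, spS_zero' (isL_symp (fun j => EE_inr _ j) (fun j => EE_inr _ j)), mul_one] at hzf
  refine ⟨a, ?_⟩
  have e9 : TT (EE i0) a = (Pr h)⁻¹ * ψ (TT v t) * Pr h := hzf.symm.trans hz
  rw [← TT_conj, e9]
  group

end CfsgLib.PSA
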