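/-
Hilbert's Theorem 90 for general linear groups over an arbitrary finite index type.
-/
import Cfsg.Agent.Lib.PSLn.Fixed
import Cfsg.Agent.Lib.PSpAut.KeyA

set_option autoImplicit false

namespace CfsgLib.PSA

open Matrix

variable {ι : Type*} [Fintype ι] [DecidableEq ι] {F : Type*} [Field F]

/-- Iterated norm of a matrix. -/
noncomputable def NG (σ : RingAut F) (g : GL (ι) F) : ℕ → GL (ι) F
  | 0 => 1
  | (k + 1) => NG σ g k * Matrix.GeneralLinearGroup.map ((σ ^ k : RingAut F) : F →+* F) g

lemma mapGL_mul (σ τ : RingAut F) (g : GL (ι) F) :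
    Matrix.GeneralLinearGroup.map ((σ * τ : RingAut F) : F →+* F) g =
      Matrix.GeneralLinearGroup.map (σ : F →+* F) (Matrix.GeneralLinearGroup.map (τ : F →+* F) g) := by
  apply Units.ext
  ext i j
  rfl

lemma mapGL_one (g : GL (ι) F) :
    Matrix.GeneralLinearGroup.map ((1 : RingAut F) : F →+* F) g = g := by
  apply Units.ext
  ext i j
  rfl

lemma NG_succ' (σ : RingAut F) (g : GL (ι) F) (k : ℕ) :
    NG σ g (k + 1) = g * Matrix.GeneralLinearGroup.map (σ : F →+* F) (NG σ g k) := by
  induction k with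
  | zero =>
    simp [NG, mapGL_one]
  | succ k ih =>
    have e1 : NG σ g (k + 1 + 1) = NG σ g (k + 1) * Matrix.GeneralLinearGroup.map ((σ ^ (k + 1) : RingAut F) : F →+* F) g := rfl
    have e2 : NG σ g (k + 1) = NG σ g k * Matrix.GeneralLinearGroup.map ((σ ^ k : RingAut F) : F →+* F) g := rfl
    rw [e1]
    conv_rhs => rw [e2]
    conv_lhs => rw [ih]
    rw [map_mul, mul_assoc, pow_succ', mapGL_mul]

/-- The semilinear map. -/
noncomputable def tauV (σ : RingAut F) (g : GL (ι) F) (v : ι → F) : ι → F :=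
  (g : Matrix (ι) (ι) F) *ᵥ (fun i => σ (v i))

/-- Iterates of the semilinear map. -/
noncomputable def TV (σ : RingAut F) (g : GL (ι) F) (k : ℕ) (v : ι → F) : ι → F :=
  (NG σ g k : Matrix (ι) (ι) F) *ᵥ (fun i => (σ ^ k) (v i))

lemma tauV_TV (σ : RingAut F) (g : GL (ι) F) (k : ℕ) (v : ι → F) :
    tauV σ g (TV σ g k v) = TV σ g (k + 1) v := by
  unfold tauV TV
  rw [NG_succ', Units.val_mul, ← Matrix.mulVec_mulVec]
  congr 1
  funext x
  have e : ((Matrix.GeneralLinearGroup.map (σ : F →+* F) (NG σ g k) : GL (ι) F) : Matrix (ι) (ι) F) = (NG σ g k : Matrix (ι) (ι) F).map (σ : F →+* F) := rfl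
  rw [e]
  simp [Matrix.mulVec, dotProduct, map_sum, pow_succ']

lemma tauV_add (σ : RingAut F) (g : GL (ι) F) (v w : ι → F) :
    tauV σ g (v + w) = tauV σ g v + tauV σ g w := by
  unfold tauV
  rw [← Matrix.mulVec_add]
  congr 1
  funext i
  simp

lemma tauV_sum (σ : RingAut F) (g : GL (ι) F) {κ : Type*} (s : Finset κ) (v : κ → ι → F) :
    tauV σ g (∑ i ∈ s, v i) = ∑ i ∈ s, tauV σ g (v i) := by
  classical
  induction s using Finset.induction_on with
  | empty =>
    simp [tauV]
    funext i
    simp [Matrix.mulVec, dotProduct]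
  | insert a s ha ih =>
    rw [Finset.sum_insert ha, Finset.sum_insert ha, tauV_add, ih]

lemma TV_smul (σ : RingAut F) (g : GL (ι) F) (k : ℕ) (a : F) (v : ι → F) :
    TV σ g k (a • v) = (σ ^ k) a • TV σ g k v := by
  unfold TV
  rw [← Matrix.mulVec_smul]
  congr 1
  funext i
  simp

/-- Hilbert 90. -/
theorem hilbert90 (σ : RingAut F) {r : ℕ} (hr : orderOf σ = r) (hr0 : 0 < r) (g : GL (ι) F)
    (hN : NG σ g r = 1) : ∃ h : GL (ι) F, g * Matrix.GeneralLinearGroup.map (σ : F →+* F) h = h := by
  classical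
  have hσr : σ ^ r = 1 := by
    rw [← hr]
    exact pow_orderOf_eq_one σ
  have hT0 : ∀ v, TV σ g 0 v = v := by
    intro v
    unfold TV
    simp [NG]
  have hTr : ∀ v, TV σ g r v = v := by
    intro v
    unfold TV
    rw [hN, hσr]
    simp
  let Tr : (ι → F) → (ι → F) := fun v => ∑ i ∈ Finset.range r, TV σ g i v
  have hTr_fix : ∀ v, tauV σ g (Tr v) = Tr v := by
    intro v
    simp only [Tr]
    rw [tauV_sum]
    simp only [tauV_TV]
    have h1 := Finset.sum_range_succ (fun i => TV σ g i v) r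
    have h2 := Finset.sum_range_succ' (fun i => TV σ g i v) r
    rw [h1, hTr, hT0] at h2
    exact (add_right_cancel h2).symm
  let S : Set (ι → F) := {v | tauV σ g v = v}
  have hspan : Submodule.span F S = ⊤ := by
    by_contra hne
    obtain ⟨f, hf, hle⟩ := Submodule.exists_le_ker_of_lt_top _ (lt_top_iff_ne_top.2 hne)
    apply hf
    refine LinearMap.ext fun v => ?_
    · have key : ∀ a : F, ∑ i : Fin r, f (TV σ g i v) * (σ ^ (i : ℕ)) a = 0 := by
        intro a
        have h1 : f (Tr (a • v)) = 0 := hle (Submodule.subset_span (hTr_fix _))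
        simp only [Tr, map_sum, TV_smul, map_smul, smul_eq_mul] at h1
        rw [Finset.sum_range] at h1
        rw [← h1]
        refine Finset.sum_congr rfl fun i _ => ?_
        rw [mul_comm]
      have h2 := CfsgLib.PSN.indep_powers σ hr (fun i : Fin r => f (TV σ g i v)) key ⟨0, hr0⟩
      simpa [hT0] using h2
  obtain ⟨b, hbS, hbspan, hbli⟩ := exists_linearIndependent F S
  rw [hspan] at hbspan
  let B := Module.Basis.mk hbli (by
    rw [Subtype.range_coe, hbspan])
  haveI : Fintype b := FiniteDimensional.fintypeBasisIndex B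
  have hcard : Fintype.card b = Fintype.card ι := by
    have := Module.finrank_eq_card_basis B
    rw [Module.finrank_fintype_fun_eq_card] at this
    exact this.symm
  let e : ι ≃ b := (Fintype.equivOfCardEq hcard).symm
  let M : Matrix (ι) (ι) F := Matrix.of fun x i => ((e i : b) : ι → F) x
  have hMli : LinearIndependent F M.col := by
    have h1 : M.col = (fun i : b => (i : ι → F)) ∘ e := by
      funext i
      rfl
    rw [h1]
    exact hbli.comp _ e.injective
  have hMu : IsUnit M := Matrix.linearIndependent_cols_iff_isUnit.1 hMli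
  obtain ⟨h, hh⟩ := hMu
  refine ⟨h, ?_⟩
  apply Units.ext
  rw [Units.val_mul]
  have e1 : ((Matrix.GeneralLinearGroup.map (σ : F →+* F) h : GL (ι) F) : Matrix (ι) (ι) F) = (h : Matrix (ι) (ι) F).map (σ : F →+* F) := rfl
  rw [e1, hh]
  ext x i
  have h2 : tauV σ g ((e i : b) : ι → F) = (e i : b) := hbS (e i).2
  have h3 : tauV σ g ((e i : b) : ι → F) x = M x i := congrFun h2 x
  rw [← h3]
  simp [tauV, Matrix.mul_apply, Matrix.mulVec, dotProduct, M]


end CfsgLib.PSA
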