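/-
The automorphisms of `PSp_{2m}(F)` induced by conformal symplectic matrices and field automorphisms.
-/
import Cfsg.Agent.Lib.PSpAut.H90

set_option autoImplicit false
set_option linter.unusedSimpArgs false
set_option linter.unusedVariables false
set_option maxHeartbeats 1000000

namespace CfsgLib.PSA

open Matrix Cfsg CfsgLib.ClassGeo

variable {F : Type*} [Field F] {m : ℕ}

local notation "MM" => Matrix (Fin m ⊕ Fin m) (Fin m ⊕ Fin m) F

/-- The conformal symplectic group as a type. -/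
abbrev GS (m : ℕ) (F : Type*) [Field F] := ↥(GSp m F)

lemma J_map {K : Type*} [Field K] (f : F →+* K) : (Matrix.J (Fin m) F).map f = Matrix.J (Fin m) K := by
  ext a b
  rcases a with i | i <;> rcases b with j | j <;> simp [Matrix.J, Matrix.one_apply] <;> split_ifs <;> simp

lemma form_matrix (g : MM) (u v : Fin m ⊕ Fin m → F) :
    sympForm m F (g *ᵥ u) (g *ᵥ v) = u ⬝ᵥ ((gᵀ * Matrix.J (Fin m) F * g) *ᵥ v) := by
  rw [sympForm, dot_mulVec_left, mulVec_mulVec, mulVec_mulVec]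

lemma mem_GSp_iff {g : GL (Fin m ⊕ Fin m) F} :
    g ∈ GSp m F ↔ ∃ c : Fˣ, (g : MM)ᵀ * Matrix.J (Fin m) F * (g : MM) = (c : F) • Matrix.J (Fin m) F := by
  constructor
  · rintro ⟨c, hc⟩
    refine ⟨c, ?_⟩
    apply matrix_eq_of_dot
    intro u v
    rw [← form_matrix, hc, smul_mulVec, dotProduct_smul]
    rfl
  · rintro ⟨c, hc⟩
    refine ⟨c, fun u v => ?_⟩
    rw [form_matrix, hc, smul_mulVec, dotProduct_smul]
    rfl

lemma map_mem_GSp {K : Type*} [Field K] (f : F →+* K) {g : GL (Fin m ⊕ Fin m) F} (hg : g ∈ GSp m F) :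
    Matrix.GeneralLinearGroup.map f g ∈ GSp m K := by
  obtain ⟨c, hc⟩ := mem_GSp_iff.mp hg
  refine mem_GSp_iff.mpr ⟨Units.map (f : F →* K) c, ?_⟩
  have h1 := congrArg (fun M : MM => M.map f) hc
  simp only [Matrix.map_mul, Matrix.transpose_map, J_map] at h1
  have e : ((c : F) • Matrix.J (Fin m) F).map f = (f c) • Matrix.J (Fin m) K := by
    ext a b
    simp only [Matrix.map_apply, Matrix.smul_apply, smul_eq_mul, map_mul]
    rw [← J_map f]
    rfl
  rw [e] at h1
  exact h1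

/-- The field map on the conformal group. -/
noncomputable def mapGS {K : Type*} [Field K] (f : F →+* K) : GS m F →* GS m K where
  toFun g := ⟨Matrix.GeneralLinearGroup.map f g.1, map_mem_GSp f g.2⟩
  map_one' := Subtype.ext (map_one _)
  map_mul' a b := Subtype.ext (map_mul _ _ _)

lemma mapGS_val {K : Type*} [Field K] (f : F →+* K) (g : GS m F) :
    (mapGS f g).1 = Matrix.GeneralLinearGroup.map f g.1 := rfl

lemma symp_coord_one [NeZero m] : sympForm m F (Pi.single (Sum.inr 0) 1) (Pi.single (Sum.inl 0) 1) = 1 := symp_single 0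

section Mu

variable [NeZero m]

/-- The multiplier. -/
noncomputable def MuF (g : GS m F) : Fˣ := Classical.choose g.2

lemma MuF_spec (g : GS m F) (u v : Fin m ⊕ Fin m → F) :
    sympForm m F (g.1.1 *ᵥ u) (g.1.1 *ᵥ v) = (MuF g : F) * sympForm m F u v :=
  Classical.choose_spec g.2 u v

lemma MuF_unique {g : GS m F} {c : F} (h : ∀ u v, sympForm m F (g.1.1 *ᵥ u) (g.1.1 *ᵥ v) = c * sympForm m F u v) :
    c = MuF g := by
  have h1 := h (Pi.single (Sum.inr 0) 1) (Pi.single (Sum.inl 0) 1)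
  rw [MuF_spec, symp_coord_one, mul_one, mul_one] at h1
  exact h1.symm

/-- The multiplier homomorphism. -/
noncomputable def Mu : GS m F →* Fˣ where
  toFun := MuF
  map_one' := by
    apply Units.ext
    symm
    apply MuF_unique
    intro u v
    change sympForm m F ((1 : MM) *ᵥ u) ((1 : MM) *ᵥ v) = _
    simp
  map_mul' a b := by
    apply Units.ext
    symm
    apply MuF_unique
    intro u v
    change sympForm m F ((a.1.1 * b.1.1) *ᵥ u) ((a.1.1 * b.1.1) *ᵥ v) = _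
    rw [← mulVec_mulVec, ← mulVec_mulVec, MuF_spec, MuF_spec, Units.val_mul, mul_assoc]

lemma Mu_spec (g : GS m F) (u v : Fin m ⊕ Fin m → F) :
    sympForm m F (g.1.1 *ᵥ u) (g.1.1 *ᵥ v) = (Mu g : F) * sympForm m F u v := MuF_spec g u v

lemma Mu_unique {g : GS m F} {c : F} (h : ∀ u v, sympForm m F (g.1.1 *ᵥ u) (g.1.1 *ᵥ v) = c * sympForm m F u v) :
    c = Mu g := MuF_unique h

lemma Mu_mapGS (σ : F ≃+* F) (g : GS m F) : (Mu (mapGS (σ : F →+* F) g) : F) = σ (Mu g : F) := by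
  symm
  apply Mu_unique
  intro u v
  have e : ∀ x : Fin m ⊕ Fin m → F, (mapGS (σ : F →+* F) g).1.1 *ᵥ x = fun k => σ ((g.1.1 *ᵥ (fun k => σ.symm (x k))) k) := by
    intro x
    funext k
    have := RingHom.map_mulVec (σ : F →+* F) g.1.1 (fun k => σ.symm (x k)) k
    simp only [RingEquiv.coe_toRingHom] at this ⊢
    rw [this]
    congr 1
    funext j
    simp
  rw [e, e, symp_map, Mu_spec, map_mul]
  congr 1
  rw [← symp_map]
  congr 1 <;> (funext k; simp)

end Mu

lemma conj_mem (g : GL (Fin m ⊕ Fin m) F) (hg : g ∈ GSp m F) (s : SP m F) :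
    g.1 * s.1 * (g⁻¹).1 ∈ Matrix.symplecticGroup (Fin m) F := by
  obtain ⟨c, hc⟩ := hg
  rw [mem_sp_iff]
  intro u v
  have hgi : ∀ x, g.1 *ᵥ ((g⁻¹).1 *ᵥ x) = x := by
    intro x
    rw [mulVec_mulVec, ← Units.val_mul, mul_inv_cancel, Units.val_one, one_mulVec]
  simp only [← mulVec_mulVec]
  rw [hc, sp_preserves, ← hc, hgi, hgi]

/-- Conjugation by a conformal matrix. -/
noncomputable def conjH (g : GS m F) : SP m F →* SP m F where
  toFun s := ⟨g.1.1 * s.1 * (g.1⁻¹).1, conj_mem g.1 g.2 s⟩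
  map_one' := by
    apply Subtype.ext
    change g.1.1 * (1 : MM) * (g.1⁻¹).1 = 1
    simp
  map_mul' a b := by
    apply Subtype.ext
    change g.1.1 * (a.1 * b.1) * (g.1⁻¹).1 = g.1.1 * a.1 * (g.1⁻¹).1 * (g.1.1 * b.1 * (g.1⁻¹).1)
    have e : (g.1⁻¹).1 * g.1.1 = 1 := by rw [← Units.val_mul, inv_mul_cancel, Units.val_one]
    calc g.1.1 * (a.1 * b.1) * (g.1⁻¹).1 = g.1.1 * a.1 * ((1 : MM) * b.1) * (g.1⁻¹).1 := by
          simp [mul_assoc]
      _ = _ := by rw [← e]; simp only [mul_assoc]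

lemma conjH_val (g : GS m F) (s : SP m F) : (conjH g s).1 = g.1.1 * s.1 * (g.1⁻¹).1 := rfl

lemma conjH_mul (g h : GS m F) (s : SP m F) : conjH (g * h) s = conjH g (conjH h s) := by
  apply Subtype.ext
  rw [conjH_val, conjH_val, conjH_val]
  have e : ((g * h).1⁻¹).1 = (h.1⁻¹).1 * (g.1⁻¹).1 := by
    rw [Subgroup.coe_mul, _root_.mul_inv_rev, Units.val_mul]
  rw [e, Subgroup.coe_mul, Units.val_mul]
  simp only [mul_assoc]

lemma conjH_one (s : SP m F) : conjH (1 : GS m F) s = s := by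
  apply Subtype.ext
  rw [conjH_val]
  change (1 : MM) * s.1 * ((1 : GL (Fin m ⊕ Fin m) F)⁻¹).1 = s.1
  simp

/-- Conjugation as an equivalence. -/
noncomputable def conjE (g : GS m F) : SP m F ≃* SP m F where
  toFun := conjH g
  invFun := conjH g⁻¹
  left_inv s := by
    rw [← conjH_mul, inv_mul_cancel, conjH_one]
  right_inv s := by
    rw [← conjH_mul, mul_inv_cancel, conjH_one]
  map_mul' := map_mul _

lemma fld_mem (σ : F ≃+* F) (s : SP m F) : s.1.map (σ : F →+* F) ∈ Matrix.symplecticGroup (Fin m) F := by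
  rw [SymplecticGroup.mem_iff]
  have h1 := (SymplecticGroup.mem_iff).mp s.2
  have h2 := congrArg (fun M : MM => M.map (σ : F →+* F)) h1
  simp only [Matrix.map_mul, Matrix.transpose_map, J_map] at h2
  exact h2

/-- The field map on the symplectic group. -/
noncomputable def fldH (σ : F ≃+* F) : SP m F →* SP m F where
  toFun s := ⟨s.1.map (σ : F →+* F), fld_mem σ s⟩
  map_one' := by
    apply Subtype.ext
    change (1 : MM).map (σ : F →+* F) = 1
    simp
  map_mul' a b := by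
    apply Subtype.ext
    change (a.1 * b.1).map (σ : F →+* F) = a.1.map (σ : F →+* F) * b.1.map (σ : F →+* F)
    rw [Matrix.map_mul]

lemma fldH_val (σ : F ≃+* F) (s : SP m F) : (fldH σ s).1 = s.1.map (σ : F →+* F) := rfl

lemma fldH_mul (σ τ : RingAut F) (s : SP m F) : fldH (σ * τ) s = fldH σ (fldH τ s) := by
  apply Subtype.ext
  rw [fldH_val, fldH_val, fldH_val]
  ext a b
  rfl

lemma fldH_one (s : SP m F) : fldH (1 : RingAut F) s = s := by
  apply Subtype.ext
  rw [fldH_val]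
  ext a b
  rfl

/-- The field map as an equivalence. -/
noncomputable def fldE (σ : RingAut F) : SP m F ≃* SP m F where
  toFun := fldH σ
  invFun := fldH σ⁻¹
  left_inv s := by
    rw [← fldH_mul, inv_mul_cancel, fldH_one]
  right_inv s := by
    rw [← fldH_mul, mul_inv_cancel, fldH_one]
  map_mul' := map_mul _

lemma map_center_equiv (e : SP m F ≃* SP m F) :
    (Subgroup.center (SP m F)).map e.toMonoidHom = Subgroup.center (SP m F) := by
  ext x
  constructor
  · rintro ⟨y, hy, rfl⟩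
    have hy := Subgroup.mem_center_iff.mp (SetLike.mem_coe.mp hy)
    rw [Subgroup.mem_center_iff]
    intro z
    obtain ⟨w, rfl⟩ := e.surjective z
    change e w * e y = e y * e w
    rw [← map_mul, ← map_mul, hy]
  · intro hx
    rw [Subgroup.mem_center_iff] at hx
    refine ⟨e.symm x, ?_, by simp⟩
    rw [SetLike.mem_coe, Subgroup.mem_center_iff]
    intro z
    apply e.injective
    rw [map_mul, map_mul, MulEquiv.apply_symm_apply]
    exact hx _

/-- Descent to `PSp`. -/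
noncomputable def descS (e : SP m F ≃* SP m F) : PSp m F ≃* PSp m F :=
  QuotientGroup.congr _ _ e (map_center_equiv e)

lemma descS_Pr (e : SP m F ≃* SP m F) (s : SP m F) : descS e (Pr s) = Pr (e s) := rfl

/-- The automorphism induced by a conformal matrix. -/
noncomputable def cS (g : GS m F) : MulAut (PSp m F) := descS (conjE g)

/-- The field automorphism. -/
noncomputable def fS (σ : RingAut F) : MulAut (PSp m F) := descS (fldE σ)

lemma cS_Pr (g : GS m F) (s : SP m F) : cS g (Pr s) = Pr (conjH g s) := rfl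
lemma fS_Pr (σ : RingAut F) (s : SP m F) : fS σ (Pr s) = Pr (fldH σ s) := rfl

lemma cS_mul (g h : GS m F) : cS (g * h) = cS g * cS h := by
  ext x
  obtain ⟨s, rfl⟩ := Pr_surj x
  change Pr (conjH (g * h) s) = Pr (conjH g (conjH h s))
  rw [conjH_mul]

lemma cS_one : cS (1 : GS m F) = 1 := by
  ext x
  obtain ⟨s, rfl⟩ := Pr_surj x
  change Pr (conjH 1 s) = Pr s
  rw [conjH_one]

lemma cS_inv (g : GS m F) : (cS g)⁻¹ = cS g⁻¹ := by
  apply inv_eq_of_mul_eq_one_right
  rw [← cS_mul, mul_inv_cancel, cS_one]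

/-- The homomorphism from the conformal group. -/
noncomputable def cSHom : GS m F →* MulAut (PSp m F) where
  toFun := cS
  map_one' := cS_one
  map_mul' := cS_mul

lemma fS_mul (σ τ : RingAut F) : (fS (σ * τ) : MulAut (PSp m F)) = fS σ * fS τ := by
  ext x
  obtain ⟨s, rfl⟩ := Pr_surj x
  change Pr (fldH (σ * τ) s) = Pr (fldH σ (fldH τ s))
  rw [fldH_mul]

lemma fS_one : (fS (1 : RingAut F) : MulAut (PSp m F)) = 1 := by
  ext x
  obtain ⟨s, rfl⟩ := Pr_surj x
  change Pr (fldH 1 s) = Pr s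
  rw [fldH_one]

/-- The field automorphisms as a homomorphism. -/
noncomputable def fSHom : RingAut F →* MulAut (PSp m F) where
  toFun := fS
  map_one' := fS_one
  map_mul' := fS_mul

lemma fS_cS (σ : RingAut F) (g : GS m F) :
    fS σ * cS g = cS (mapGS (σ : F →+* F) g) * fS σ := by
  ext x
  obtain ⟨s, rfl⟩ := Pr_surj x
  change Pr (fldH σ (conjH g s)) = Pr (conjH (mapGS (σ : F →+* F) g) (fldH σ s))
  congr 1
  apply Subtype.ext
  rw [fldH_val, conjH_val, conjH_val, fldH_val, Matrix.map_mul, Matrix.map_mul]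
  have e : ((mapGS (σ : F →+* F) g).1⁻¹).1 = ((g.1⁻¹).1).map (σ : F →+* F) := by
    rw [mapGS_val, ← map_inv]
    rfl
  rw [e]
  rfl

/-- Scalars in the conformal group. -/
noncomputable def scS (c : Fˣ) : GS m F :=
  ⟨⟨(c : F) • 1, ((c⁻¹ : Fˣ) : F) • 1, by simp [smul_smul], by simp [smul_smul]⟩, ⟨c * c, fun u v => by
    change sympForm m F (((c : F) • (1 : MM)) *ᵥ u) (((c : F) • (1 : MM)) *ᵥ v) = _
    rw [smul_mulVec, smul_mulVec, one_mulVec, one_mulVec, symp_smul_left, symp_smul_right, Units.val_mul, mul_assoc]⟩⟩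

lemma scS_val (c : Fˣ) : (scS c : GS m F).1.1 = (c : F) • 1 := rfl

lemma scS_act (c : Fˣ) (x : Fin m ⊕ Fin m → F) : (scS c : GS m F).1.1 *ᵥ x = (c : F) • x := by
  rw [scS_val, smul_mulVec, one_mulVec]

lemma scS_mul (a b : Fˣ) : (scS (a * b) : GS m F) = scS a * scS b := by
  apply Subtype.ext
  apply Units.ext
  change ((a * b : Fˣ) : F) • (1 : MM) = ((a : F) • 1) * ((b : F) • 1)
  simp [smul_smul, mul_comm]

lemma scS_one : (scS (1 : Fˣ) : GS m F) = 1 := by
  apply Subtype.ext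
  apply Units.ext
  change ((1 : Fˣ) : F) • (1 : MM) = 1
  simp

lemma scS_comm (a : Fˣ) (g : GS m F) : scS a * g = g * scS a := by
  apply Subtype.ext
  apply Units.ext
  change ((a : F) • (1 : MM)) * g.1.1 = g.1.1 * ((a : F) • 1)
  simp

lemma cS_scS (c : Fˣ) : cS (scS c : GS m F) = 1 := by
  ext x
  obtain ⟨s, rfl⟩ := Pr_surj x
  change Pr (conjH (scS c) s) = Pr s
  congr 1
  apply Subtype.ext
  rw [conjH_val]
  have e : (((scS c : GS m F).1)⁻¹).1 = ((c⁻¹ : Fˣ) : F) • 1 := rfl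
  rw [e, scS_val]
  simp [smul_smul]

lemma mapGS_scS (σ : RingAut F) (c : Fˣ) :
    mapGS (σ : F →+* F) (scS c : GS m F) = scS (Units.map ((σ : F ≃+* F) : F →* F) c) := by
  apply Subtype.ext
  apply Units.ext
  rw [mapGS_val]
  ext a b
  change σ (((c : F) • (1 : MM)) a b) = ((σ (c : F)) • (1 : MM)) a b
  by_cases h : a = b
  · subst h
    simp
  · simp [h]

lemma Mu_scS [NeZero m] (c : Fˣ) : Mu (scS c : GS m F) = c * c := by
  apply Units.ext
  symm
  apply Mu_unique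
  intro u v
  rw [scS_act, scS_act, symp_smul_left, symp_smul_right, Units.val_mul, mul_assoc]

lemma scS_inj [NeZero m] {a b : Fˣ} (h : (scS a : GS m F) = scS b) : a = b := by
  have h1 : (scS a : GS m F).1.1 *ᵥ (EE 0) = (scS b : GS m F).1.1 *ᵥ (EE 0) := by rw [h]
  rw [scS_act, scS_act] at h1
  have h2 := congrFun h1 (Sum.inl 0)
  simp at h2
  exact Units.ext h2

/-- The symplectic group inside the conformal group. -/
noncomputable def toGS (s : SP m F) : GS m F :=
  ⟨⟨s.1, (s⁻¹ : SP m F).1, by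
    rw [← Submonoid.coe_mul, mul_inv_cancel]
    rfl, by
    rw [← Submonoid.coe_mul, inv_mul_cancel]
    rfl⟩, ⟨1, fun u v => by
    change sympForm m F (s.1 *ᵥ u) (s.1 *ᵥ v) = _
    rw [sp_preserves, Units.val_one, one_mul]⟩⟩

lemma toGS_val (s : SP m F) : (toGS s).1.1 = s.1 := rfl

lemma toGS_inv_val (s : SP m F) : ((toGS s).1⁻¹).1 = (s⁻¹ : SP m F).1 := rfl

lemma cS_toGS (s : SP m F) : cS (toGS s) = MulAut.conj (Pr s) := by
  ext x
  obtain ⟨y, rfl⟩ := Pr_surj x
  change Pr (conjH (toGS s) y) = Pr s * Pr y * (Pr s)⁻¹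
  rw [← map_mul, ← map_inv, ← map_mul]
  congr 1

lemma Mu_toGS [NeZero m] (s : SP m F) : Mu (toGS s) = 1 := by
  apply Units.ext
  symm
  apply Mu_unique
  intro u v
  rw [toGS_val, sp_preserves, Units.val_one, one_mul]

lemma exists_toGS [NeZero m] {g : GS m F} (h : Mu g = 1) : ∃ s : SP m F, toGS s = g := by
  have hs : g.1.1 ∈ Matrix.symplecticGroup (Fin m) F := by
    rw [mem_sp_iff]
    intro u v
    rw [Mu_spec, h, Units.val_one, one_mul]
  refine ⟨⟨g.1.1, hs⟩, ?_⟩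
  apply Subtype.ext
  apply Units.ext
  rfl

/-- Inner automorphisms. -/
lemma inn_iff [NeZero m] {k : MulAut (PSp m F)} : k ∈ Cfsg.Inn (PSp m F) ↔ ∃ g : GS m F, Mu g = 1 ∧ k = cS g := by
  constructor
  · rintro ⟨x, rfl⟩
    obtain ⟨s, rfl⟩ := Pr_surj x
    exact ⟨toGS s, Mu_toGS s, (cS_toGS s).symm⟩
  · rintro ⟨g, hg, rfl⟩
    obtain ⟨s, rfl⟩ := exists_toGS hg
    exact ⟨Pr s, (cS_toGS s).symm⟩

/-! ### The action on root elements -/

lemma conjH_spT [NeZero m] (g : GS m F) (v : Fin m ⊕ Fin m → F) (t : F) :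
    conjH g (spT v t) = spT (g.1.1 *ᵥ v) (((Mu g : Fˣ) : F)⁻¹ * t) := by
  have hgi : ∀ x, g.1.1 *ᵥ ((g.1⁻¹).1 *ᵥ x) = x := by
    intro x
    rw [mulVec_mulVec, ← Units.val_mul, mul_inv_cancel, Units.val_one, one_mulVec]
  apply sp_ext
  intro x
  rw [spT_mulVec, conjH_val, ← mulVec_mulVec, ← mulVec_mulVec, spT_mulVec, mulVec_add, mulVec_smul, hgi]
  congr 2
  have h1 := Mu_spec g ((g.1⁻¹).1 *ᵥ x) v
  rw [hgi] at h1
  rw [h1]
  field_simp

lemma cS_TT [NeZero m] (g : GS m F) (v : Fin m ⊕ Fin m → F) (t : F) :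
    cS g (TT v t) = TT (g.1.1 *ᵥ v) (((Mu g : Fˣ) : F)⁻¹ * t) := by
  rw [TT, cS_Pr, conjH_spT]
  rfl

lemma fldH_spT (σ : RingAut F) (v : Fin m ⊕ Fin m → F) (t : F) :
    fldH σ (spT v t) = spT (fun k => σ (v k)) (σ t) := by
  apply sp_ext
  intro x
  rw [spT_mulVec, fldH_val]
  set x₁ : Fin m ⊕ Fin m → F := fun k => σ.symm (x k) with hx₁
  have hx : x = fun k => σ (x₁ k) := by
    funext k
    simp [hx₁]
  have h1 : (spT v t).1.map (σ : F →+* F) *ᵥ x = fun k => σ (((spT v t).1 *ᵥ x₁) k) := by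
    funext k
    have := RingHom.map_mulVec (σ : F →+* F) (spT v t).1 x₁ k
    simp only [RingEquiv.coe_toRingHom] at this ⊢
    rw [this, hx]
    rfl
  rw [h1, spT_mulVec, hx, symp_map]
  funext k
  simp [map_mul]

lemma fS_TT (σ : RingAut F) (v : Fin m ⊕ Fin m → F) (t : F) :
    fS σ (TT v t) = TT (fun k => σ (v k)) (σ t) := by
  rw [TT, fS_Pr, fldH_spT]
  rfl

lemma gl_scalar (g : MM) (h : ∀ v, v ≠ 0 → g *ᵥ v ∈ Submodule.span F {v}) : ∃ a : F, ∀ v, g *ᵥ v = a • v := by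
  let f : (Fin m ⊕ Fin m → F) →ₗ[F] (Fin m ⊕ Fin m → F) := Matrix.toLin' g
  have hf : ∀ v, f v = g *ᵥ v := fun v => Matrix.toLin'_apply _ _
  have hcoll : ∀ v, ¬ LinearIndependent F ![v, f v] := by
    intro v hli
    have hv : v ≠ 0 := by
      rintro rfl
      have := hli.ne_zero 0
      simp at this
    obtain ⟨a, ha⟩ := Submodule.mem_span_singleton.mp (h v hv)
    rw [LinearIndependent.pair_iff] at hli
    have := hli (-a) 1 (by
      rw [hf, ← ha, one_smul, neg_smul, neg_add_cancel])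
    exact one_ne_zero this.2
  obtain ⟨a, ha⟩ := LinearMap.exists_eq_smul_id_of_forall_notLinearIndependent hcoll
  refine ⟨a, fun v => ?_⟩
  rw [← hf, ha]
  simp

/-- The kernel of the action on `PSp`. -/
theorem scalar_of_cS_one {p : ℕ} [Fact p.Prime] [CharP F p] [NeZero m] {g : GS m F} (h : cS g = 1) :
    ∃ c : Fˣ, g = scS c := by
  have h1 : ∀ v, v ≠ 0 → g.1.1 *ᵥ v ∈ Submodule.span F {v} := by
    intro v hv
    have hne : g.1.1 *ᵥ v ≠ 0 := by
      intro h0
      apply hv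
      have := congrArg (fun z => (g.1⁻¹).1 *ᵥ z) h0
      simp only [mulVec_mulVec, ← Units.val_mul, inv_mul_cancel, Units.val_one, one_mulVec, mulVec_zero] at this
      exact this
    have h2 : cS g (TT v 1) = TT v 1 := by rw [h]; rfl
    rw [cS_TT] at h2
    refine TT_eq_imp p hne ?_ h2
    simp
  obtain ⟨a, ha⟩ := gl_scalar g.1.1 h1
  have ha0 : a ≠ 0 := by
    rintro rfl
    have hne : (EE (0 : Fin m) : Fin m ⊕ Fin m → F) ≠ 0 := EE_ne 0
    apply hne
    have h2 := ha (EE 0)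
    rw [zero_smul] at h2
    have := congrArg (fun z => (g.1⁻¹).1 *ᵥ z) h2
    simp only [mulVec_mulVec, ← Units.val_mul, inv_mul_cancel, Units.val_one, one_mulVec, mulVec_zero] at this
    exact this
  refine ⟨Units.mk0 a ha0, ?_⟩
  apply Subtype.ext
  apply Units.ext
  apply matrix_eq_of_mulVec
  intro x
  rw [ha x, scS_act]
  rfl

/-- Field automorphisms act faithfully. -/
theorem fS_injective {p : ℕ} [Fact p.Prime] [CharP F p] [NeZero m] : Function.Injective (fS : RingAut F → MulAut (PSp m F)) := by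
  intro σ τ h
  ext t
  have hE : ∀ τ' : RingAut F, (fun k => τ' ((EE (0 : Fin m) : Fin m ⊕ Fin m → F) k)) = EE 0 := by
    intro τ'
    funext k
    by_cases hk : k = Sum.inl 0
    · subst hk
      simp
    · simp [Pi.single_apply, hk]
  have h1 : fS σ (TT (EE (0 : Fin m)) t) = fS τ (TT (EE 0) t) := by rw [h]
  rw [fS_TT, fS_TT, hE, hE] at h1
  have h2 := eq_of_Pr (p := p) (spT_pow_char _ _) (spT_pow_char _ _) h1
  have h3 : ((spT (EE (0 : Fin m) : Fin m ⊕ Fin m → F) (σ t) : SP m F) : MM) *ᵥ FF 0 = ((spT (EE (0 : Fin m) : Fin m ⊕ Fin m → F) (τ t) : SP m F) : MM) *ᵥ FF 0 := by rw [h2]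
  rw [spT_mulVec, spT_mulVec, symp_E_right, add_right_inj] at h3
  have h4 := congrFun h3 (Sum.inl 0)
  simpa using h4

lemma orderOf_fS {p : ℕ} [Fact p.Prime] [CharP F p] [NeZero m] (σ : RingAut F) :
    orderOf (fS σ : MulAut (PSp m F)) = orderOf σ :=
  orderOf_injective (fSHom : RingAut F →* MulAut (PSp m F)) fS_injective σ

/-! ### The named automorphisms -/

lemma isInner_cS (g : GS m F) : Cfsg.IsInnerDiagonalAutPSp (cS g) := by
  refine ⟨g.1, g.2, fun s s' hs => ?_⟩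
  change Pr (conjH g s) = Pr s'
  congr 1
  apply Subtype.ext
  rw [conjH_val, hs]
  congr 2

lemma inner_eq_cS {β : MulAut (PSp m F)} (h : Cfsg.IsInnerDiagonalAutPSp β) : ∃ g : GS m F, β = cS g := by
  obtain ⟨g, hg, hβ⟩ := h
  refine ⟨⟨g, hg⟩, ?_⟩
  ext x
  obtain ⟨s, rfl⟩ := Pr_surj x
  refine (hβ s (conjH ⟨g, hg⟩ s) ?_).trans rfl
  rw [conjH_val]
  congr 2

lemma mem_inndiag {β : MulAut (PSp m F)} : β ∈ Cfsg.inndiagPSp m F ↔ ∃ g : GS m F, β = cS g := by
  constructor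
  · intro h
    have h1 : Cfsg.inndiagPSp m F ≤ (cSHom : GS m F →* MulAut (PSp m F)).range := by
      refine (Subgroup.closure_le _).2 ?_
      intro x hx
      obtain ⟨g, rfl⟩ := inner_eq_cS hx
      exact ⟨g, rfl⟩
    obtain ⟨g, hg⟩ := h1 h
    exact ⟨g, hg.symm⟩
  · rintro ⟨g, rfl⟩
    exact Subgroup.subset_closure (isInner_cS g)

lemma std_eq_fS {σ : RingAut F} {β : MulAut (PSp m F)} (h : Cfsg.IsStdFieldAutPSp σ β) : β = fS σ := by
  ext x
  obtain ⟨s, rfl⟩ := Pr_surj x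
  exact (h s (fldH σ s) rfl).trans rfl

lemma semilinear_eq {g : GL (Fin m ⊕ Fin m) F} (hg : g ∈ GSp m F) {σ : RingAut F} {β : PSp m F ≃* PSp m F}
    (h : Cfsg.IsInducedBySemilinearPSp g σ β) : β = cS ⟨g, hg⟩ * fS σ := by
  ext x
  obtain ⟨s, rfl⟩ := Pr_surj x
  exact (h s (conjH ⟨g, hg⟩ (fldH σ s)) rfl).trans rfl

/-- The inner-diagonal group is normal in the automorphism group. -/
theorem conj_cS {p : ℕ} [hp : Fact p.Prime] [CharP F p] [Fintype F] (hm : 2 ≤ m) (α : MulAut (PSp m F)) (g : GS m F) :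
    ∃ g' : GS m F, α * cS g * α⁻¹ = cS g' := by
  classical
  haveI : NeZero m := ⟨by omega⟩
  by_cases hp2 : p = 2
  · subst hp2
    obtain ⟨c, hc⟩ : ∃ c : Fˣ, Mu g = c * c := by
      have h2 : ringChar F = 2 := ringChar.eq F 2
      have h1 : IsSquare (Mu g : F) := FiniteField.isSquare_of_char_two h2 _
      obtain ⟨c, hc⟩ := h1
      have hc0 : c ≠ 0 := by
        rintro rfl
        rw [mul_zero] at hc
        exact (Mu g).ne_zero hc
      exact ⟨Units.mk0 c hc0, Units.ext hc⟩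
    have hm1 : Mu (g * scS c⁻¹) = 1 := by
      rw [map_mul, Mu_scS, hc]
      group
    obtain ⟨s, hs⟩ := exists_toGS hm1
    have e1 : cS g = MulAut.conj (Pr s) := by
      rw [← cS_toGS, hs, cS_mul, cS_scS, mul_one]
    obtain ⟨s', hs'⟩ := Pr_surj (α (Pr s))
    refine ⟨toGS s', ?_⟩
    rw [cS_toGS, e1, hs']
    ext x
    simp
  · have h4 : m = 2 → p ≠ 2 := fun _ => hp2
    obtain ⟨g₁, σ, hg₁, hind⟩ := aut_of_key (p := p) hm α (keyA hm h4 α) (keyA hm h4 (MulEquiv.symm α))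
    have e1 := semilinear_eq hg₁ hind
    refine ⟨⟨g₁, hg₁⟩ * mapGS (σ : F →+* F) g * (⟨g₁, hg₁⟩ : GS m F)⁻¹, ?_⟩
    rw [cS_mul, cS_mul, ← cS_inv]
    have e2 : α = cS ⟨g₁, hg₁⟩ * fS σ := e1
    rw [e2]
    calc (cS ⟨g₁, hg₁⟩ * fS σ) * cS g * (cS ⟨g₁, hg₁⟩ * fS σ)⁻¹
        = cS ⟨g₁, hg₁⟩ * (fS σ * cS g) * (fS σ)⁻¹ * (cS ⟨g₁, hg₁⟩)⁻¹ := by group
      _ = _ := by rw [fS_cS]; group

end CfsgLib.PSA
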