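/-
Hilbert's Theorem 90 for the conformal symplectic group and the field coset.
-/
import Cfsg.Agent.Lib.PSpAut.Aut
import Cfsg.Agent.Lib.ClassGeo.SpOver

set_option autoImplicit false
set_option linter.unusedSimpArgs false
set_option linter.unusedVariables false
set_option maxHeartbeats 1000000

namespace CfsgLib.PSA

open Matrix Cfsg CfsgLib.ClassGeo

variable {F : Type*} [Field F] {m : ℕ}

local notation "MM" => Matrix (Fin m ⊕ Fin m) (Fin m ⊕ Fin m) F

/-- The iterated norm in the conformal group. -/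
noncomputable def NGS (σ : RingAut F) (g : GS m F) : ℕ → GS m F
  | 0 => 1
  | (k + 1) => NGS σ g k * mapGS ((σ ^ k : RingAut F) : F →+* F) g

lemma NGS_val (σ : RingAut F) (g : GS m F) (k : ℕ) : (NGS σ g k).1 = NG σ g.1 k := by
  induction k with
  | zero => rfl
  | succ k ih =>
    change (NGS σ g k).1 * (mapGS ((σ ^ k : RingAut F) : F →+* F) g).1 = _
    rw [ih]
    rfl

lemma mapGS_aut_mul (σ τ : RingAut F) (g : GS m F) :
    mapGS ((σ * τ : RingAut F) : F →+* F) g = mapGS (σ : F →+* F) (mapGS (τ : F →+* F) g) :=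
  Subtype.ext (mapGL_mul σ τ g.1)

lemma mapGS_aut_one (g : GS m F) : mapGS ((1 : RingAut F) : F →+* F) g = g :=
  Subtype.ext (mapGL_one g.1)

lemma NGS_succ' (σ : RingAut F) (g : GS m F) (k : ℕ) :
    NGS σ g (k + 1) = g * mapGS (σ : F →+* F) (NGS σ g k) := by
  apply Subtype.ext
  rw [NGS_val, NG_succ']
  change _ = g.1 * (mapGS (σ : F →+* F) (NGS σ g k)).1
  rw [mapGS_val, NGS_val]

lemma cS_fS_pow (σ : RingAut F) (g : GS m F) (k : ℕ) :
    (cS g * fS σ : MulAut (PSp m F)) ^ k = cS (NGS σ g k) * fS (σ ^ k) := by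
  induction k with
  | zero =>
    rw [pow_zero, pow_zero, fS_one]
    change 1 = cS 1 * 1
    rw [cS_one, one_mul]
  | succ k ih =>
    rw [pow_succ, ih, pow_succ, fS_mul, mul_assoc, ← mul_assoc (fS (σ ^ k)), fS_cS]
    change _ = cS (NGS σ g k * mapGS ((σ ^ k : RingAut F) : F →+* F) g) * _
    rw [cS_mul]
    simp only [mul_assoc]

lemma Mu_NGS [NeZero m] (σ : RingAut F) (g : GS m F) (k : ℕ) :
    Mu (NGS σ g k) = CfsgLib.PSN.NmU σ k (Mu g) := by
  induction k with
  | zero =>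
    apply Units.ext
    rw [CfsgLib.PSN.NmU_val]
    simp [NGS]
  | succ k ih =>
    apply Units.ext
    rw [CfsgLib.PSN.NmU_succ]
    change ((Mu (NGS σ g k * mapGS ((σ ^ k : RingAut F) : F →+* F) g) : Fˣ) : F) = _
    rw [map_mul, Units.val_mul, ih]
    congr 1
    exact Mu_mapGS (σ ^ k) g

lemma NGS_mul_scS (σ : RingAut F) (g : GS m F) (μ : Fˣ) (k : ℕ) :
    NGS σ (g * scS μ) k = NGS σ g k * scS (CfsgLib.PSN.NmU σ k μ) := by
  have hval : ∀ k, CfsgLib.PSN.NmU σ (k + 1) μ = CfsgLib.PSN.NmU σ k μ * Units.map (((σ ^ k : RingAut F) : F ≃+* F) : F →* F) μ := by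
    intro k
    apply Units.ext
    rw [CfsgLib.PSN.NmU_succ]
    rfl
  induction k with
  | zero =>
    have : CfsgLib.PSN.NmU σ 0 μ = 1 := by
      apply Units.ext
      rw [CfsgLib.PSN.NmU_val]
      simp
    rw [this, scS_one, mul_one]
    rfl
  | succ k ih =>
    have e1 : NGS σ (g * scS μ) (k + 1) = NGS σ (g * scS μ) k * mapGS ((σ ^ k : RingAut F) : F →+* F) (g * scS μ) := rfl
    have e2 : NGS σ g (k + 1) = NGS σ g k * mapGS ((σ ^ k : RingAut F) : F →+* F) g := rfl
    rw [e1, e2, ih, map_mul, mapGS_scS, hval, scS_mul]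
    rw [mul_assoc, ← mul_assoc (scS _), scS_comm, mul_assoc, mul_assoc]

lemma gsp_of_basis (g : GL (Fin m ⊕ Fin m) F) (c : Fˣ)
    (h : ∀ i j, sympForm m F (g.1 *ᵥ Pi.single i 1) (g.1 *ᵥ Pi.single j 1) =
      (c : F) * sympForm m F (Pi.single i 1) (Pi.single j 1)) : g ∈ GSp m F := by
  refine mem_GSp_iff.mpr ⟨c, ?_⟩
  ext i j
  have h1 := h i j
  rw [form_matrix] at h1
  simp only [single_one_dotProduct, mulVec_single_one, Matrix.col_apply] at h1
  rw [h1, Matrix.smul_apply, smul_eq_mul, sympForm]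
  simp only [single_one_dotProduct, mulVec_single_one, Matrix.col_apply]

/-- Hilbert's Theorem 90 for the conformal symplectic group. -/
theorem H90GS [NeZero m] {K : Subfield F} (σ : RingAut F) (hK : ∀ a, a ∈ K ↔ σ a = a) {r : ℕ} (hr : orderOf σ = r)
    (hr0 : 0 < r) (d : GS m F) (hN : NGS σ d r = 1) : ∃ h : GS m F, d * mapGS (σ : F →+* F) h = h := by
  classical
  have hN' : NG σ d.1 r = 1 := by
    rw [← NGS_val, hN]
    rfl
  obtain ⟨h₀, hh₀⟩ := hilbert90 σ hr hr0 d.1 hN'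
  have hlam : CfsgLib.PSN.NmU σ r (Mu d) = 1 := by rw [← Mu_NGS, hN, map_one]
  have hprod : ∏ i ∈ Finset.range r, (σ ^ i) (((Mu d)⁻¹ : Fˣ) : F) = 1 := by
    rw [← CfsgLib.PSN.NmU_val, map_inv, hlam, inv_one, Units.val_one]
  obtain ⟨b, hb0, hb⟩ := CfsgLib.PSN.hilbert90_scalar σ hr hr0 _ hprod
  have hσb : σ b = (Mu d : F) * b := by
    have h1 := hb
    rw [Units.val_inv_eq_inv_val] at h1
    conv_rhs => rw [← h1]
    rw [mul_inv_cancel_left₀ (Mu d).ne_zero]
  let em : (Fin m ⊕ Fin m → K) → (Fin m ⊕ Fin m → F) := fun x i => (x i : F)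
  have hσem : ∀ x, (fun k => σ (em x k)) = em x := by
    intro x
    funext k
    exact (hK _).1 (x k).2
  have hdh : ∀ z, d.1.1 *ᵥ (fun k => σ ((h₀.1 *ᵥ em z) k)) = h₀.1 *ᵥ em z := by
    intro z
    have e : (fun k => σ ((h₀.1 *ᵥ em z) k)) = (h₀.1.map (σ : F →+* F)) *ᵥ em z := by
      funext k
      have := RingHom.map_mulVec (σ : F →+* F) h₀.1 (em z) k
      have e2 : ((σ : F →+* F) ∘ em z) = em z := hσem z
      rw [e2] at this
      exact this
    rw [e, mulVec_mulVec]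
    have e3 := congrArg Units.val hh₀
    rw [Units.val_mul] at e3
    exact congrArg (fun M => M *ᵥ em z) e3
  let C : (Fin m ⊕ Fin m → F) → (Fin m ⊕ Fin m → F) → F := fun x y => b * sympForm m F (h₀.1 *ᵥ x) (h₀.1 *ᵥ y)
  have hCfix : ∀ x y, σ (C (em x) (em y)) = C (em x) (em y) := by
    intro x y
    have h1 : sympForm m F (h₀.1 *ᵥ em x) (h₀.1 *ᵥ em y) = (Mu d : F) * σ (sympForm m F (h₀.1 *ᵥ em x) (h₀.1 *ᵥ em y)) := by
      conv_lhs => rw [← hdh x, ← hdh y]
      rw [Mu_spec, symp_map]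
    simp only [C]
    rw [map_mul, hσb]
    conv_rhs => rw [h1]
    ring
  have hem_add : ∀ x y, em (x + y) = em x + em y := fun x y => rfl
  have hem_smul : ∀ (c : K) x, em (c • x) = (c : F) • em x := fun c x => rfl
  let B₀ : LinearMap.BilinForm K (Fin m ⊕ Fin m → K) := LinearMap.mk₂ K
    (fun x y => (⟨C (em x) (em y), (hK _).2 (hCfix x y)⟩ : K))
    (fun x x' y => Subtype.ext (by
      change C (em (x + x')) (em y) = C (em x) (em y) + C (em x') (em y)
      simp only [C, hem_add, mulVec_add, symp_add_left, mul_add]))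
    (fun c x y => Subtype.ext (by
      change C (em (c • x)) (em y) = (c : F) * C (em x) (em y)
      simp only [C, hem_smul, mulVec_smul, symp_smul_left]
      ring))
    (fun x y y' => Subtype.ext (by
      change C (em x) (em (y + y')) = C (em x) (em y) + C (em x) (em y')
      simp only [C, hem_add, mulVec_add, symp_add_right, mul_add]))
    (fun c x y => Subtype.ext (by
      change C (em x) (em (c • y)) = (c : F) * C (em x) (em y)
      simp only [C, hem_smul, mulVec_smul, symp_smul_right]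
      ring))
  have hB₀ : ∀ x y, ((B₀ x y : K) : F) = C (em x) (em y) := fun x y => rfl
  have hAlt : B₀.IsAlt := by
    intro x
    apply Subtype.ext
    rw [hB₀]
    simp only [C, symp_self, mul_zero]
    rfl
  have hh₀inv : ∀ x, (h₀⁻¹).1 *ᵥ (h₀.1 *ᵥ x) = x := by
    intro x
    rw [mulVec_mulVec, ← Units.val_mul, inv_mul_cancel, Units.val_one, one_mulVec]
  have hh₀inv' : ∀ x, h₀.1 *ᵥ ((h₀⁻¹).1 *ᵥ x) = x := by
    intro x
    rw [mulVec_mulVec, ← Units.val_mul, mul_inv_cancel, Units.val_one, one_mulVec]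
  have hemS : ∀ i : Fin m ⊕ Fin m, em (Pi.single i 1) = Pi.single i 1 := by
    intro i
    funext k
    by_cases h : k = i
    · subst h
      simp [em]
    · simp [em, Pi.single_apply, h]
  have hsep : ∀ u, (∀ v, B₀ u v = 0) → u = 0 := by
    intro u hu
    have h1 : ∀ i : Fin m ⊕ Fin m, sympForm m F (h₀.1 *ᵥ em u) (h₀.1 *ᵥ Pi.single i 1) = 0 := by
      intro i
      have h2 := congrArg (fun z : K => (z : F)) (hu (Pi.single i 1))
      simp only [hB₀, hemS, C] at h2
      exact (mul_eq_zero.mp h2).resolve_left hb0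
    have h3 : h₀.1 *ᵥ em u = 0 := by
      apply symp_nondeg'
      intro x
      have e : x = ∑ i, ((h₀⁻¹).1 *ᵥ x) i • (h₀.1 *ᵥ Pi.single i 1) := by
        conv_lhs => rw [← hh₀inv' x, pi_eq_sum_univ ((h₀⁻¹).1 *ᵥ x)]
        rw [mulVec_sum]
        refine Finset.sum_congr rfl fun i _ => ?_
        rw [mulVec_smul]
        congr 2
        funext k
        simp [Pi.single_apply, eq_comm]
      rw [e]
      have hsum : ∀ (s : Finset (Fin m ⊕ Fin m)) (f : Fin m ⊕ Fin m → Fin m ⊕ Fin m → F),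
          (∀ i, sympForm m F (h₀.1 *ᵥ em u) (f i) = 0) → sympForm m F (h₀.1 *ᵥ em u) (∑ i ∈ s, f i) = 0 := by
        intro s f hf
        induction s using Finset.induction_on with
        | empty => simp [symp_zero_right]
        | insert a s ha ih => rw [Finset.sum_insert ha, symp_add_right, hf a, ih, add_zero]
      apply hsum
      intro i
      rw [symp_smul_right, h1, mul_zero]
    have h4 : em u = 0 := by
      rw [← hh₀inv (em u), h3, mulVec_zero]
    funext k
    apply Subtype.ext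
    exact congrFun h4 k
  obtain ⟨m', P, hP⟩ := exists_symp_coords (F := K) (V := Fin m ⊕ Fin m → K) (B := B₀) hAlt hsep
  have hm' : m' = m := by
    have := LinearEquiv.finrank_eq P
    simp only [Module.finrank_fintype_fun_eq_card, Fintype.card_sum, Fintype.card_fin] at this
    omega
  subst hm'
  let Pm : Matrix (Fin m' ⊕ Fin m') (Fin m' ⊕ Fin m') K := LinearMap.toMatrix' P.toLinearMap
  let Pm' : Matrix (Fin m' ⊕ Fin m') (Fin m' ⊕ Fin m') K := LinearMap.toMatrix' P.symm.toLinearMap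
  have hPm : ∀ x, Pm *ᵥ x = P x := fun x => LinearMap.toMatrix'_mulVec _ _
  have h1' : Pm * Pm' = 1 := by
    rw [← LinearMap.toMatrix'_comp]
    have : P.toLinearMap ∘ₗ P.symm.toLinearMap = LinearMap.id := by
      ext x
      simp
    rw [this, LinearMap.toMatrix'_id]
  have h2' : Pm' * Pm = 1 := mul_eq_one_comm.mp h1'
  let P₀ : GL (Fin m' ⊕ Fin m') K := ⟨Pm, Pm', h1', h2'⟩
  let Q : GL (Fin m' ⊕ Fin m') F := Matrix.GeneralLinearGroup.map K.subtype P₀
  have hQem : ∀ x, Q.1 *ᵥ em x = em (P x) := by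
    intro x
    funext k
    have := RingHom.map_mulVec K.subtype Pm x k
    rw [hPm] at this
    exact this.symm
  have hsympK : ∀ x y : Fin m' ⊕ Fin m' → K, ((sympForm m' K x y : K) : F) = sympForm m' F (em x) (em y) := by
    intro x y
    rw [symp_apply, symp_apply]
    change K.subtype _ = _
    rw [map_sum]
    refine Finset.sum_congr rfl fun i _ => ?_
    rw [map_sub, map_mul, map_mul]
    rfl
  have hmem : h₀ * Q ∈ GSp m' F := by
    apply gsp_of_basis _ (Units.mk0 b⁻¹ (inv_ne_zero hb0))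
    intro i j
    have e1 : ∀ l : Fin m' ⊕ Fin m', (h₀ * Q).1 *ᵥ Pi.single l 1 = h₀.1 *ᵥ em (P (Pi.single l 1)) := by
      intro l
      rw [Units.val_mul, ← mulVec_mulVec, ← hemS l, hQem]
    rw [e1, e1]
    have h3 : C (em (P (Pi.single i 1))) (em (P (Pi.single j 1))) = sympForm m' F (Pi.single i 1) (Pi.single j 1) := by
      rw [← hB₀, hP, hsympK, hemS, hemS]
    simp only [C] at h3
    rw [← h3, Units.val_mk0, ← mul_assoc, inv_mul_cancel₀ hb0, one_mul]
  refine ⟨⟨h₀ * Q, hmem⟩, ?_⟩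
  apply Subtype.ext
  change d.1 * Matrix.GeneralLinearGroup.map (σ : F →+* F) (h₀ * Q) = h₀ * Q
  have hQfix : Matrix.GeneralLinearGroup.map (σ : F →+* F) Q = Q := by
    apply Units.ext
    ext i j
    exact (hK _).1 (Pm i j).2
  rw [map_mul, hQfix, ← mul_assoc, hh₀]

/-- Elements of order dividing `r` in a field coset are conjugate to the field automorphism. -/
theorem field_coset {p : ℕ} [Fact p.Prime] [CharP F p] [Finite F] [NeZero m] {K : Subfield F} (σ : RingAut F)
    (hK : ∀ a, a ∈ K ↔ σ a = a) {r : ℕ} (hr : orderOf σ = r) (hr0 : 0 < r) (g : GS m F)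
    (hp : (cS g * fS σ : MulAut (PSp m F)) ^ r = 1) :
    ∃ h : GS m F, (cS g * fS σ : MulAut (PSp m F)) = cS h * fS σ * (cS h)⁻¹ := by
  have hσr : σ ^ r = 1 := by
    rw [← hr]
    exact pow_orderOf_eq_one σ
  rw [cS_fS_pow, hσr, fS_one, mul_one] at hp
  obtain ⟨l, hl⟩ := scalar_of_cS_one (p := p) hp
  have hfix : σ (l : F) = l := by
    have e1 : NGS σ g (r + 1) = NGS σ g r * mapGS ((σ ^ r : RingAut F) : F →+* F) g := rfl
    rw [NGS_succ', hσr, mapGS_aut_one, hl, mapGS_scS, scS_comm] at e1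
    have e2 := scS_inj (mul_left_cancel e1)
    have e3 := congrArg Units.val e2
    exact e3
  obtain ⟨μ, hμ⟩ := CfsgLib.PSN.NmU_surj σ hr hr0 l⁻¹ (by
    rw [Units.val_inv_eq_inv_val, map_inv₀, hfix])
  have hN : NGS σ (g * scS μ) r = 1 := by
    rw [NGS_mul_scS, hl, hμ, ← scS_mul, mul_inv_cancel, scS_one]
  obtain ⟨h, hh⟩ := H90GS σ hK hr hr0 (g * scS μ) hN
  refine ⟨h, ?_⟩
  have e1 : cS g = cS (g * scS μ) := by
    rw [cS_mul, cS_scS, mul_one]
  have e2 : g * scS μ = h * (mapGS (σ : F →+* F) h)⁻¹ := eq_mul_inv_of_mul_eq hh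
  rw [e1, e2, cS_inv, mul_assoc, fS_cS, cS_mul, ← map_inv, mul_assoc]

/-- Elements commuting with a field automorphism are fixed up to a scalar. -/
theorem comm_field {p : ℕ} [Fact p.Prime] [CharP F p] [Finite F] [NeZero m] (σ : RingAut F) {r : ℕ} (hr : orderOf σ = r)
    (hr0 : 0 < r) (g : GS m F) (hc : (cS g * fS σ : MulAut (PSp m F)) = fS σ * cS g) :
    ∃ c : Fˣ, mapGS (σ : F →+* F) (g * scS c) = g * scS c := by
  have hσr : σ ^ r = 1 := by
    rw [← hr]
    exact pow_orderOf_eq_one σ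
  rw [fS_cS] at hc
  have h1 : cS (g⁻¹ * mapGS (σ : F →+* F) g) = (1 : MulAut (PSp m F)) := by
    have h2 := mul_right_cancel hc
    rw [cS_mul, ← h2, ← cS_mul, inv_mul_cancel, cS_one]
  obtain ⟨l, hl⟩ := scalar_of_cS_one (p := p) h1
  have hl' : mapGS (σ : F →+* F) g = g * scS l := by
    rw [← hl, mul_inv_cancel_left]
  have hpow : ∀ k : ℕ, mapGS ((σ ^ k : RingAut F) : F →+* F) g = g * scS (CfsgLib.PSN.NmU σ k l) := by
    intro k
    induction k with
    | zero =>
      have : CfsgLib.PSN.NmU σ 0 l = 1 := by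
        apply Units.ext
        rw [CfsgLib.PSN.NmU_val]
        simp
      rw [this, scS_one, mul_one, pow_zero, mapGS_aut_one]
    | succ k ih =>
      rw [pow_succ, mapGS_aut_mul, hl', map_mul, ih, mapGS_scS, mul_assoc, ← scS_mul]
      congr 2
      apply Units.ext
      rw [CfsgLib.PSN.NmU_succ]
      rfl
  have h3 := hpow r
  rw [hσr, mapGS_aut_one] at h3
  have h4 : (scS (CfsgLib.PSN.NmU σ r l) : GS m F) = scS 1 := by
    rw [scS_one]
    exact left_eq_mul.1 h3
  have h5 := scS_inj h4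
  have h6 : ∏ i ∈ Finset.range r, (σ ^ i) (l : F) = 1 := by
    rw [← CfsgLib.PSN.NmU_val, h5, Units.val_one]
  obtain ⟨b, hb, e⟩ := CfsgLib.PSN.hilbert90_scalar σ hr hr0 (l : F) h6
  refine ⟨Units.mk0 b hb, ?_⟩
  rw [map_mul, hl', mapGS_scS, mul_assoc, ← scS_mul]
  congr 2
  apply Units.ext
  exact e

/-- The main theorem on cosets of field automorphisms. -/
theorem coset_conj [Fintype F] (hm : 2 ≤ m) (x δ : MulAut (PSp m F)) (hx : Cfsg.IsFieldAutClassPSp x)
    {r : ℕ} (hr : r.Prime) (hxr : orderOf x = r) (hδ : δ ∈ Cfsg.inndiagPSp m F) :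
    orderOf (δ * x) = r ↔ Cfsg.IsConjUnder (Cfsg.inndiagPSp m F) x (δ * x) := by
  classical
  haveI : NeZero m := ⟨by omega⟩
  obtain ⟨p, hcp⟩ := CharP.exists F
  haveI := hcp
  haveI : Fact p.Prime := ⟨CharP.char_is_prime F p⟩
  constructor
  · intro hord
    obtain ⟨α, σ, -, hσ⟩ := hx
    have he : α * x * α⁻¹ = fS σ := std_eq_fS hσ
    have e1 : orderOf (α * x * α⁻¹) = r := by
      rw [CfsgLib.PSN.conj_inv_mem, hxr]
    rw [he, orderOf_fS (p := p)] at e1
    obtain ⟨d, rfl⟩ := mem_inndiag.1 hδ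
    obtain ⟨d', hd'⟩ := conj_cS (p := p) hm α d
    have e2 : (cS d' * fS σ : MulAut (PSp m F)) ^ r = 1 := by
      have e3 : (cS d' * fS σ : MulAut (PSp m F)) = MulAut.conj α (cS d * x) := by
        rw [← hd', ← he, MulAut.conj_apply]
        group
      rw [e3, ← map_pow, ← hord, pow_orderOf_eq_one, map_one]
    obtain ⟨f, hf⟩ : ∃ f : ℕ, Fintype.card F = p ^ f := by
      obtain ⟨n, _, hn⟩ := FiniteField.card F p
      exact ⟨n, hn⟩
    have hf1 : 1 ≤ f := by
      by_contra h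
      have h0 : f = 0 := by omega
      rw [h0, pow_zero] at hf
      have := Fintype.one_lt_card (α := F)
      omega
    obtain ⟨-, K, hK, -⟩ := CfsgLib.PSN.fixed_subfield hf hf1 σ e1 hr.pos
    obtain ⟨h, hh⟩ := field_coset (p := p) σ hK e1 hr.pos d' e2
    obtain ⟨k, hk⟩ := conj_cS (p := p) hm α⁻¹ h
    exact ⟨cS k, mem_inndiag.2 ⟨k, rfl⟩, CfsgLib.PSN.transport he hd' hh hk⟩
  · rintro ⟨k, -, e⟩
    rw [e, CfsgLib.PSN.conj_inv_mem, hxr]

end CfsgLib.PSA
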