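/-
Centralisers of field automorphisms and class splitting for `PSp_{2m}(F)`.
-/
import Cfsg.Agent.Lib.PSpAut.Coset

set_option autoImplicit false
set_option linter.unusedSimpArgs false
set_option linter.unusedVariables false
set_option maxHeartbeats 1000000

namespace CfsgLib.PSA

open Matrix Cfsg CfsgLib.ClassGeo

variable {F : Type*} [Field F] {m : ℕ}

local notation "MM" => Matrix (Fin m ⊕ Fin m) (Fin m ⊕ Fin m) F

lemma Mu_matrix [NeZero m] (g : GS m F) :
    g.1.1ᵀ * Matrix.J (Fin m) F * g.1.1 = (Mu g : F) • Matrix.J (Fin m) F := by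
  apply matrix_eq_of_dot
  intro u v
  rw [← form_matrix, Mu_spec, smul_mulVec, dotProduct_smul]
  rfl

/-- Fixed matrices descend. -/
lemma descend_GLS {F₀ : Type*} [Field F₀] (ι : F₀ →+* F) (σ : RingAut F) (hι : ∀ a, σ a = a ↔ ∃ b, ι b = a)
    (g : GL (Fin m ⊕ Fin m) F) (hg : Matrix.GeneralLinearGroup.map (σ : F →+* F) g = g) :
    ∃ g₀ : GL (Fin m ⊕ Fin m) F₀, Matrix.GeneralLinearGroup.map ι g₀ = g := by
  classical
  have h1 : ∀ i j, ∃ b, ι b = g.1 i j := by
    intro i j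
    apply (hι _).1
    have := congrFun (congrFun (congrArg (fun x : GL (Fin m ⊕ Fin m) F => x.1) hg) i) j
    exact this
  have h2 : ∀ i j, ∃ b, ι b = (g⁻¹).1 i j := by
    intro i j
    apply (hι _).1
    have hg' : Matrix.GeneralLinearGroup.map (σ : F →+* F) g⁻¹ = g⁻¹ := by
      rw [map_inv, hg]
    have := congrFun (congrFun (congrArg (fun x : GL (Fin m ⊕ Fin m) F => x.1) hg') i) j
    exact this
  choose a ha using h1
  choose a' ha' using h2
  let M : Matrix (Fin m ⊕ Fin m) (Fin m ⊕ Fin m) F₀ := Matrix.of a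
  let M' : Matrix (Fin m ⊕ Fin m) (Fin m ⊕ Fin m) F₀ := Matrix.of a'
  have hM : M.map ι = g.1 := by
    ext i j
    exact ha i j
  have hM' : M'.map ι = (g⁻¹).1 := by
    ext i j
    exact ha' i j
  have hinj : Function.Injective (fun X : Matrix (Fin m ⊕ Fin m) (Fin m ⊕ Fin m) F₀ => X.map ι) :=
    Matrix.map_injective ι.injective
  have h3 : M * M' = 1 := by
    apply hinj
    change (M * M').map ι = (1 : Matrix (Fin m ⊕ Fin m) (Fin m ⊕ Fin m) F₀).map ι
    rw [Matrix.map_mul, hM, hM', Units.mul_inv, Matrix.map_one _ (map_zero ι) (map_one ι)]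
  refine ⟨⟨M, M', h3, mul_eq_one_comm.1 h3⟩, ?_⟩
  apply Units.ext
  exact hM

lemma descend_GS [NeZero m] {F₀ : Type*} [Field F₀] (ι : F₀ →+* F) (σ : RingAut F) (hι : ∀ a, σ a = a ↔ ∃ b, ι b = a)
    (g : GS m F) (hg : mapGS (σ : F →+* F) g = g) : ∃ g₀ : GS m F₀, mapGS ι g₀ = g := by
  obtain ⟨g₀, hg₀⟩ := descend_GLS ι σ hι g.1 (congrArg Subtype.val hg)
  have hlam : σ (Mu g : F) = (Mu g : F) := by
    rw [← Mu_mapGS, hg]
  obtain ⟨l, hl⟩ := (hι _).1 hlam
  have hl0 : l ≠ 0 := by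
    rintro rfl
    rw [map_zero] at hl
    exact (Mu g).ne_zero hl.symm
  have hmem : g₀ ∈ GSp m F₀ := by
    refine mem_GSp_iff.mpr ⟨Units.mk0 l hl0, ?_⟩
    apply Matrix.map_injective ι.injective
    change (g₀.1ᵀ * Matrix.J (Fin m) F₀ * g₀.1).map ι = (l • Matrix.J (Fin m) F₀).map ι
    rw [Matrix.map_mul, Matrix.map_mul, Matrix.transpose_map, J_map]
    have e1 : g₀.1.map ι = g.1.1 := congrArg Units.val hg₀
    rw [e1, Mu_matrix, ← hl]
    ext a b
    simp only [Matrix.smul_apply, smul_eq_mul, Matrix.map_apply, map_mul]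
    rw [← J_map ι]
    rfl
  exact ⟨⟨g₀, hmem⟩, Subtype.ext hg₀⟩

lemma cS_comm_fS_of_fixed (σ : RingAut F) {g : GS m F} (hg : mapGS (σ : F →+* F) g = g) :
    (cS g * fS σ : MulAut (PSp m F)) = fS σ * cS g := by
  rw [fS_cS, hg]

/-- The centraliser of a field automorphism in the inner-diagonal group. -/
theorem centralizer_iso {p : ℕ} [Fact p.Prime] [CharP F p] [Finite F] [NeZero m] (σ : RingAut F) {r : ℕ} (hr : orderOf σ = r)
    (hr0 : 0 < r) {F₀ : Type*} [Field F₀] (ι : F₀ →+* F) (hι : ∀ a, σ a = a ↔ ∃ b, ι b = a) :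
    Nonempty (↥(Cfsg.inndiagPSp m F ⊓ Subgroup.centralizer {(fS σ : MulAut (PSp m F))}) ≃* Cfsg.PGSp m F₀) := by
  classical
  let Ψ : GS m F₀ →* MulAut (PSp m F) := cSHom.comp (mapGS ι)
  have hΨ : ∀ g₀, Ψ g₀ = cS (mapGS ι g₀) := fun _ => rfl
  have hfix : ∀ g₀ : GS m F₀, mapGS (σ : F →+* F) (mapGS ι g₀) = mapGS ι g₀ := by
    intro g₀
    apply Subtype.ext
    apply Units.ext
    ext i j
    exact (hι _).2 ⟨_, rfl⟩
  have hrange : Ψ.range = Cfsg.inndiagPSp m F ⊓ Subgroup.centralizer {(fS σ : MulAut (PSp m F))} := by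
    ext β
    rw [Subgroup.mem_inf, MonoidHom.mem_range, Subgroup.mem_centralizer_singleton_iff]
    constructor
    · rintro ⟨g₀, rfl⟩
      exact ⟨mem_inndiag.2 ⟨_, rfl⟩, cS_comm_fS_of_fixed σ (hfix g₀)⟩
    · rintro ⟨h1, h2⟩
      obtain ⟨g, rfl⟩ := mem_inndiag.1 h1
      obtain ⟨c, hc⟩ := comm_field (p := p) σ hr hr0 g h2
      obtain ⟨g₀, hg₀⟩ := descend_GS ι σ hι _ hc
      refine ⟨g₀, ?_⟩
      rw [hΨ, hg₀, cS_mul, cS_scS, mul_one]
  have hker : Ψ.ker = (Geo.scalars (Fin m ⊕ Fin m) F₀).subgroupOf (GSp m F₀) := by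
    ext g₀
    rw [MonoidHom.mem_ker, Subgroup.mem_subgroupOf, Geo.mem_scalars_iff]
    constructor
    · intro h
      obtain ⟨l, hl⟩ := scalar_of_cS_one (p := p) (show cS (mapGS ι g₀) = 1 from h)
      have hent : ∀ i j, ι (g₀.1.1 i j) = ((l : F) • (1 : MM)) i j := by
        intro i j
        have := congrFun (congrFun (congrArg (fun x : GS m F => x.1.1) hl) i) j
        exact this
      have h0 : g₀.1.1 (Sum.inl 0) (Sum.inl 0) ≠ 0 := by
        intro h0
        have := hent (Sum.inl 0) (Sum.inl 0)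
        rw [h0, map_zero] at this
        simp only [Matrix.smul_apply, Matrix.one_apply_eq, smul_eq_mul, mul_one] at this
        exact l.ne_zero this.symm
      refine ⟨Units.mk0 _ h0, ?_⟩
      ext i j
      apply ι.injective
      rw [hent i j]
      by_cases hij : i = j
      · subst hij
        have := hent (Sum.inl 0) (Sum.inl 0)
        simp only [Matrix.smul_apply, Matrix.one_apply_eq, smul_eq_mul, mul_one] at this
        simp only [Matrix.smul_apply, Matrix.one_apply_eq, smul_eq_mul, mul_one, Units.val_mk0]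
        exact this.symm
      · simp [hij]
    · rintro ⟨c, hc⟩
      change cS (mapGS ι g₀) = 1
      have e : mapGS ι g₀ = scS (Units.map (ι : F₀ →* F) c) := by
        apply Subtype.ext
        apply Units.ext
        ext i j
        change ι (g₀.1.1 i j) = _
        rw [hc]
        by_cases hij : i = j
        · subst hij
          simp [scS_val]
        · simp [scS_val, hij]
      rw [e, cS_scS]
  have e1 := QuotientGroup.quotientKerEquivRange Ψ
  have e2 : (GS m F₀ ⧸ Ψ.ker) ≃* Cfsg.PGSp m F₀ := QuotientGroup.quotientMulEquivOfEq hker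
  have e3 : Ψ.range ≃* ↥(Cfsg.inndiagPSp m F ⊓ Subgroup.centralizer {(fS σ : MulAut (PSp m F))}) := MulEquiv.subgroupCongr hrange
  exact ⟨(e3.symm.trans e1.symm).trans e2⟩

/-! ### Class counting -/

section Count

variable [NeZero m]

/-- The multipliers of elements centralising `x`. -/
noncomputable def multC (x : MulAut (PSp m F)) : Subgroup Fˣ :=
  ((Subgroup.centralizer {x}).comap (cSHom : GS m F →* MulAut (PSp m F))).map Mu

lemma mem_multC {x : MulAut (PSp m F)} {u : Fˣ} :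
    u ∈ multC x ↔ ∃ g : GS m F, cS g * x = x * cS g ∧ Mu g = u := by
  constructor
  · rintro ⟨g, hg, rfl⟩
    have h1 : cSHom g ∈ Subgroup.centralizer {x} := hg
    rw [Subgroup.mem_centralizer_singleton_iff] at h1
    exact ⟨g, h1, rfl⟩
  · rintro ⟨g, hg, rfl⟩
    refine ⟨g, ?_, rfl⟩
    change cSHom g ∈ Subgroup.centralizer {x}
    rw [Subgroup.mem_centralizer_singleton_iff]
    exact hg

end Count

/-- Diagonal elements with a given multiplier. -/
noncomputable def dgS (u : Fˣ) : GS m F :=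
  ⟨⟨Matrix.diagonal (Sum.elim (fun _ => 1) (fun _ => (u : F))),
    Matrix.diagonal (Sum.elim (fun _ => 1) (fun _ => ((u⁻¹ : Fˣ) : F))), by
      rw [Matrix.diagonal_mul_diagonal, ← Matrix.diagonal_one]
      congr 1
      funext k
      rcases k with i | i <;> simp, by
      rw [Matrix.diagonal_mul_diagonal, ← Matrix.diagonal_one]
      congr 1
      funext k
      rcases k with i | i <;> simp⟩, ⟨u, fun x y => by
    change sympForm m F (Matrix.diagonal (Sum.elim (fun _ => 1) (fun _ => (u : F))) *ᵥ x)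
      (Matrix.diagonal (Sum.elim (fun _ => 1) (fun _ => (u : F))) *ᵥ y) = _
    rw [symp_apply, symp_apply, Finset.mul_sum]
    refine Finset.sum_congr rfl fun i _ => ?_
    simp only [Matrix.mulVec_diagonal, Sum.elim_inl, Sum.elim_inr]
    ring⟩⟩

lemma Mu_dgS [NeZero m] (u : Fˣ) : Mu (dgS u : GS m F) = u := by
  apply Units.ext
  symm
  apply Mu_unique
  intro x y
  change sympForm m F (Matrix.diagonal (Sum.elim (fun _ => 1) (fun _ => (u : F))) *ᵥ x)
      (Matrix.diagonal (Sum.elim (fun _ => 1) (fun _ => (u : F))) *ᵥ y) = _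
  rw [symp_apply, symp_apply, Finset.mul_sum]
  refine Finset.sum_congr rfl fun i _ => ?_
  simp only [Matrix.mulVec_diagonal, Sum.elim_inl, Sum.elim_inr]
  ring

lemma mapGS_dgS (σ : RingAut F) (u : Fˣ) :
    mapGS (σ : F →+* F) (dgS u : GS m F) = dgS (Units.map ((σ : F ≃+* F) : F →* F) u) := by
  apply Subtype.ext
  apply Units.ext
  ext a b
  change σ ((Matrix.diagonal (Sum.elim (fun _ => 1) (fun _ => (u : F))) : MM) a b) =
    (Matrix.diagonal (Sum.elim (fun _ => 1) (fun _ => (σ (u : F)))) : MM) a b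
  by_cases h : a = b
  · subst h
    rcases a with i | i <;> simp
  · simp [h]

/-- Two conjugates are inner-conjugate iff their multipliers agree modulo the centraliser. -/
lemma split_key [NeZero m] (x : MulAut (PSp m F)) (g g' : GS m F) :
    Cfsg.IsConjUnder (Cfsg.Inn (PSp m F)) (cS g * x * (cS g)⁻¹) (cS g' * x * (cS g')⁻¹) ↔
      ((Mu g : Fˣ) : Fˣ ⧸ multC x) = ((Mu g' : Fˣ) : Fˣ ⧸ multC x) := by
  rw [QuotientGroup.eq]
  constructor
  · rintro ⟨k, hk, e⟩
    obtain ⟨A, hA, rfl⟩ := inn_iff.1 hk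
    rw [mem_multC]
    refine ⟨(A * g)⁻¹ * g', ?_, ?_⟩
    · rw [cS_mul, ← cS_inv, cS_mul]
      have e2 : x = (cS A * cS g)⁻¹ * (cS g' * x * (cS g')⁻¹) * (cS A * cS g) := by
        rw [e]
        group
      nth_rewrite 2 [e2]
      group
    · rw [map_mul, map_inv, map_mul, hA, one_mul]
  · intro h
    obtain ⟨c, hc, hdet⟩ := mem_multC.1 h
    let A := g' * c⁻¹ * g⁻¹
    have hA : Mu A = 1 := by
      simp only [A, map_mul, map_inv]
      rw [hdet]
      simp only [_root_.mul_inv_rev, inv_inv]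
      rw [mul_comm (_ : Fˣ)]
      simp [mul_comm, mul_assoc]
    refine ⟨cS A, inn_iff.2 ⟨A, hA, rfl⟩, ?_⟩
    have hg' : g' = A * g * c := by
      simp [A]
    rw [hg', cS_mul, cS_mul]
    have hx : cS c * x * (cS c)⁻¹ = x := by
      rw [hc, mul_inv_cancel_right]
    calc cS A * cS g * cS c * x * (cS A * cS g * cS c)⁻¹ = cS A * (cS g * (cS c * x * (cS c)⁻¹) * (cS g)⁻¹) * (cS A)⁻¹ := by group
      _ = _ := by rw [hx]

/-- The number of inner classes in an inner-diagonal class. -/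
theorem split_count [NeZero m] (x : MulAut (PSp m F)) :
    Cfsg.splitClassCount (Cfsg.inndiagPSp m F) (Cfsg.Inn (PSp m F)) x = (multC x).index := by
  classical
  have hex : ∀ y : {y : MulAut (PSp m F) // Cfsg.IsConjUnder (Cfsg.inndiagPSp m F) x y}, ∃ g : GS m F, y.1 = cS g * x * (cS g)⁻¹ := by
    rintro ⟨y, h, hh, e⟩
    obtain ⟨g, rfl⟩ := mem_inndiag.1 hh
    exact ⟨g, e⟩
  choose G hG using hex
  let Φ : Quot (fun y z : {y : MulAut (PSp m F) // Cfsg.IsConjUnder (Cfsg.inndiagPSp m F) x y} => Cfsg.IsConjUnder (Cfsg.Inn (PSp m F)) y.1 z.1) → Fˣ ⧸ multC x :=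
    Quot.lift (fun y => ((Mu (G y) : Fˣ) : Fˣ ⧸ multC x)) (by
      intro y z h
      have h1 : Cfsg.IsConjUnder (Cfsg.Inn (PSp m F)) (cS (G y) * x * (cS (G y))⁻¹) (cS (G z) * x * (cS (G z))⁻¹) := by
        rw [← hG, ← hG]
        exact h
      exact (split_key x _ _).1 h1)
  have hbij : Function.Bijective Φ := by
    constructor
    · intro a b
      obtain ⟨y, rfl⟩ := Quot.exists_rep a
      obtain ⟨z, rfl⟩ := Quot.exists_rep b
      intro h
      apply Quot.sound
      have h1 := (split_key x (G y) (G z)).2 h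
      rw [← hG, ← hG] at h1
      exact h1
    · intro u
      obtain ⟨u, rfl⟩ := QuotientGroup.mk_surjective u
      let y : {y : MulAut (PSp m F) // Cfsg.IsConjUnder (Cfsg.inndiagPSp m F) x y} :=
        ⟨cS (dgS u) * x * (cS (dgS u))⁻¹, cS (dgS u), mem_inndiag.2 ⟨_, rfl⟩, rfl⟩
      refine ⟨Quot.mk _ y, ?_⟩
      change ((Mu (G y) : Fˣ) : Fˣ ⧸ multC x) = _
      have h1 : Cfsg.IsConjUnder (Cfsg.Inn (PSp m F)) (cS (G y) * x * (cS (G y))⁻¹) (cS (dgS u) * x * (cS (dgS u))⁻¹) := by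
        rw [← hG]
        exact ⟨1, Subgroup.one_mem _, by simp [y]⟩
      have h2 := (split_key x _ _).1 h1
      rw [h2, Mu_dgS]
  exact Nat.card_congr (Equiv.ofBijective Φ hbij)

/-- The multipliers of the centraliser of a field automorphism. -/
theorem multC_fS {p : ℕ} [Fact p.Prime] [CharP F p] [Finite F] [NeZero m] (σ : RingAut F) {r : ℕ} (hr : orderOf σ = r) (hr0 : 0 < r) :
    multC (fS σ : MulAut (PSp m F)) = CfsgLib.PSN.fixU σ ⊔ (powMonoidHom 2 : Fˣ →* Fˣ).range := by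
  apply le_antisymm
  · intro u hu
    obtain ⟨g, hg, rfl⟩ := mem_multC.1 hu
    obtain ⟨c, hc⟩ := comm_field (p := p) σ hr hr0 g hg
    rw [Subgroup.mem_sup]
    refine ⟨Mu (g * scS c), ?_, (c * c)⁻¹, ⟨c⁻¹, by simp [pow_two]⟩, ?_⟩
    · change σ (_ : F) = _
      rw [← Mu_mapGS, hc]
    · rw [map_mul, Mu_scS]
      group
  · refine sup_le ?_ ?_
    · intro v hv
      refine mem_multC.2 ⟨dgS v, cS_comm_fS_of_fixed σ ?_, Mu_dgS v⟩
      rw [mapGS_dgS]
      congr 1
      apply Units.ext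
      exact hv
    · rintro _ ⟨v, rfl⟩
      refine mem_multC.2 ⟨scS v, ?_, ?_⟩
      · rw [cS_scS, one_mul, mul_one]
      · rw [Mu_scS]
        simp [pow_two]

/-- The arithmetic. -/
lemma gcd_arith {p f r : ℕ} (hp : p.Prime) (hr : r.Prime) (hrf : r ∣ f) (hf : 1 ≤ f) :
    Nat.gcd 2 ((p ^ f - 1) / (p ^ (f / r) - 1)) = Nat.gcd (Nat.gcd 2 (p ^ f - 1)) r := by
  obtain ⟨k, rfl⟩ := hrf
  have hk : 1 ≤ k := by
    rcases Nat.eq_zero_or_pos k with h | h
    · subst h
      omega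
    · exact h
  rw [Nat.mul_div_cancel_left _ hr.pos, mul_comm r k, pow_mul]
  set q₀ := p ^ k with hq₀
  have hq2 : 2 ≤ q₀ := by
    calc 2 ≤ p := hp.two_le
      _ = p ^ 1 := (pow_one p).symm
      _ ≤ p ^ k := Nat.pow_le_pow_right hp.pos hk
  have hge : (q₀ ^ r - 1) / (q₀ - 1) = ∑ i ∈ Finset.range r, q₀ ^ i := (Nat.geomSum_eq hq2 r).symm
  rcases hp.eq_two_or_odd' with h2 | hodd
  · subst h2
    have heven : Even q₀ := (Nat.even_pow.mpr ⟨even_two, by omega⟩)
    have hr0 : r ≠ 0 := hr.ne_zero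
    have hodd : Odd (q₀ ^ r - 1) := by
      have h1 : Even (q₀ ^ r) := heven.pow_of_ne_zero hr0
      have h2 : 1 ≤ q₀ ^ r := Nat.one_le_pow _ _ (by omega)
      exact Nat.Even.sub_odd h2 h1 odd_one
    have hdvd : (q₀ ^ r - 1) / (q₀ - 1) ∣ q₀ ^ r - 1 := by
      apply Nat.div_dvd_of_dvd
      have h5 : q₀ ≡ 1 [MOD (q₀ - 1)] := by
        refine ((Nat.modEq_iff_dvd' (by omega)).mpr ?_).symm
        exact dvd_refl _
      have h6 : q₀ ^ r ≡ 1 [MOD (q₀ - 1)] := by
        have := h5.pow r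
        simpa using this
      exact (Nat.modEq_iff_dvd' (Nat.one_le_pow _ _ (by omega))).mp h6.symm
    have h3 : Odd ((q₀ ^ r - 1) / (q₀ - 1)) := Odd.of_dvd_nat hodd hdvd
    rw [Nat.coprime_two_left.mpr h3, Nat.coprime_two_left.mpr hodd]
    simp
  · have hq₀odd : Odd q₀ := hodd.pow
    have heven : Even (q₀ ^ r - 1) := by
      have h1 : Odd (q₀ ^ r) := hq₀odd.pow
      exact Nat.Odd.sub_odd h1 odd_one
    have h2 : Nat.gcd 2 (q₀ ^ r - 1) = 2 := Nat.gcd_eq_left heven.two_dvd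
    rw [h2, hge]
    have hmod : ∀ n : ℕ, (∑ i ∈ Finset.range n, q₀ ^ i) ≡ n [MOD 2] := by
      intro n
      induction n with
      | zero => rfl
      | succ n ih =>
        rw [Finset.sum_range_succ]
        have h3 : q₀ ^ n ≡ 1 [MOD 2] := by
          have h4 : Odd (q₀ ^ n) := hq₀odd.pow
          exact Nat.odd_iff.mp h4
        exact ih.add h3
    rw [Nat.gcd_comm 2, (hmod r).gcd_eq, Nat.gcd_comm]

/-- The main theorem on field automorphisms. -/
theorem field_class [Fintype F] {p f : ℕ} [hp : Fact p.Prime] (hF : Fintype.card F = p ^ f) (hf : 1 ≤ f) (hm : 2 ≤ m)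
    (x : MulAut (PSp m F)) (hx : Cfsg.IsFieldAutClassPSp x) {r : ℕ} (hr : r.Prime) (hxr : orderOf x = r)
    (F₀ : Type*) [Field F₀] [Fintype F₀] (hF₀ : Fintype.card F₀ = p ^ (f / r)) :
    r ∣ f ∧ Nonempty (↥(Cfsg.inndiagPSp m F ⊓ Subgroup.centralizer {x}) ≃* Cfsg.PGSp m F₀) ∧
      Cfsg.splitClassCount (Cfsg.inndiagPSp m F) (Cfsg.Inn (PSp m F)) x = Nat.gcd (Nat.gcd 2 (p ^ f - 1)) r := by
  classical
  haveI : NeZero m := ⟨by omega⟩
  haveI := CfsgLib.PSN.charP_of_card hF hf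
  obtain ⟨α, σ, -, hσ⟩ := hx
  have he : α * x * α⁻¹ = fS σ := std_eq_fS hσ
  have hord : orderOf σ = r := by
    have e1 : orderOf (α * x * α⁻¹) = r := by
      rw [CfsgLib.PSN.conj_inv_mem, hxr]
    rwa [he, orderOf_fS (p := p)] at e1
  obtain ⟨hrf, -⟩ := CfsgLib.PSN.fixed_subfield hF hf σ hord hr.pos
  obtain ⟨ι, hι⟩ := CfsgLib.PSN.exists_embedding hF hf σ hord hr.pos F₀ hF₀
  refine ⟨hrf, ?_, ?_⟩
  · obtain ⟨E⟩ := centralizer_iso (p := p) (m := m) σ hord hr.pos ι hι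
    have hmap : (Cfsg.inndiagPSp m F ⊓ Subgroup.centralizer {x}).map (MulAut.conj α).toMonoidHom = Cfsg.inndiagPSp m F ⊓ Subgroup.centralizer {(fS σ : MulAut (PSp m F))} := by
      ext β
      simp only [Subgroup.mem_map, Subgroup.mem_inf, Subgroup.mem_centralizer_singleton_iff]
      constructor
      · rintro ⟨γ, ⟨h1, h2⟩, rfl⟩
        obtain ⟨g, rfl⟩ := mem_inndiag.1 h1
        obtain ⟨g', hg'⟩ := conj_cS (p := p) hm α g
        refine ⟨mem_inndiag.2 ⟨g', hg'⟩, ?_⟩
        change α * cS g * α⁻¹ * fS σ = fS σ * (α * cS g * α⁻¹)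
        rw [← he]
        calc α * cS g * α⁻¹ * (α * x * α⁻¹) = α * (cS g * x) * α⁻¹ := by group
          _ = α * (x * cS g) * α⁻¹ := by rw [h2]
          _ = _ := by group
      · rintro ⟨h1, h2⟩
        obtain ⟨g, rfl⟩ := mem_inndiag.1 h1
        obtain ⟨g', hg'⟩ := conj_cS (p := p) hm α⁻¹ g
        refine ⟨cS g', ⟨mem_inndiag.2 ⟨g', rfl⟩, ?_⟩, ?_⟩
        · rw [← hg']
          have hx' : x = α⁻¹ * fS σ * α := by
            rw [← he]
            group
          rw [hx']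
          calc α⁻¹ * cS g * α⁻¹⁻¹ * (α⁻¹ * fS σ * α) = α⁻¹ * (cS g * fS σ) * α := by group
            _ = α⁻¹ * (fS σ * cS g) * α := by rw [h2]
            _ = _ := by group
        · change α * cS g' * α⁻¹ = cS g
          rw [← hg']
          group
    have e1 := MulEquiv.subgroupMap (MulAut.conj α) (Cfsg.inndiagPSp m F ⊓ Subgroup.centralizer {x})
    exact ⟨e1.trans ((MulEquiv.subgroupCongr hmap).trans E)⟩
  · have hH : ∀ h, α * h * α⁻¹ ∈ Cfsg.inndiagPSp m F ↔ h ∈ Cfsg.inndiagPSp m F := by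
      intro h
      constructor
      · intro h1
        obtain ⟨g, hg⟩ := mem_inndiag.1 h1
        obtain ⟨g', hg'⟩ := conj_cS (p := p) hm α⁻¹ g
        refine mem_inndiag.2 ⟨g', ?_⟩
        rw [← hg', ← hg]
        group
      · intro h1
        obtain ⟨g, rfl⟩ := mem_inndiag.1 h1
        obtain ⟨g', hg'⟩ := conj_cS (p := p) hm α g
        exact mem_inndiag.2 ⟨g', hg'⟩
    have hK : ∀ h, α * h * α⁻¹ ∈ Cfsg.Inn (PSp m F) ↔ h ∈ Cfsg.Inn (PSp m F) := by
      intro h
      constructor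
      · intro h1
        have := (Cfsg.innNormal (PSp m F)).conj_mem _ h1 α⁻¹
        simpa [mul_assoc] using this
      · intro h1
        exact (Cfsg.innNormal (PSp m F)).conj_mem _ h1 α
    rw [CfsgLib.PSN.splitClassCount_conj _ _ α hH hK x, he, split_count, multC_fS (p := p) σ hord hr.pos, CfsgLib.PSN.index_sup_pow,
      CfsgLib.PSN.card_fixU hF hf σ hord hr.pos, Nat.card_eq_fintype_card, Fintype.card_units, hF]
    exact gcd_arith hp.out hr hrf hf

end CfsgLib.PSA
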