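/-
The exceptional graph automorphism of `Sp₄(F)` in characteristic two, through the minors of the matrix.
-/
import Cfsg.Agent.Lib.PSpAut.Class

set_option autoImplicit false
set_option linter.unusedSimpArgs false
set_option linter.unusedVariables false
set_option maxHeartbeats 1000000

namespace CfsgLib.PSA

open Matrix Cfsg CfsgLib.ClassGeo

variable {F : Type*} [Field F]

local notation "I₄" => (Fin 2 ⊕ Fin 2)
local notation "M₄" => Matrix (Fin 2 ⊕ Fin 2) (Fin 2 ⊕ Fin 2) F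

/-- A two by two minor. -/
def mn (A : M₄) (x y u v : I₄) : F := A x u * A y v - A x v * A y u

/-- The four pairs of indices. -/
def prG : I₄ → I₄ × I₄
  | Sum.inl ⟨0, _⟩ => (Sum.inl 0, Sum.inl 1)
  | Sum.inl ⟨1, _⟩ => (Sum.inl 0, Sum.inr 1)
  | Sum.inr ⟨0, _⟩ => (Sum.inr 0, Sum.inr 1)
  | Sum.inr ⟨1, _⟩ => (Sum.inl 1, Sum.inr 0)

/-- The matrix of minors. -/
def gmat (A : M₄) : M₄ := Matrix.of fun a b => mn A (prG a).1 (prG a).2 (prG b).1 (prG b).2

lemma prG_a : prG (Sum.inl 0) = (Sum.inl 0, Sum.inl 1) := rfl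
lemma prG_b : prG (Sum.inl 1) = (Sum.inl 0, Sum.inr 1) := rfl
lemma prG_c : prG (Sum.inr 0) = (Sum.inr 0, Sum.inr 1) := rfl
lemma prG_d : prG (Sum.inr 1) = (Sum.inl 1, Sum.inr 0) := rfl

lemma sp_row (A : M₄) (hA : A ∈ symplecticGroup (Fin 2) F) (x y : I₄) :
    -(mn A x y (Sum.inl 0) (Sum.inr 0)) - mn A x y (Sum.inl 1) (Sum.inr 1) = (Matrix.J (Fin 2) F) x y := by
  have h := congrFun (congrFun (SymplecticGroup.mem_iff.mp hA) x) y
  rw [← h]
  simp [Matrix.mul_apply, Fintype.sum_sum_type, Fin.sum_univ_two, Matrix.J, Matrix.one_apply, mn]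
  ring

lemma sp_col (A : M₄) (hA : A ∈ symplecticGroup (Fin 2) F) (u v : I₄) :
    -(mn A (Sum.inl 0) (Sum.inr 0) u v) - mn A (Sum.inl 1) (Sum.inr 1) u v = (Matrix.J (Fin 2) F) u v := by
  have h := sp_row Aᵀ (SymplecticGroup.transpose_mem hA) u v
  rw [← h]
  simp only [mn, Matrix.transpose_apply]
  ring


lemma I4_all {P : I₄ → Prop} (h1 : P (Sum.inl 0)) (h2 : P (Sum.inl 1)) (h3 : P (Sum.inr 0)) (h4 : P (Sum.inr 1))
    (a : I₄) : P a := by
  rcases a with i | i <;> fin_cases i <;> assumption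

lemma mul_entry (A B : M₄) (x u : I₄) : (A * B) x u =
    A x (Sum.inl 0) * B (Sum.inl 0) u + A x (Sum.inl 1) * B (Sum.inl 1) u +
      A x (Sum.inr 0) * B (Sum.inr 0) u + A x (Sum.inr 1) * B (Sum.inr 1) u := by
  simp [Matrix.mul_apply, Fintype.sum_sum_type, Fin.sum_univ_two]
  ring

lemma cauchy_binet (A B : M₄) (x y u v : I₄) : mn (A * B) x y u v =
    mn A x y (Sum.inl 0) (Sum.inl 1) * mn B (Sum.inl 0) (Sum.inl 1) u v +
    mn A x y (Sum.inl 0) (Sum.inr 0) * mn B (Sum.inl 0) (Sum.inr 0) u v +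
    mn A x y (Sum.inl 0) (Sum.inr 1) * mn B (Sum.inl 0) (Sum.inr 1) u v +
    mn A x y (Sum.inl 1) (Sum.inr 0) * mn B (Sum.inl 1) (Sum.inr 0) u v +
    mn A x y (Sum.inl 1) (Sum.inr 1) * mn B (Sum.inl 1) (Sum.inr 1) u v +
    mn A x y (Sum.inr 0) (Sum.inr 1) * mn B (Sum.inr 0) (Sum.inr 1) u v := by
  simp only [mn, mul_entry]
  ring

lemma prG_J (a : I₄) : (Matrix.J (Fin 2) F) (prG a).1 (prG a).2 = 0 := by
  revert a
  apply I4_all <;> simp [prG, Matrix.J, Matrix.one_apply]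

lemma gmat_apply (A : M₄) (a b : I₄) : gmat A a b = mn A (prG a).1 (prG a).2 (prG b).1 (prG b).2 := rfl

lemma gmat_one : gmat (1 : M₄) = 1 := by
  ext a b
  revert a b
  apply I4_all <;> apply I4_all <;> simp [gmat, mn, prG, Matrix.one_apply]

section Two

variable [CharP F 2]

lemma gmat_mul {A B : M₄} (hA : A ∈ symplecticGroup (Fin 2) F) (hB : B ∈ symplecticGroup (Fin 2) F) :
    gmat (A * B) = gmat A * gmat B := by
  ext a b
  have h2 := two_eq_zero' (F := F)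
  have r1 := sp_row A hA (prG a).1 (prG a).2
  rw [prG_J] at r1
  have r2 := sp_col B hB (prG b).1 (prG b).2
  rw [prG_J] at r2
  rw [gmat_apply, cauchy_binet, mul_entry]
  simp only [gmat_apply]
  change _ = mn A _ _ (Sum.inl 0) (Sum.inl 1) * mn B (Sum.inl 0) (Sum.inl 1) _ _ +
    mn A _ _ (Sum.inl 0) (Sum.inr 1) * mn B (Sum.inl 0) (Sum.inr 1) _ _ +
    mn A _ _ (Sum.inr 0) (Sum.inr 1) * mn B (Sum.inr 0) (Sum.inr 1) _ _ +
    mn A _ _ (Sum.inl 1) (Sum.inr 0) * mn B (Sum.inl 1) (Sum.inr 0) _ _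
  set A' := mn A (prG a).1 (prG a).2 (Sum.inl 0) (Sum.inr 0)
  set A'' := mn A (prG a).1 (prG a).2 (Sum.inl 1) (Sum.inr 1)
  set B' := mn B (Sum.inl 0) (Sum.inr 0) (prG b).1 (prG b).2
  set B'' := mn B (Sum.inl 1) (Sum.inr 1) (prG b).1 (prG b).2
  have e1 : A'' = -A' := by linear_combination -r1
  have e2 : B'' = -B' := by linear_combination -r2
  rw [e1, e2]
  linear_combination A' * B' * h2

/-- The Laplace expression. -/
def Lap (A : M₄) (x y x' y' : I₄) : F :=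
  mn A x y (Sum.inl 0) (Sum.inl 1) * mn A x' y' (Sum.inr 0) (Sum.inr 1) +
  mn A x y (Sum.inr 0) (Sum.inr 1) * mn A x' y' (Sum.inl 0) (Sum.inl 1) +
  mn A x y (Sum.inl 0) (Sum.inr 1) * mn A x' y' (Sum.inl 1) (Sum.inr 0) +
  mn A x y (Sum.inl 1) (Sum.inr 0) * mn A x' y' (Sum.inl 0) (Sum.inr 1) -
  mn A x y (Sum.inl 0) (Sum.inr 0) * mn A x' y' (Sum.inl 1) (Sum.inr 1) -
  mn A x y (Sum.inl 1) (Sum.inr 1) * mn A x' y' (Sum.inl 0) (Sum.inr 0)

omit [CharP F 2] in
lemma Lap_det {A : M₄} (hA : A ∈ symplecticGroup (Fin 2) F) :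
    Lap A (Sum.inl 0) (Sum.inl 1) (Sum.inr 0) (Sum.inr 1) = 1 := by
  have hP : (-(mn A (Sum.inl 0) (Sum.inr 0) (Sum.inl 0) (Sum.inr 0)) - mn A (Sum.inl 0) (Sum.inr 0) (Sum.inl 1) (Sum.inr 1)) *
      (-(mn A (Sum.inl 1) (Sum.inr 1) (Sum.inl 0) (Sum.inr 0)) - mn A (Sum.inl 1) (Sum.inr 1) (Sum.inl 1) (Sum.inr 1)) =
      Lap A (Sum.inl 0) (Sum.inl 1) (Sum.inr 0) (Sum.inr 1) +
      (-(mn A (Sum.inl 0) (Sum.inl 1) (Sum.inl 0) (Sum.inr 0)) - mn A (Sum.inl 0) (Sum.inl 1) (Sum.inl 1) (Sum.inr 1)) *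
      (-(mn A (Sum.inr 0) (Sum.inr 1) (Sum.inl 0) (Sum.inr 0)) - mn A (Sum.inr 0) (Sum.inr 1) (Sum.inl 1) (Sum.inr 1)) +
      (-(mn A (Sum.inl 0) (Sum.inr 1) (Sum.inl 0) (Sum.inr 0)) - mn A (Sum.inl 0) (Sum.inr 1) (Sum.inl 1) (Sum.inr 1)) *
      (-(mn A (Sum.inl 1) (Sum.inr 0) (Sum.inl 0) (Sum.inr 0)) - mn A (Sum.inl 1) (Sum.inr 0) (Sum.inl 1) (Sum.inr 1)) := by
    simp only [Lap, mn]
    ring
  rw [sp_row A hA, sp_row A hA, sp_row A hA, sp_row A hA, sp_row A hA, sp_row A hA] at hP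
  simp [Matrix.J, Matrix.one_apply] at hP
  exact hP.symm

lemma gmat_form {A : M₄} (hA : A ∈ symplecticGroup (Fin 2) F) (a b : I₄) :
    (gmat A * Matrix.J (Fin 2) F * (gmat A)ᵀ) a b = Lap A (prG a).1 (prG a).2 (prG b).1 (prG b).2 := by
  have h2 := two_eq_zero' (F := F)
  have r1 := sp_row A hA (prG a).1 (prG a).2
  rw [prG_J] at r1
  have r2 := sp_row A hA (prG b).1 (prG b).2
  rw [prG_J] at r2
  have e : (gmat A * Matrix.J (Fin 2) F * (gmat A)ᵀ) a b =
      -(mn (gmat A) a b (Sum.inl 0) (Sum.inr 0)) - mn (gmat A) a b (Sum.inl 1) (Sum.inr 1) := by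
    simp [Matrix.mul_apply, Fintype.sum_sum_type, Fin.sum_univ_two, Matrix.J, Matrix.one_apply, mn]
    ring
  rw [e]
  have hm : ∀ c d u v, mn (gmat A) c d u v = gmat A c u * gmat A d v - gmat A c v * gmat A d u := fun _ _ _ _ => rfl
  rw [hm, hm]
  simp only [gmat_apply]
  change -(mn A _ _ (Sum.inl 0) (Sum.inl 1) * mn A _ _ (Sum.inr 0) (Sum.inr 1) -
      mn A _ _ (Sum.inr 0) (Sum.inr 1) * mn A _ _ (Sum.inl 0) (Sum.inl 1)) -
    (mn A _ _ (Sum.inl 0) (Sum.inr 1) * mn A _ _ (Sum.inl 1) (Sum.inr 0) -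
      mn A _ _ (Sum.inl 1) (Sum.inr 0) * mn A _ _ (Sum.inl 0) (Sum.inr 1)) = _
  simp only [Lap]
  set A1 := mn A (prG a).1 (prG a).2 (Sum.inl 0) (Sum.inr 0)
  set A2 := mn A (prG a).1 (prG a).2 (Sum.inl 1) (Sum.inr 1)
  set B1 := mn A (prG b).1 (prG b).2 (Sum.inl 0) (Sum.inr 0)
  set B2 := mn A (prG b).1 (prG b).2 (Sum.inl 1) (Sum.inr 1)
  have e1 : A2 = -A1 := by linear_combination -r1
  have e2 : B2 = -B1 := by linear_combination -r2
  rw [e1, e2]
  set P1 := mn A (prG a).1 (prG a).2 (Sum.inl 0) (Sum.inl 1)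
  set P2 := mn A (prG b).1 (prG b).2 (Sum.inr 0) (Sum.inr 1)
  set P3 := mn A (prG a).1 (prG a).2 (Sum.inl 0) (Sum.inr 1)
  set P4 := mn A (prG b).1 (prG b).2 (Sum.inl 1) (Sum.inr 0)
  linear_combination (-P1 * P2 - P3 * P4 - A1 * B1) * h2

lemma gmat_mem {A : M₄} (hA : A ∈ symplecticGroup (Fin 2) F) : gmat A ∈ symplecticGroup (Fin 2) F := by
  rw [SymplecticGroup.mem_iff]
  ext a b
  rw [gmat_form hA]
  have hdet := Lap_det hA
  have h2 := two_eq_zero' (F := F)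
  clear hA
  revert a b
  refine I4_all (fun b => ?_) (fun b => ?_) (fun b => ?_) (fun b => ?_)
  all_goals revert b
  all_goals refine I4_all ?_ ?_ ?_ ?_
  · have hJ : (Matrix.J (Fin 2) F) (Sum.inl 0) (Sum.inl 0) = 0 := by simp [Matrix.J, Matrix.one_apply]
    rw [hJ]
    simp only [prG_a, prG_b, prG_c, prG_d]
    simp only [Lap, mn]
    ring
  · have hJ : (Matrix.J (Fin 2) F) (Sum.inl 0) (Sum.inl 1) = 0 := by simp [Matrix.J, Matrix.one_apply]
    rw [hJ]
    simp only [prG_a, prG_b, prG_c, prG_d]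
    simp only [Lap, mn]
    ring
  · have hJ : (Matrix.J (Fin 2) F) (Sum.inl 0) (Sum.inr 0) = -1 := by simp [Matrix.J, Matrix.one_apply]
    rw [hJ]
    simp only [prG_a, prG_b, prG_c, prG_d]
    simp only [Lap, mn] at hdet ⊢
    linear_combination hdet + h2
  · have hJ : (Matrix.J (Fin 2) F) (Sum.inl 0) (Sum.inr 1) = 0 := by simp [Matrix.J, Matrix.one_apply]
    rw [hJ]
    simp only [prG_a, prG_b, prG_c, prG_d]
    simp only [Lap, mn]
    ring
  · have hJ : (Matrix.J (Fin 2) F) (Sum.inl 1) (Sum.inl 0) = 0 := by simp [Matrix.J, Matrix.one_apply]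
    rw [hJ]
    simp only [prG_a, prG_b, prG_c, prG_d]
    simp only [Lap, mn]
    ring
  · have hJ : (Matrix.J (Fin 2) F) (Sum.inl 1) (Sum.inl 1) = 0 := by simp [Matrix.J, Matrix.one_apply]
    rw [hJ]
    simp only [prG_a, prG_b, prG_c, prG_d]
    simp only [Lap, mn]
    ring
  · have hJ : (Matrix.J (Fin 2) F) (Sum.inl 1) (Sum.inr 0) = 0 := by simp [Matrix.J, Matrix.one_apply]
    rw [hJ]
    simp only [prG_a, prG_b, prG_c, prG_d]
    simp only [Lap, mn]
    ring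
  · have hJ : (Matrix.J (Fin 2) F) (Sum.inl 1) (Sum.inr 1) = -1 := by simp [Matrix.J, Matrix.one_apply]
    rw [hJ]
    simp only [prG_a, prG_b, prG_c, prG_d]
    simp only [Lap, mn] at hdet ⊢
    linear_combination hdet + h2
  · have hJ : (Matrix.J (Fin 2) F) (Sum.inr 0) (Sum.inl 0) = 1 := by simp [Matrix.J, Matrix.one_apply]
    rw [hJ]
    simp only [prG_a, prG_b, prG_c, prG_d]
    simp only [Lap, mn] at hdet ⊢
    linear_combination hdet
  · have hJ : (Matrix.J (Fin 2) F) (Sum.inr 0) (Sum.inl 1) = 0 := by simp [Matrix.J, Matrix.one_apply]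
    rw [hJ]
    simp only [prG_a, prG_b, prG_c, prG_d]
    simp only [Lap, mn]
    ring
  · have hJ : (Matrix.J (Fin 2) F) (Sum.inr 0) (Sum.inr 0) = 0 := by simp [Matrix.J, Matrix.one_apply]
    rw [hJ]
    simp only [prG_a, prG_b, prG_c, prG_d]
    simp only [Lap, mn]
    ring
  · have hJ : (Matrix.J (Fin 2) F) (Sum.inr 0) (Sum.inr 1) = 0 := by simp [Matrix.J, Matrix.one_apply]
    rw [hJ]
    simp only [prG_a, prG_b, prG_c, prG_d]
    simp only [Lap, mn]
    ring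
  · have hJ : (Matrix.J (Fin 2) F) (Sum.inr 1) (Sum.inl 0) = 0 := by simp [Matrix.J, Matrix.one_apply]
    rw [hJ]
    simp only [prG_a, prG_b, prG_c, prG_d]
    simp only [Lap, mn]
    ring
  · have hJ : (Matrix.J (Fin 2) F) (Sum.inr 1) (Sum.inl 1) = 1 := by simp [Matrix.J, Matrix.one_apply]
    rw [hJ]
    simp only [prG_a, prG_b, prG_c, prG_d]
    simp only [Lap, mn] at hdet ⊢
    linear_combination hdet
  · have hJ : (Matrix.J (Fin 2) F) (Sum.inr 1) (Sum.inr 0) = 0 := by simp [Matrix.J, Matrix.one_apply]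
    rw [hJ]
    simp only [prG_a, prG_b, prG_c, prG_d]
    simp only [Lap, mn]
    ring
  · have hJ : (Matrix.J (Fin 2) F) (Sum.inr 1) (Sum.inr 1) = 0 := by simp [Matrix.J, Matrix.one_apply]
    rw [hJ]
    simp only [prG_a, prG_b, prG_c, prG_d]
    simp only [Lap, mn]
    ring

/-- The graph endomorphism of `Sp₄(F)`. -/
noncomputable def grH : SP 2 F →* SP 2 F where
  toFun A := ⟨gmat A.1, gmat_mem A.2⟩
  map_one' := Subtype.ext gmat_one
  map_mul' A B := Subtype.ext (gmat_mul A.2 B.2)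

lemma grH_val (A : SP 2 F) : (grH A).1 = gmat A.1 := rfl

lemma gmat_gmat_T (v : I₄ → F) (c : F) (x y : I₄) :
    gmat (gmat (sympTransvection 2 v c)) x y = (sympTransvection 2 v c x y) ^ 2 := by
  have h2 := two_eq_zero' (F := F)
  set T : M₄ := sympTransvection 2 v c with hT
  set a := v (Sum.inl 0) with ha
  set b := v (Sum.inl 1) with hb
  set d := v (Sum.inr 0) with hd
  set e := v (Sum.inr 1) with he
  have te1e1 : T (Sum.inl 0) (Sum.inl 0) = 1 + c * (a * (-d)) := by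
    rw [hT]
    simp [sympTransvection, Matrix.add_apply, Matrix.smul_apply, vecMulVec_apply, Matrix.one_apply, Matrix.mulVec, dotProduct, Fintype.sum_sum_type, Fin.sum_univ_two, Matrix.J, a, b, d, e]
  have te1e2 : T (Sum.inl 0) (Sum.inl 1) = 0 + c * (a * (-e)) := by
    rw [hT]
    simp [sympTransvection, Matrix.add_apply, Matrix.smul_apply, vecMulVec_apply, Matrix.one_apply, Matrix.mulVec, dotProduct, Fintype.sum_sum_type, Fin.sum_univ_two, Matrix.J, a, b, d, e]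
  have te1f1 : T (Sum.inl 0) (Sum.inr 0) = 0 + c * (a * a) := by
    rw [hT]
    simp [sympTransvection, Matrix.add_apply, Matrix.smul_apply, vecMulVec_apply, Matrix.one_apply, Matrix.mulVec, dotProduct, Fintype.sum_sum_type, Fin.sum_univ_two, Matrix.J, a, b, d, e]
  have te1f2 : T (Sum.inl 0) (Sum.inr 1) = 0 + c * (a * b) := by
    rw [hT]
    simp [sympTransvection, Matrix.add_apply, Matrix.smul_apply, vecMulVec_apply, Matrix.one_apply, Matrix.mulVec, dotProduct, Fintype.sum_sum_type, Fin.sum_univ_two, Matrix.J, a, b, d, e]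
  have te2e1 : T (Sum.inl 1) (Sum.inl 0) = 0 + c * (b * (-d)) := by
    rw [hT]
    simp [sympTransvection, Matrix.add_apply, Matrix.smul_apply, vecMulVec_apply, Matrix.one_apply, Matrix.mulVec, dotProduct, Fintype.sum_sum_type, Fin.sum_univ_two, Matrix.J, a, b, d, e]
  have te2e2 : T (Sum.inl 1) (Sum.inl 1) = 1 + c * (b * (-e)) := by
    rw [hT]
    simp [sympTransvection, Matrix.add_apply, Matrix.smul_apply, vecMulVec_apply, Matrix.one_apply, Matrix.mulVec, dotProduct, Fintype.sum_sum_type, Fin.sum_univ_two, Matrix.J, a, b, d, e]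
  have te2f1 : T (Sum.inl 1) (Sum.inr 0) = 0 + c * (b * a) := by
    rw [hT]
    simp [sympTransvection, Matrix.add_apply, Matrix.smul_apply, vecMulVec_apply, Matrix.one_apply, Matrix.mulVec, dotProduct, Fintype.sum_sum_type, Fin.sum_univ_two, Matrix.J, a, b, d, e]
  have te2f2 : T (Sum.inl 1) (Sum.inr 1) = 0 + c * (b * b) := by
    rw [hT]
    simp [sympTransvection, Matrix.add_apply, Matrix.smul_apply, vecMulVec_apply, Matrix.one_apply, Matrix.mulVec, dotProduct, Fintype.sum_sum_type, Fin.sum_univ_two, Matrix.J, a, b, d, e]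
  have tf1e1 : T (Sum.inr 0) (Sum.inl 0) = 0 + c * (d * (-d)) := by
    rw [hT]
    simp [sympTransvection, Matrix.add_apply, Matrix.smul_apply, vecMulVec_apply, Matrix.one_apply, Matrix.mulVec, dotProduct, Fintype.sum_sum_type, Fin.sum_univ_two, Matrix.J, a, b, d, e]
  have tf1e2 : T (Sum.inr 0) (Sum.inl 1) = 0 + c * (d * (-e)) := by
    rw [hT]
    simp [sympTransvection, Matrix.add_apply, Matrix.smul_apply, vecMulVec_apply, Matrix.one_apply, Matrix.mulVec, dotProduct, Fintype.sum_sum_type, Fin.sum_univ_two, Matrix.J, a, b, d, e]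
  have tf1f1 : T (Sum.inr 0) (Sum.inr 0) = 1 + c * (d * a) := by
    rw [hT]
    simp [sympTransvection, Matrix.add_apply, Matrix.smul_apply, vecMulVec_apply, Matrix.one_apply, Matrix.mulVec, dotProduct, Fintype.sum_sum_type, Fin.sum_univ_two, Matrix.J, a, b, d, e]
  have tf1f2 : T (Sum.inr 0) (Sum.inr 1) = 0 + c * (d * b) := by
    rw [hT]
    simp [sympTransvection, Matrix.add_apply, Matrix.smul_apply, vecMulVec_apply, Matrix.one_apply, Matrix.mulVec, dotProduct, Fintype.sum_sum_type, Fin.sum_univ_two, Matrix.J, a, b, d, e]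
  have tf2e1 : T (Sum.inr 1) (Sum.inl 0) = 0 + c * (e * (-d)) := by
    rw [hT]
    simp [sympTransvection, Matrix.add_apply, Matrix.smul_apply, vecMulVec_apply, Matrix.one_apply, Matrix.mulVec, dotProduct, Fintype.sum_sum_type, Fin.sum_univ_two, Matrix.J, a, b, d, e]
  have tf2e2 : T (Sum.inr 1) (Sum.inl 1) = 0 + c * (e * (-e)) := by
    rw [hT]
    simp [sympTransvection, Matrix.add_apply, Matrix.smul_apply, vecMulVec_apply, Matrix.one_apply, Matrix.mulVec, dotProduct, Fintype.sum_sum_type, Fin.sum_univ_two, Matrix.J, a, b, d, e]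
  have tf2f1 : T (Sum.inr 1) (Sum.inr 0) = 0 + c * (e * a) := by
    rw [hT]
    simp [sympTransvection, Matrix.add_apply, Matrix.smul_apply, vecMulVec_apply, Matrix.one_apply, Matrix.mulVec, dotProduct, Fintype.sum_sum_type, Fin.sum_univ_two, Matrix.J, a, b, d, e]
  have tf2f2 : T (Sum.inr 1) (Sum.inr 1) = 1 + c * (e * b) := by
    rw [hT]
    simp [sympTransvection, Matrix.add_apply, Matrix.smul_apply, vecMulVec_apply, Matrix.one_apply, Matrix.mulVec, dotProduct, Fintype.sum_sum_type, Fin.sum_univ_two, Matrix.J, a, b, d, e]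
  revert x y
  refine I4_all (fun y => ?_) (fun y => ?_) (fun y => ?_) (fun y => ?_)
  all_goals revert y
  all_goals refine I4_all ?_ ?_ ?_ ?_
  · simp only [gmat_apply, prG_a, prG_b, prG_c, prG_d, mn, Matrix.of_apply]
    simp only [gmat_apply, prG_a, prG_b, prG_c, prG_d, mn, te1e1, te1e2, te1f1, te1f2, te2e1, te2e2, te2f1, te2f2, tf1e1, tf1e2, tf1f1, tf1f2, tf2e1, tf2e2, tf2f1, tf2f2]
    linear_combination (0) * h2
  · simp only [gmat_apply, prG_a, prG_b, prG_c, prG_d, mn, Matrix.of_apply]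
    simp only [gmat_apply, prG_a, prG_b, prG_c, prG_d, mn, te1e1, te1e2, te1f1, te1f2, te2e1, te2e2, te2f1, te2f2, tf1e1, tf1e2, tf1f1, tf1f2, tf2e1, tf2e2, tf2f1, tf2f2]
    linear_combination ((-1)*c^2*a^2*e^2) * h2
  · simp only [gmat_apply, prG_a, prG_b, prG_c, prG_d, mn, Matrix.of_apply]
    simp only [gmat_apply, prG_a, prG_b, prG_c, prG_d, mn, te1e1, te1e2, te1f1, te1f2, te2e1, te2e2, te2f1, te2f2, tf1e1, tf1e2, tf1f1, tf1f2, tf2e1, tf2e2, tf2f1, tf2f2]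
    linear_combination (0) * h2
  · simp only [gmat_apply, prG_a, prG_b, prG_c, prG_d, mn, Matrix.of_apply]
    simp only [gmat_apply, prG_a, prG_b, prG_c, prG_d, mn, te1e1, te1e2, te1f1, te1f2, te2e1, te2e2, te2f1, te2f2, tf1e1, tf1e2, tf1f1, tf1f2, tf2e1, tf2e2, tf2f1, tf2f2]
    linear_combination (0) * h2
  · simp only [gmat_apply, prG_a, prG_b, prG_c, prG_d, mn, Matrix.of_apply]
    simp only [gmat_apply, prG_a, prG_b, prG_c, prG_d, mn, te1e1, te1e2, te1f1, te1f2, te2e1, te2e2, te2f1, te2f2, tf1e1, tf1e2, tf1f1, tf1f2, tf2e1, tf2e2, tf2f1, tf2f2]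
    linear_combination ((-1)*c^2*b^2*d^2) * h2
  · simp only [gmat_apply, prG_a, prG_b, prG_c, prG_d, mn, Matrix.of_apply]
    simp only [gmat_apply, prG_a, prG_b, prG_c, prG_d, mn, te1e1, te1e2, te1f1, te1f2, te2e1, te2e2, te2f1, te2f2, tf1e1, tf1e2, tf1f1, tf1f2, tf2e1, tf2e2, tf2f1, tf2f2]
    linear_combination (0) * h2
  · simp only [gmat_apply, prG_a, prG_b, prG_c, prG_d, mn, Matrix.of_apply]
    simp only [gmat_apply, prG_a, prG_b, prG_c, prG_d, mn, te1e1, te1e2, te1f1, te1f2, te2e1, te2e2, te2f1, te2f2, tf1e1, tf1e2, tf1f1, tf1f2, tf2e1, tf2e2, tf2f1, tf2f2]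
    linear_combination ((-1)*c^2*a^2*b^2) * h2
  · simp only [gmat_apply, prG_a, prG_b, prG_c, prG_d, mn, Matrix.of_apply]
    simp only [gmat_apply, prG_a, prG_b, prG_c, prG_d, mn, te1e1, te1e2, te1f1, te1f2, te2e1, te2e2, te2f1, te2f2, tf1e1, tf1e2, tf1f1, tf1f2, tf2e1, tf2e2, tf2f1, tf2f2]
    linear_combination ((-1)*c^2*b^4) * h2
  · simp only [gmat_apply, prG_a, prG_b, prG_c, prG_d, mn, Matrix.of_apply]
    simp only [gmat_apply, prG_a, prG_b, prG_c, prG_d, mn, te1e1, te1e2, te1f1, te1f2, te2e1, te2e2, te2f1, te2f2, tf1e1, tf1e2, tf1f1, tf1f2, tf2e1, tf2e2, tf2f1, tf2f2]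
    linear_combination (0) * h2
  · simp only [gmat_apply, prG_a, prG_b, prG_c, prG_d, mn, Matrix.of_apply]
    simp only [gmat_apply, prG_a, prG_b, prG_c, prG_d, mn, te1e1, te1e2, te1f1, te1f2, te2e1, te2e2, te2f1, te2f2, tf1e1, tf1e2, tf1f1, tf1f2, tf2e1, tf2e2, tf2f1, tf2f2]
    linear_combination ((-1)*c^2*d^2*e^2) * h2
  · simp only [gmat_apply, prG_a, prG_b, prG_c, prG_d, mn, Matrix.of_apply]
    simp only [gmat_apply, prG_a, prG_b, prG_c, prG_d, mn, te1e1, te1e2, te1f1, te1f2, te2e1, te2e2, te2f1, te2f2, tf1e1, tf1e2, tf1f1, tf1f2, tf2e1, tf2e2, tf2f1, tf2f2]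
    linear_combination (0) * h2
  · simp only [gmat_apply, prG_a, prG_b, prG_c, prG_d, mn, Matrix.of_apply]
    simp only [gmat_apply, prG_a, prG_b, prG_c, prG_d, mn, te1e1, te1e2, te1f1, te1f2, te2e1, te2e2, te2f1, te2f2, tf1e1, tf1e2, tf1f1, tf1f2, tf2e1, tf2e2, tf2f1, tf2f2]
    linear_combination (0) * h2
  · simp only [gmat_apply, prG_a, prG_b, prG_c, prG_d, mn, Matrix.of_apply]
    simp only [gmat_apply, prG_a, prG_b, prG_c, prG_d, mn, te1e1, te1e2, te1f1, te1f2, te2e1, te2e2, te2f1, te2f2, tf1e1, tf1e2, tf1f1, tf1f2, tf2e1, tf2e2, tf2f1, tf2f2]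
    linear_combination (0) * h2
  · simp only [gmat_apply, prG_a, prG_b, prG_c, prG_d, mn, Matrix.of_apply]
    simp only [gmat_apply, prG_a, prG_b, prG_c, prG_d, mn, te1e1, te1e2, te1f1, te1f2, te2e1, te2e2, te2f1, te2f2, tf1e1, tf1e2, tf1f1, tf1f2, tf2e1, tf2e2, tf2f1, tf2f2]
    linear_combination ((-1)*c^2*e^4) * h2
  · simp only [gmat_apply, prG_a, prG_b, prG_c, prG_d, mn, Matrix.of_apply]
    simp only [gmat_apply, prG_a, prG_b, prG_c, prG_d, mn, te1e1, te1e2, te1f1, te1f2, te2e1, te2e2, te2f1, te2f2, tf1e1, tf1e2, tf1f1, tf1f2, tf2e1, tf2e2, tf2f1, tf2f2]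
    linear_combination (0) * h2
  · simp only [gmat_apply, prG_a, prG_b, prG_c, prG_d, mn, Matrix.of_apply]
    simp only [gmat_apply, prG_a, prG_b, prG_c, prG_d, mn, te1e1, te1e2, te1f1, te1f2, te2e1, te2e2, te2f1, te2f2, tf1e1, tf1e2, tf1f1, tf1f2, tf2e1, tf2e2, tf2f1, tf2f2]
    linear_combination (0) * h2

variable [Finite F]

/-- The squaring automorphism. -/
noncomputable def fr2 : RingAut F := frobeniusEquiv F 2

lemma fr2_apply (x : F) : (fr2 : RingAut F) x = x ^ 2 := frobeniusEquiv_apply F 2 x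

lemma grH_grH (s : SP 2 F) : grH (grH s) = fldH fr2 s := by
  have hs : s ∈ spTG 2 F := by
    rw [sp_TG_eq_top]
    trivial
  induction hs using Subgroup.closure_induction with
  | mem x hx =>
    obtain ⟨w, c, h⟩ := hx
    apply Subtype.ext
    rw [grH_val, grH_val, fldH_val, h]
    ext a b
    rw [gmat_gmat_T]
    simp [Matrix.map_apply, fr2_apply]
  | one => simp
  | mul x y _ _ hx hy => rw [map_mul, map_mul, map_mul, hx, hy]
  | inv x _ hx => rw [map_inv, map_inv, map_inv, hx]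

lemma grH_bij : Function.Bijective (grH : SP 2 F →* SP 2 F) := by
  have hb : Function.Bijective (fun s : SP 2 F => grH (grH s)) := by
    have e : (fun s : SP 2 F => grH (grH s)) = (fldE fr2 : SP 2 F ≃* SP 2 F) := by
      funext s
      exact grH_grH s
    rw [e]
    exact (fldE fr2).bijective
  constructor
  · intro x y h
    exact hb.1 (by simp only [h])
  · intro y
    obtain ⟨x, hx⟩ := hb.2 y
    exact ⟨grH x, hx⟩

/-- The graph automorphism of `Sp₄(F)`. -/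
noncomputable def grE : SP 2 F ≃* SP 2 F := MulEquiv.ofBijective grH grH_bij

/-- The graph automorphism of `PSp₄(F)`. -/
noncomputable def gA : MulAut (PSp 2 F) := descS grE

lemma gA_Pr (s : SP 2 F) : gA (Pr s) = Pr (grH s) := rfl

lemma gA_sq : (gA * gA : MulAut (PSp 2 F)) = fS fr2 := by
  ext y
  obtain ⟨s, rfl⟩ := Pr_surj y
  change gA (gA (Pr s)) = fS fr2 (Pr s)
  rw [gA_Pr, gA_Pr, grH_grH, fS_Pr]

omit [CharP F 2] [Finite F] in
lemma EE_symp : sympForm 2 F (EE 0) (EE 1) = 0 := isL_symp (fun j => EE_inr _ j) (fun j => EE_inr _ j)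

omit [Finite F] in
lemma entry_S (b : F) (x y : I₄) : (spS (EE (0 : Fin 2)) (EE 1) b).1 x y =
    (Pi.single y 1 : I₄ → F) x + b * sympForm 2 F (Pi.single y 1) (EE 1) * (EE (0 : Fin 2) : I₄ → F) x +
      b * sympForm 2 F (Pi.single y 1) (EE 0) * (EE (1 : Fin 2) : I₄ → F) x := by
  have h := congrFun (spS_mulVec (EE (0 : Fin 2)) (EE 1) EE_symp b (Pi.single y 1)) x
  rw [Matrix.mulVec_single_one] at h
  simpa using h

omit [Finite F] in
lemma entry_T (b : F) (x y : I₄) : (spT (EE (0 : Fin 2) : I₄ → F) b).1 x y =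
    (Pi.single y 1 : I₄ → F) x + b * sympForm 2 F (Pi.single y 1) (EE 0) * (EE (0 : Fin 2) : I₄ → F) x := by
  have h := congrFun (spT_mulVec (EE (0 : Fin 2)) b (Pi.single y 1)) x
  rw [Matrix.mulVec_single_one] at h
  simpa using h

omit [Finite F] in
theorem grH_S (b : F) : grH (spS (EE (0 : Fin 2)) (EE 1) b) = spT (EE (0 : Fin 2) : I₄ → F) (b * b) := by
  have h2 := two_eq_zero' (F := F)
  apply Subtype.ext
  rw [grH_val]
  ext x y
  rw [gmat_apply]
  simp only [mn, entry_S, entry_T, symp_E_right]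
  revert x y
  refine I4_all (fun y => ?_) (fun y => ?_) (fun y => ?_) (fun y => ?_)
  all_goals revert y
  all_goals refine I4_all ?_ ?_ ?_ ?_
  all_goals simp [prG_a, prG_b, prG_c, prG_d, Pi.single_apply]
  all_goals try linear_combination (b) * h2
  all_goals exact neg_eq_self' _

omit [Finite F] in
theorem grH_T (b : F) : grH (spT (EE (0 : Fin 2) : I₄ → F) b) = spS (EE (0 : Fin 2)) (EE 1) b := by
  have h2 := two_eq_zero' (F := F)
  apply Subtype.ext
  rw [grH_val]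
  ext x y
  rw [gmat_apply]
  simp only [mn, entry_S, entry_T, symp_E_right]
  revert x y
  refine I4_all (fun y => ?_) (fun y => ?_) (fun y => ?_) (fun y => ?_)
  all_goals revert y
  all_goals refine I4_all ?_ ?_ ?_ ?_
  all_goals simp [prG_a, prG_b, prG_c, prG_d, Pi.single_apply]
  all_goals try linear_combination (b) * h2
  all_goals exact neg_eq_self' _

/-- A Weyl element of order four. -/
def pw4 : I₄ → I₄
  | Sum.inl ⟨0, _⟩ => Sum.inr 1
  | Sum.inl ⟨1, _⟩ => Sum.inl 0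
  | Sum.inr ⟨0, _⟩ => Sum.inl 1
  | Sum.inr ⟨1, _⟩ => Sum.inr 0

lemma pw_a : pw4 (Sum.inl 0) = Sum.inr 1 := rfl
lemma pw_b : pw4 (Sum.inl 1) = Sum.inl 0 := rfl
lemma pw_c : pw4 (Sum.inr 0) = Sum.inl 1 := rfl
lemma pw_d : pw4 (Sum.inr 1) = Sum.inr 0 := rfl

/-- Its matrix. -/
def gw : M₄ := Matrix.of fun x y => if x = pw4 y then 1 else 0

omit [CharP F 2] [Finite F] in
lemma gw_single (y : I₄) : gw *ᵥ (Pi.single y 1 : I₄ → F) = Pi.single (pw4 y) 1 := by
  rw [Matrix.mulVec_single_one]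
  ext x
  simp [gw, Pi.single_apply]

omit [Finite F] in
lemma gw_mem : (gw : M₄) ∈ symplecticGroup (Fin 2) F := by
  have h2 := two_eq_zero' (F := F)
  rw [SymplecticGroup.mem_iff]
  ext x y
  have e : ((gw : M₄) * Matrix.J (Fin 2) F * (gw : M₄)ᵀ) x y =
      -(mn gw x y (Sum.inl 0) (Sum.inr 0)) - mn gw x y (Sum.inl 1) (Sum.inr 1) := by
    simp [Matrix.mul_apply, Fintype.sum_sum_type, Fin.sum_univ_two, Matrix.J, Matrix.one_apply, mn]
    ring
  rw [e]
  clear e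
  revert x y
  refine I4_all (fun y => ?_) (fun y => ?_) (fun y => ?_) (fun y => ?_)
  all_goals revert y
  all_goals refine I4_all ?_ ?_ ?_ ?_
  all_goals simp [mn, gw, pw_a, pw_b, pw_c, pw_d, Matrix.J, Matrix.one_apply]
  all_goals first | linear_combination h2 | linear_combination -h2

/-- Centre elements with both components nonzero lack the property. -/
theorem not_hasPi₂ {a b : F} (ha : a ≠ 0) (hb : b ≠ 0) :
    ¬ HasPi (Pr (spT (EE (0 : Fin 2) : I₄ → F) a * spS (EE (0 : Fin 2)) (EE 1) b)) := by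
  intro hP
  have e2 := two_eq_zero' (F := F)
  set w : I₄ → F := EE (0 : Fin 2) with hw
  set s : I₄ → F := EE (1 : Fin 2) with hs
  set r : I₄ → F := FF (1 : Fin 2) with hr
  have hws : sympForm 2 F w s = 0 := EE_symp
  have hsw : sympForm 2 F s w = 0 := by rw [symp_skew, hws, neg_zero]
  have hwr : sympForm 2 F w r = 0 := by
    rw [hw, hr, symp_F_right]
    simp
  have hrw : sympForm 2 F r w = 0 := by rw [symp_skew, hwr, neg_zero]
  have hrs : sympForm 2 F r s = 1 := by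
    rw [hs, hr, symp_E_right]
    simp
  have hsr : sympForm 2 F s r = 1 := by rw [symp_skew, hrs, neg_eq_self']
  have hww : sympForm 2 F w w = 0 := symp_self w
  have hss : sympForm 2 F s s = 0 := symp_self s
  have hrr : sympForm 2 F r r = 0 := symp_self r
  let g₀ : SP 2 F := ⟨gw, gw_mem⟩
  have hg0 : (g₀ : M₄) *ᵥ w = r := gw_single _
  have hg1 : (g₀ : M₄) *ᵥ s = w := gw_single _
  set z := spT w a * spS w s b with hz
  set z₂ := spT r a * spS r w b with hz₂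
  have hx : g₀ * z * g₀⁻¹ = z₂ := by
    have e : g₀ * z * g₀⁻¹ = (g₀ * spT w a * g₀⁻¹) * (g₀ * spS w s b * g₀⁻¹) := by
      rw [hz]; group
    rw [e, sp_conj_T, sp_conj_S', hg0, hg1]
  have hzact : ∀ y, (z : M₄) *ᵥ y = y + (b * sympForm 2 F y s + a * sympForm 2 F y w) • w + (b * sympForm 2 F y w) • s :=
    fun y => zact hws a b y
  have hz₂act : ∀ y, (z₂ : M₄) *ᵥ y = y + (b * sympForm 2 F y w + a * sympForm 2 F y r) • r + (b * sympForm 2 F y r) • w :=
    fun y => zact hrw a b y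
  have ht : ∀ y, ((z * z₂ : SP 2 F) : M₄) *ᵥ y =
      y + (b * sympForm 2 F y w + a * sympForm 2 F y r) • r + (b * sympForm 2 F y r) • w +
        (b * (sympForm 2 F y s + (b * sympForm 2 F y w + a * sympForm 2 F y r)) + a * sympForm 2 F y w) • w +
        (b * sympForm 2 F y w) • s := by
    intro y
    rw [sp_mul_mulVec, hz₂act, hzact]
    simp only [symp_add_left, symp_smul_left, hww, hss, hrr, hws, hsw, hwr, hrw, hrs, hsr,
      mul_zero, add_zero, zero_add, mul_one]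
  set R := spT w (a * b * b) * spS w r (a * b) with hR
  have hRact : ∀ y, (R : M₄) *ᵥ y = y + (a * b * sympForm 2 F y r + a * b * b * sympForm 2 F y w) • w + (a * b * sympForm 2 F y w) • r :=
    fun y => zact hwr _ _ y
  have hsq : (z * z₂) * (z * z₂) = R := by
    apply sp_ext
    intro y
    rw [sp_mul_mulVec, ht, ht, hRact]
    simp only [symp_add_left, symp_smul_left, hww, hss, hrr, hws, hsw, hwr, hrw, hrs, hsr,
      mul_zero, add_zero, zero_add, mul_one]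
    funext k
    simp only [Pi.add_apply, Pi.smul_apply, smul_eq_mul]
    generalize sympForm 2 F y w = al
    generalize sympForm 2 F y s = be
    generalize sympForm 2 F y r = ga
    generalize w k = W
    generalize s k = S
    generalize r k = R'
    linear_combination ((1)*b^1*ga^1*W^1 + (1)*b^1*be^1*W^1 + (2)*b^2*al^1*W^1 + (1)*a^1*b^1*ga^1*W^1 + (1)*a^1*al^1*W^1 + (1)*b^1*al^1*S^1 + (1)*b^1*al^1*R'^1 + (1)*a^1*ga^1*R'^1) * e2
  have hRR : R * R = 1 := by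
    apply sp_ext
    intro y
    rw [sp_mul_mulVec, hRact, hRact]
    simp only [symp_add_left, symp_smul_left, hww, hss, hrr, hws, hsw, hwr, hrw, hrs, hsr,
      mul_zero, add_zero, zero_add, mul_one]
    change _ = (1 : M₄) *ᵥ y
    rw [one_mulVec]
    funext k
    simp only [Pi.add_apply, Pi.smul_apply, smul_eq_mul]
    linear_combination ((a * b * sympForm 2 F y r + a * b * b * sympForm 2 F y w) * w k + (a * b * sympForm 2 F y w) * r k) * e2
  have h4 : (z * z₂) ^ 4 = 1 := by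
    have e : (z * z₂) ^ 4 = ((z * z₂) * (z * z₂)) * ((z * z₂) * (z * z₂)) := by
      simp only [pow_succ, pow_zero, one_mul, mul_assoc]
    rw [e, hsq, hRR]
  have eP : Pr z * (Pr g₀ * Pr z * (Pr g₀)⁻¹) = Pr (z * z₂) := by
    rw [← hx]
    simp only [map_mul, map_inv]
  have h5 := hP (Pr g₀) (by
    rw [eP, ← map_pow, h4, map_one])
  rw [eP, ← map_pow] at h5
  have h6 : (z * z₂) ^ 2 = 1 := by
    apply Pr_inj
    rw [h5, map_one]
  rw [pow_two, hsq] at h6
  have h7 : (R : M₄) *ᵥ FF (0 : Fin 2) = ((1 : SP 2 F) : M₄) *ᵥ FF (0 : Fin 2) := by rw [h6]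
  rw [hRact] at h7
  change _ = (1 : M₄) *ᵥ _ at h7
  rw [one_mulVec] at h7
  have h8 := congrFun h7 (Sum.inr 1)
  simp [hw, hr, symp_E_right, symp_F_right, ha, hb] at h8

omit [Finite F] in
lemma S_T_comm (a b : F) : spS (EE (0 : Fin 2)) (EE 1) b * spT (EE (0 : Fin 2) : I₄ → F) a =
    spT (EE (0 : Fin 2) : I₄ → F) a * spS (EE (0 : Fin 2)) (EE 1) b := by
  have hws : sympForm 2 F (EE (0 : Fin 2)) (EE (1 : Fin 2)) = 0 := EE_symp
  have hsw : sympForm 2 F (EE (1 : Fin 2)) (EE (0 : Fin 2)) = 0 := by rw [symp_skew, hws, neg_zero]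
  apply sp_ext
  intro y
  rw [sp_mul_mulVec, sp_mul_mulVec, spT_mulVec, spS_mulVec _ _ EE_symp, spS_mulVec _ _ EE_symp, spT_mulVec]
  simp only [symp_add_left, symp_smul_left, symp_self, hws, hsw, mul_zero, add_zero, zero_add]
  funext k
  simp only [Pi.add_apply, Pi.smul_apply, smul_eq_mul]
  ring

/-- For a given root group, the image is conjugate to a long or a short root group. -/
theorem perV (ψ : PSp 2 F ≃* PSp 2 F) (v : I₄ → F) (hv : v ≠ 0) :
    ∃ h : SP 2 F, (∀ t, ∃ a, (Pr h)⁻¹ * ψ (TT v t) * Pr h = Pr (spT (EE (0 : Fin 2) : I₄ → F) a)) ∨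
      (∀ t, ∃ b, (Pr h)⁻¹ * ψ (TT v t) * Pr h = Pr (spS (EE (0 : Fin 2)) (EE 1) b)) := by
  classical
  haveI : Fact (Nat.Prime 2) := ⟨Nat.prime_two⟩
  haveI := Fintype.ofFinite F
  obtain ⟨h, hh⟩ := exists_conj_centralizer (p := 2) ψ v hv
  refine ⟨h, ?_⟩
  have h01 : (0 : Fin 2) < 1 := by decide
  have hj : ∀ j : Fin 2, j ≠ 0 → j ≠ 1 → (1 : Fin 2) < j := by decide
  have hform : ∀ t, ∃ a b : F, (Pr h)⁻¹ * ψ (TT v t) * Pr h = Pr (spT (EE (0 : Fin 2) : I₄ → F) a * spS (EE (0 : Fin 2)) (EE 1) b) := by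
    intro t
    obtain ⟨z, hz⟩ := Pr_surj ((Pr h)⁻¹ * ψ (TT v t) * Pr h)
    obtain ⟨a, b, -, hzf⟩ := central_form (p := 2) h01 hj z (by
      intro u hu
      rw [hz]
      exact hh t u hu)
    exact ⟨a, b, by rw [← hz, hzf]⟩
  choose a b hab using hform
  have hpi : ∀ t, HasPi ((Pr h)⁻¹ * ψ (TT v t) * Pr h) := by
    intro t
    let α : PSp 2 F ≃* PSp 2 F := ψ.trans (MulAut.conj (Pr h)⁻¹)
    have hα : α (TT v t) = (Pr h)⁻¹ * ψ (TT v t) * Pr h := by
      change (Pr h)⁻¹ * ψ (TT v t) * ((Pr h)⁻¹)⁻¹ = _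
      rw [inv_inv]
    rw [← hα]
    exact (hasPi_TT v t).map α
  have hprod : ∀ t, a t = 0 ∨ b t = 0 := by
    intro t
    by_contra hc
    push Not at hc
    have := hpi t
    rw [hab t] at this
    exact not_hasPi₂ hc.1 hc.2 this
  have hS0 : ∀ c : F, spS (EE (0 : Fin 2)) (EE (1 : Fin 2)) (0 : F) = (1 : SP 2 F) ∨ True := fun _ => Or.inr trivial
  have hSz : spS (EE (0 : Fin 2)) (EE (1 : Fin 2)) (0 : F) = (1 : SP 2 F) := spS_zero' EE_symp
  by_contra hc
  push Not at hc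
  obtain ⟨⟨t, ht⟩, ⟨s, hs⟩⟩ := hc
  have hbt : b t ≠ 0 := by
    intro h0
    apply ht (a t)
    rw [hab t, h0, hSz, mul_one]
  have has : a s ≠ 0 := by
    intro h0
    apply hs (b s)
    rw [hab s, h0, spT_zero, one_mul]
  have hat : a t = 0 := (hprod t).resolve_right hbt
  have hbs : b s = 0 := (hprod s).resolve_left has
  have hadd : (Pr h)⁻¹ * ψ (TT v (t + s)) * Pr h = ((Pr h)⁻¹ * ψ (TT v t) * Pr h) * ((Pr h)⁻¹ * ψ (TT v s) * Pr h) := by
    rw [← TT_add, map_mul]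
    group
  have h1 := hpi (t + s)
  rw [hadd, hab t, hab s, hat, hbs, hSz, spT_zero, one_mul, mul_one, ← map_mul, S_T_comm] at h1
  exact not_hasPi₂ has hbt h1

/-- The dichotomy for automorphisms of `PSp₄(F)` in characteristic two. -/
theorem dich (ψ : PSp 2 F ≃* PSp 2 F) : KeyA ψ ∨ KeyA (ψ.trans gA) := by
  classical
  by_cases H : ∃ v₀ : I₄ → F, v₀ ≠ 0 ∧ ∃ h : SP 2 F, ∀ t, ∃ a, (Pr h)⁻¹ * ψ (TT v₀ t) * Pr h = Pr (spT (EE (0 : Fin 2) : I₄ → F) a)
  · left
    obtain ⟨v₀, hv₀, h, hh⟩ := H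
    intro v hv
    obtain ⟨g, _, hg⟩ := sp_trans_vec (⊤ : Submodule F (I₄ → F)) sp_nondeg_top v₀ v trivial trivial hv₀ hv
    obtain ⟨g', hg'⟩ := Pr_surj (ψ (Pr g))
    refine ⟨(g' : M₄) *ᵥ ((h : M₄) *ᵥ EE (0 : Fin 2)), sp_ne g' (sp_ne h (EE_ne _)), fun t => ?_⟩
    obtain ⟨a, ha⟩ := hh t
    refine ⟨a, ?_⟩
    rw [← TT_conj, ← TT_conj, ← hg]
    rw [← TT_conj, map_mul, map_mul, map_inv, ← hg']
    have e : ψ (TT v₀ t) = Pr h * TT (EE (0 : Fin 2)) a * (Pr h)⁻¹ := by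
      change _ = Pr h * Pr (spT (EE (0 : Fin 2) : I₄ → F) a) * (Pr h)⁻¹
      rw [← ha]
      group
    rw [e]
  · right
    intro v hv
    obtain ⟨h, hh⟩ := perV ψ v hv
    have hS : ∀ t, ∃ b, (Pr h)⁻¹ * ψ (TT v t) * Pr h = Pr (spS (EE (0 : Fin 2)) (EE 1) b) := by
      rcases hh with hh | hh
      · exact absurd ⟨v, hv, h, hh⟩ H
      · exact hh
    refine ⟨(grH h : M₄) *ᵥ EE (0 : Fin 2), sp_ne _ (EE_ne _), fun t => ?_⟩
    obtain ⟨b, hb⟩ := hS t
    refine ⟨b * b, ?_⟩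
    have e : ψ (TT v t) = Pr h * Pr (spS (EE (0 : Fin 2)) (EE 1) b) * (Pr h)⁻¹ := by
      rw [← hb]
      group
    change gA (ψ (TT v t)) = _
    rw [e, map_mul, map_mul, map_inv, gA_Pr, gA_Pr, grH_S, ← TT_conj]
    rfl

end Two

end CfsgLib.PSA
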