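/-
The order of the automorphism group of `PSp_{2m}(F)`.
-/
import Cfsg.Agent.Lib.PSpAut.Graph
import Cfsg.Agent.Lib.PSLAut.Final

set_option autoImplicit false
set_option linter.unusedSimpArgs false
set_option linter.unusedVariables false
set_option maxHeartbeats 1000000

namespace CfsgLib.PSA

open Matrix Cfsg CfsgLib.ClassGeo

variable {F : Type*} [Field F] {m : ℕ}

local notation "MM" => Matrix (Fin m ⊕ Fin m) (Fin m ⊕ Fin m) F

/-- An inner-diagonal automorphism is a field automorphism only for the trivial field automorphism. -/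
theorem field_part {p : ℕ} [Fact p.Prime] [CharP F p] [NeZero m] {g : GS m F} {σ : RingAut F}
    (h : (cS g : MulAut (PSp m F)) = fS σ) : σ = 1 := by
  classical
  have key : ∀ v : Fin m ⊕ Fin m → F, v ≠ 0 → (fun k => σ (v k)) ∈ Submodule.span F {g.1.1 *ᵥ v} := by
    intro v hv
    have h1 : TT (fun k => σ (v k)) (σ 1) = TT (g.1.1 *ᵥ v) (((Mu g : Fˣ) : F)⁻¹ * 1) := by
      rw [← fS_TT, ← cS_TT, h]
    have hv' : (fun k => σ (v k)) ≠ 0 := by
      intro h0
      apply hv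
      funext k
      have := congrFun h0 k
      simpa using this
    exact TT_eq_imp p hv' (by simp) h1
  set i : Fin m ⊕ Fin m := Sum.inl 0 with hi
  set j : Fin m ⊕ Fin m := Sum.inr 0 with hj
  have hij : i ≠ j := by simp [hi, hj]
  have hsing : ∀ a : Fin m ⊕ Fin m, (fun k => σ ((Pi.single a 1 : Fin m ⊕ Fin m → F) k)) = (Pi.single a 1 : Fin m ⊕ Fin m → F) := by
    intro a
    funext k
    by_cases hk : k = a
    · subst hk
      simp
    · simp [Pi.single_apply, hk]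
  have hd : ∀ a : Fin m ⊕ Fin m, ∃ d : F, d ≠ 0 ∧ g.1.1 *ᵥ (Pi.single a 1 : Fin m ⊕ Fin m → F) = d • (Pi.single a 1 : Fin m ⊕ Fin m → F) := by
    intro a
    have hne : (Pi.single a 1 : Fin m ⊕ Fin m → F) ≠ 0 := by
      intro h0
      have := congrFun h0 a
      simp at this
    have h1 := key _ hne
    rw [hsing] at h1
    obtain ⟨c, hc⟩ := Submodule.mem_span_singleton.mp h1
    have hc0 : c ≠ 0 := by
      rintro rfl
      rw [zero_smul] at hc
      exact hne hc.symm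
    refine ⟨c⁻¹, inv_ne_zero hc0, ?_⟩
    calc g.1.1 *ᵥ (Pi.single a 1 : Fin m ⊕ Fin m → F)
        = c⁻¹ • (c • g.1.1 *ᵥ (Pi.single a 1 : Fin m ⊕ Fin m → F)) := by rw [smul_smul, inv_mul_cancel₀ hc0, one_smul]
      _ = _ := by rw [hc]
  obtain ⟨d1, hd1, e1⟩ := hd i
  obtain ⟨d2, hd2, e2⟩ := hd j
  have hall : ∀ x : F, ∃ c : F, c * d1 = 1 ∧ σ x = c * (x * d2) := by
    intro x
    have hne : (Pi.single i 1 + x • Pi.single j 1 : Fin m ⊕ Fin m → F) ≠ 0 := by
      intro h0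
      have := congrFun h0 i
      simp [Pi.single_apply, hij] at this
    have h1 := key _ hne
    rw [mulVec_add, mulVec_smul, e1, e2] at h1
    obtain ⟨c, hc⟩ := Submodule.mem_span_singleton.mp h1
    refine ⟨c, ?_, ?_⟩
    · have := congrFun hc i
      simpa [Pi.single_apply, hij] using this
    · have := congrFun hc j
      simp [Pi.single_apply, hij, Ne.symm hij] at this
      rw [← this]
  have hσ1 : ∀ x : F, σ x = x := by
    obtain ⟨c₁, hc₁, hc₁'⟩ := hall 1
    have h12 : c₁ * d2 = 1 := by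
      have : σ (1 : F) = 1 := map_one σ
      rw [this] at hc₁'
      rw [hc₁']
      ring
    intro x
    obtain ⟨c, hc, hc'⟩ := hall x
    have : c = c₁ := by
      have h3 : c * d1 = c₁ * d1 := hc.trans hc₁.symm
      exact mul_right_cancel₀ hd1 h3
    rw [hc', this]
    calc c₁ * (x * d2) = x * (c₁ * d2) := by ring
      _ = x := by rw [h12, mul_one]
  ext x
  exact hσ1 x

/-- The group of automorphisms induced by semilinear similarities. -/
noncomputable def GA (m : ℕ) (F : Type*) [Field F] : Subgroup (MulAut (PSp m F)) where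
  carrier := {β | ∃ (g : GS m F) (σ : RingAut F), β = cS g * fS σ}
  mul_mem' := by
    rintro _ _ ⟨g, σ, rfl⟩ ⟨g', σ', rfl⟩
    refine ⟨g * mapGS (σ : F →+* F) g', σ * σ', ?_⟩
    rw [cS_mul, fS_mul, mul_assoc, ← mul_assoc (fS σ), fS_cS]
    simp only [mul_assoc]
  one_mem' := ⟨1, 1, by rw [cS_one, fS_one, one_mul]⟩
  inv_mem' := by
    rintro _ ⟨g, σ, rfl⟩
    refine ⟨mapGS ((σ⁻¹ : RingAut F) : F →+* F) g⁻¹, σ⁻¹, ?_⟩
    have h1 : (fS σ : MulAut (PSp m F))⁻¹ = fS σ⁻¹ := by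
      rw [inv_eq_iff_mul_eq_one, ← fS_mul, mul_inv_cancel, fS_one]
    rw [_root_.mul_inv_rev, h1, cS_inv, fS_cS]

lemma mem_GA {β : MulAut (PSp m F)} : β ∈ GA m F ↔ ∃ (g : GS m F) (σ : RingAut F), β = cS g * fS σ := Iff.rfl

lemma cardGA_range {p : ℕ} [Fact p.Prime] [CharP F p] [NeZero m] :
    Nat.card (GA m F) = Nat.card (cSHom : GS m F →* MulAut (PSp m F)).range * Nat.card (RingAut F) := by
  classical
  rw [← Nat.card_prod]
  symm
  let Φ : (cSHom : GS m F →* MulAut (PSp m F)).range × RingAut F → GA m F := fun x =>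
    ⟨x.1.1 * fS x.2, by
      obtain ⟨⟨_, g, rfl⟩, σ⟩ := x
      exact ⟨g, σ, rfl⟩⟩
  refine Nat.card_congr (Equiv.ofBijective Φ ⟨?_, ?_⟩)
  · rintro ⟨⟨_, g, rfl⟩, σ⟩ ⟨⟨_, g', rfl⟩, σ'⟩ h
    have h1 : (cSHom g * fS σ : MulAut (PSp m F)) = cSHom g' * fS σ' := congrArg Subtype.val h
    have h2 : (cS (g'⁻¹ * g) : MulAut (PSp m F)) = fS (σ' * σ⁻¹) := by
      change cS g * fS σ = cS g' * fS σ' at h1
      rw [cS_mul, ← cS_inv, fS_mul]
      have h3 : (fS σ : MulAut (PSp m F)) * fS σ⁻¹ = 1 := by rw [← fS_mul, mul_inv_cancel, fS_one]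
      calc (cS g')⁻¹ * cS g = (cS g')⁻¹ * (cS g * (fS σ * fS σ⁻¹)) := by rw [h3, mul_one]
        _ = (cS g')⁻¹ * (cS g * fS σ) * fS σ⁻¹ := by simp only [mul_assoc]
        _ = (cS g')⁻¹ * (cS g' * fS σ') * fS σ⁻¹ := by rw [h1]
        _ = fS σ' * fS σ⁻¹ := by simp only [inv_mul_cancel_left]
    have h4 := field_part (p := p) h2
    have h5 : σ' = σ := by
      rw [mul_inv_eq_one] at h4
      exact h4
    have h6 : cSHom g = cSHom g' := by
      rw [h5] at h1
      exact mul_right_cancel h1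
    rw [h5]
    congr 2
  · rintro ⟨_, g, σ, rfl⟩
    exact ⟨(⟨cSHom g, g, rfl⟩, σ), rfl⟩

lemma card_ker_cS {p : ℕ} [Fact p.Prime] [CharP F p] [NeZero m] :
    Nat.card (cSHom : GS m F →* MulAut (PSp m F)).ker = Nat.card Fˣ := by
  symm
  refine Nat.card_congr (Equiv.ofBijective (fun c : Fˣ => (⟨scS c, cS_scS c⟩ : (cSHom : GS m F →* MulAut (PSp m F)).ker)) ⟨?_, ?_⟩)
  · intro a b h
    exact scS_inj (congrArg Subtype.val h)
  · rintro ⟨g, hg⟩
    obtain ⟨c, hc⟩ := scalar_of_cS_one (p := p) (g := g) hg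
    exact ⟨c, Subtype.ext hc.symm⟩

lemma card_ker_Mu [NeZero m] : Nat.card (Mu : GS m F →* Fˣ).ker = Nat.card (SP m F) := by
  symm
  refine Nat.card_congr (Equiv.ofBijective (fun s : SP m F => (⟨toGS s, Mu_toGS s⟩ : (Mu : GS m F →* Fˣ).ker)) ⟨?_, ?_⟩)
  · intro a b h
    have h1 : (toGS a).1.1 = (toGS b).1.1 := congrArg (fun z : (Mu : GS m F →* Fˣ).ker => z.1.1.1) h
    rw [toGS_val, toGS_val] at h1
    exact Subtype.ext h1
  · rintro ⟨g, hg⟩
    obtain ⟨s, hs⟩ := exists_toGS (g := g) hg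
    exact ⟨s, Subtype.ext hs⟩

lemma card_range_cS {p : ℕ} [Fact p.Prime] [CharP F p] [NeZero m] [Finite F] :
    Nat.card (cSHom : GS m F →* MulAut (PSp m F)).range = Nat.card (SP m F) := by
  classical
  have h1 : Nat.card (GS m F) = Nat.card (cSHom : GS m F →* MulAut (PSp m F)).range * Nat.card Fˣ := by
    rw [Subgroup.card_eq_card_quotient_mul_card_subgroup (cSHom : GS m F →* MulAut (PSp m F)).ker, card_ker_cS (p := p),
      Nat.card_congr (QuotientGroup.quotientKerEquivRange (cSHom : GS m F →* MulAut (PSp m F))).toEquiv]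
  have hs : Function.Surjective (Mu : GS m F →* Fˣ) := fun u => ⟨dgS u, Mu_dgS u⟩
  have h2 : Nat.card (GS m F) = Nat.card Fˣ * Nat.card (SP m F) := by
    rw [Subgroup.card_eq_card_quotient_mul_card_subgroup (Mu : GS m F →* Fˣ).ker, card_ker_Mu,
      Nat.card_congr (QuotientGroup.quotientKerEquivOfSurjective _ hs).toEquiv]
  have hpos : 0 < Nat.card Fˣ := Nat.card_pos
  have h3 : Nat.card (cSHom : GS m F →* MulAut (PSp m F)).range * Nat.card Fˣ = Nat.card (SP m F) * Nat.card Fˣ := by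
    rw [← h1, h2, mul_comm]
  exact Nat.eq_of_mul_eq_mul_right hpos h3

lemma charP_card' [Fintype F] {p f : ℕ} [hp : Fact p.Prime] (hF : Fintype.card F = p ^ f) (hf : 1 ≤ f) : CharP F p := by
  obtain ⟨r, hr⟩ := CharP.exists F
  obtain ⟨n, hr1, hr2⟩ := FiniteField.card F r
  rw [hF] at hr2
  have h1 : p ∣ r ^ (n : ℕ) := by
    rw [← hr2]
    exact dvd_pow_self p (by omega)
  have h2 : p = r := (Nat.prime_dvd_prime_iff_eq hp.out hr1).1 (hp.out.dvd_of_dvd_pow h1)
  rw [h2]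
  exact hr

lemma card_ringAut' [Fintype F] {p f : ℕ} [Fact p.Prime] [CharP F p] (hF : Fintype.card F = p ^ f) (hf : 1 ≤ f) :
    Nat.card (RingAut F) = f := by
  obtain ⟨e, -⟩ := exists_gal_equiv (F := F) hF hf
  rw [Nat.card_congr e.toEquiv]
  show Nat.card (ZMod f) = f
  exact Nat.card_zmod f

/-- The element `-1`. -/
def minusOne : SP m F := ⟨-1, by
  rw [SymplecticGroup.mem_iff]
  simp⟩

lemma card_center [Fintype F] {p f : ℕ} [hp : Fact p.Prime] [CharP F p] [NeZero m] (hF : Fintype.card F = p ^ f) (hf : 1 ≤ f) :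
    Nat.card (Subgroup.center (SP m F)) = Nat.gcd 2 (p ^ f - 1) := by
  classical
  by_cases hp2 : p = 2
  · subst hp2
    have h1 : Nat.card (Subgroup.center (SP m F)) = 1 := by
      rw [Nat.card_eq_one_iff_unique]
      refine ⟨⟨?_⟩, ⟨1⟩⟩
      rintro ⟨x, hx⟩ ⟨y, hy⟩
      apply Subtype.ext
      change x = y
      rw [center_trivial hx, center_trivial hy]
    rw [h1]
    symm
    have h2 : Odd (2 ^ f - 1) := by
      obtain ⟨k, rfl⟩ : ∃ k, f = k + 1 := ⟨f - 1, by omega⟩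
      rw [Nat.odd_iff]
      have h3 : 2 ^ (k + 1) = 2 * 2 ^ k := by ring
      have h4 : 0 < 2 ^ k := by positivity
      omega
    exact Nat.coprime_two_left.mpr h2
  · have hodd : Odd p := hp.out.odd_of_ne_two hp2
    have h2F : (2 : F) ≠ 0 := by
      intro e
      have : ((2 : ℕ) : F) = 0 := by exact_mod_cast e
      rw [CharP.cast_eq_zero_iff F p] at this
      exact hp2 ((Nat.prime_dvd_prime_iff_eq hp.out Nat.prime_two).mp this)
    have hm1 : ∀ v : Fin m ⊕ Fin m → F, ((minusOne : SP m F) : MM) *ᵥ v = (-1 : F) • v := by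
      intro v
      change (-1 : MM) *ᵥ v = _
      rw [neg_mulVec, one_mulVec, neg_smul, one_smul]
    have hmc : (minusOne : SP m F) ∈ Subgroup.center (SP m F) := by
      apply center_of_fix
      intro v hv
      rw [hm1]
      exact Submodule.smul_mem _ _ (Submodule.mem_span_singleton_self v)
    have h1 : Nat.card (Subgroup.center (SP m F)) = 2 := by
      rw [Nat.card_eq_two_iff]
      refine ⟨⟨1, one_mem _⟩, ⟨minusOne, hmc⟩, ?_, ?_⟩
      · intro h
        have h3 : (1 : SP m F) = minusOne := congrArg Subtype.val h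
        have h4 : ((1 : SP m F) : MM) *ᵥ (EE (0 : Fin m)) = ((minusOne : SP m F) : MM) *ᵥ (EE (0 : Fin m)) := by rw [← h3]
        rw [hm1] at h4
        change (1 : MM) *ᵥ _ = _ at h4
        rw [one_mulVec] at h4
        have h5 := congrFun h4 (Sum.inl 0)
        simp at h5
        apply h2F
        linear_combination h5
      · ext ⟨x, hx⟩
        simp only [Set.mem_insert_iff, Set.mem_singleton_iff, Set.mem_univ, iff_true, Subtype.mk.injEq]
        obtain ⟨a, ha, hv⟩ := center_scalar hx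
        rcases mul_self_eq_one_iff.mp ha with rfl | rfl
        · left
          apply sp_ext
          intro v
          rw [hv, one_smul]
          change _ = (1 : MM) *ᵥ v
          rw [one_mulVec]
        · right
          apply sp_ext
          intro v
          rw [hv, hm1]
    rw [h1]
    symm
    apply Nat.gcd_eq_left
    have h3 : Odd (p ^ f) := hodd.pow
    exact (Nat.Odd.sub_odd h3 odd_one).two_dvd

/-- The order of the group of semilinear automorphisms. -/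
theorem card_GA [Fintype F] {p f : ℕ} [hp : Fact p.Prime] [CharP F p] [NeZero m] (hF : Fintype.card F = p ^ f) (hf : 1 ≤ f) :
    Nat.card (GA m F) = Nat.gcd 2 (p ^ f - 1) * f * Nat.card (PSp m F) := by
  rw [cardGA_range (p := p), card_range_cS (p := p), card_ringAut' hF hf,
    Subgroup.card_eq_card_quotient_mul_card_subgroup (Subgroup.center (SP m F)), card_center hF hf]
  ring

theorem GA_top [Fintype F] {p : ℕ} [hp : Fact p.Prime] [CharP F p] (hm : 2 ≤ m) (h4 : m = 2 → p ≠ 2) : GA m F = ⊤ := by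
  rw [eq_top_iff]
  intro ψ _
  obtain ⟨g, σ, hg, h⟩ := aut_of_key (p := p) hm ψ (keyA hm h4 ψ) (keyA hm h4 ψ.symm)
  exact ⟨⟨g, hg⟩, σ, semilinear_eq hg h⟩

section Two

variable [CharP F 2] [Finite F]

local notation "I₄" => (Fin 2 ⊕ Fin 2)
local notation "M₄" => Matrix (Fin 2 ⊕ Fin 2) (Fin 2 ⊕ Fin 2) F

omit [Finite F] in
lemma TT_inj {x : I₄ → F} (hx : x ≠ 0) {t s : F} (h : TT x t = TT x s) : t = s := by
  haveI : Fact (Nat.Prime 2) := ⟨Nat.prime_two⟩
  by_contra hne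
  have h1 : t + s ≠ 0 := by
    intro h0
    apply hne
    have e2 := two_eq_zero' (F := F)
    linear_combination h0 - s * e2
  have h2 : TT x (t + s) = 1 := by
    rw [← TT_add, h, TT_add, ← two_mul, two_eq_zero', zero_mul, TT_zero]
  exact TT_ne_one 2 hx h1 h2

/-- The transfer of the key property to the inverse, by counting. -/
theorem key_symm (ψ : PSp 2 F ≃* PSp 2 F) (h : KeyA ψ) : KeyA ψ.symm := by
  classical
  haveI : Fact (Nat.Prime 2) := ⟨Nat.prime_two⟩
  let T : Set (PSp 2 F) := {y | ∃ (v : I₄ → F) (t : F), v ≠ 0 ∧ t ≠ 0 ∧ y = TT v t}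
  have hnonz : ∀ (v : I₄ → F) (t a : F) (v' : I₄ → F), v ≠ 0 → t ≠ 0 → ψ (TT v t) = TT v' a → a ≠ 0 := by
    intro v t a v' hv ht he
    rintro rfl
    rw [TT_zero, map_eq_one_iff _ ψ.injective] at he
    exact TT_ne_one 2 hv ht he
  have hmaps : ∀ y : T, ψ y.1 ∈ T := by
    rintro ⟨_, v, t, hv, ht, rfl⟩
    obtain ⟨v', hv', hT⟩ := h v hv
    obtain ⟨a, ha⟩ := hT t
    exact ⟨v', a, hv', hnonz v t a v' hv ht ha, ha⟩
  let f : T → T := fun y => ⟨ψ y.1, hmaps y⟩
  have hfinj : Function.Injective f := by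
    intro x y hxy
    exact Subtype.ext (ψ.injective (congrArg Subtype.val hxy))
  have hfsurj := Finite.surjective_of_injective hfinj
  intro w hw
  have hw1 : TT w 1 ∈ T := ⟨w, 1, hw, one_ne_zero, rfl⟩
  obtain ⟨⟨_, x, s, hx, hs, rfl⟩, he⟩ := hfsurj ⟨TT w 1, hw1⟩
  have he' : ψ (TT x s) = TT w 1 := congrArg Subtype.val he
  refine ⟨x, hx, fun t => ?_⟩
  obtain ⟨v', hv', hT⟩ := h x hx
  obtain ⟨a, ha⟩ := hT s
  have ha0 := hnonz x s a v' hx hs ha
  rw [he'] at ha
  obtain ⟨c, hc⟩ := Submodule.mem_span_singleton.mp (TT_eq_imp 2 hw one_ne_zero ha)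
  -- the parameter map is bijective
  choose A hA using hT
  have hAinj : Function.Injective A := by
    intro p q hpq
    have h1 : ψ (TT x p) = ψ (TT x q) := by rw [hA, hA, hpq]
    exact TT_inj hx (ψ.injective h1)
  have hAsurj := Finite.surjective_of_injective hAinj
  obtain ⟨r, hr⟩ := hAsurj (c * c * t)
  refine ⟨r, ?_⟩
  rw [MulEquiv.symm_apply_eq, hA, hr, ← hc, TT_smul]

lemma T_ne_S (u : I₄ → F) (c : F) : spS (EE (0 : Fin 2)) (EE 1) (1 : F) ≠ spT u c := by
  intro h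
  have h1 : ∀ y : I₄ → F, y + (1 * sympForm 2 F y (EE 1)) • EE (0 : Fin 2) + (1 * sympForm 2 F y (EE 0)) • EE (1 : Fin 2) =
      y + (c * sympForm 2 F y u) • u := by
    intro y
    rw [← spS_mulVec _ _ EE_symp, h, spT_mulVec]
  have h2 := h1 (FF (0 : Fin 2))
  have h3 := h1 (FF (1 : Fin 2))
  simp only [symp_E_right] at h2 h3
  set x1 := c * sympForm 2 F (FF (0 : Fin 2)) u
  set x2 := c * sympForm 2 F (FF (1 : Fin 2)) u
  have a1 := congrFun h2 (Sum.inl 1)
  have a2 := congrFun h2 (Sum.inl 0)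
  have b1 := congrFun h3 (Sum.inl 0)
  have b2 := congrFun h3 (Sum.inl 1)
  simp at a1 a2 b1 b2
  rcases a2 with a2 | a2
  · exact absurd a1 (by simp [a2])
  · rw [a2] at b1
    simp at b1

theorem gA_not_mem : (gA : MulAut (PSp 2 F)) ∉ GA 2 F := by
  haveI : Fact (Nat.Prime 2) := ⟨Nat.prime_two⟩
  rintro ⟨g, σ, h⟩
  have h1 : gA (TT (EE (0 : Fin 2) : I₄ → F) 1) = (cS g * fS σ : MulAut (PSp 2 F)) (TT (EE (0 : Fin 2) : I₄ → F) 1) := by rw [h]
  have h2 : (cS g * fS σ : MulAut (PSp 2 F)) (TT (EE (0 : Fin 2) : I₄ → F) 1) = cS g (fS σ (TT (EE (0 : Fin 2) : I₄ → F) 1)) := rfl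
  rw [h2, fS_TT, cS_TT] at h1
  have h3 : gA (TT (EE (0 : Fin 2) : I₄ → F) 1) = Pr (spS (EE (0 : Fin 2)) (EE 1) 1) := by
    change gA (Pr (spT _ _)) = _
    rw [gA_Pr, grH_T]
  rw [h3] at h1
  exact T_ne_S _ _ (Pr_inj h1)

lemma mem_GA_of_key [Fintype F] (ψ : PSp 2 F ≃* PSp 2 F) (h : KeyA ψ) : ψ ∈ GA 2 F := by
  haveI : Fact (Nat.Prime 2) := ⟨Nat.prime_two⟩
  obtain ⟨g, σ, hg, h'⟩ := aut_of_key (p := 2) (le_refl 2) ψ h (key_symm ψ h)
  exact ⟨⟨g, hg⟩, σ, semilinear_eq hg h'⟩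

theorem GA_index : (GA 2 F).index = 2 := by
  classical
  haveI := Fintype.ofFinite F
  rw [Subgroup.index_eq_two_iff]
  refine ⟨gA⁻¹, fun b => ?_⟩
  by_cases hb : b ∈ GA 2 F
  · right
    refine ⟨hb, fun h => ?_⟩
    have h1 : gA⁻¹ ∈ GA 2 F := by
      have := mul_mem (inv_mem hb) h
      rwa [inv_mul_cancel_left] at this
    exact gA_not_mem (by simpa using inv_mem h1)
  · left
    refine ⟨?_, hb⟩
    rcases dich b⁻¹ with h | h
    · exact absurd (by simpa using inv_mem (mem_GA_of_key b⁻¹ h)) hb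
    · have h1 := inv_mem (mem_GA_of_key _ h)
      have e : (b⁻¹.trans gA : PSp 2 F ≃* PSp 2 F)⁻¹ = b * gA⁻¹ := by
        change (gA * b⁻¹)⁻¹ = _
        rw [_root_.mul_inv_rev, inv_inv]
      rwa [e] at h1

end Two

/-- The order of the automorphism group. -/
theorem card_aut_PSp [Fintype F] (p f : ℕ) [hp : Fact p.Prime] (hf : 1 ≤ f) (hF : Fintype.card F = p ^ f) (hm : 2 ≤ m) :
    Nat.card (MulAut (PSp m F)) = (if m = 2 ∧ p = 2 then 2 else 1) * Nat.gcd 2 (p ^ f - 1) * f * Nat.card (PSp m F) := by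
  haveI : CharP F p := charP_card' hF hf
  haveI : NeZero m := ⟨by omega⟩
  by_cases hh : m = 2 ∧ p = 2
  · rw [if_pos hh]
    obtain ⟨rfl, rfl⟩ := hh
    rw [← Subgroup.index_mul_card (GA 2 F), GA_index, card_GA hF hf]
    ring
  · rw [if_neg hh, one_mul, ← card_GA hF hf, GA_top (p := p) hm (fun h1 h2 => hh ⟨h1, h2⟩), Subgroup.card_top]

end CfsgLib.PSA
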