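/-
The outer automorphism group of `PSp₄(2^f)`.
-/
import Cfsg.Agent.Lib.PSpAut.Card

set_option autoImplicit false
set_option linter.unusedSimpArgs false
set_option linter.unusedVariables false
set_option maxHeartbeats 1000000

namespace CfsgLib.PSA

open Matrix Cfsg CfsgLib.ClassGeo

variable {F : Type*} [Field F]

section Two

variable [CharP F 2]

lemma center_PSp_trivial {m : ℕ} [NeZero m] {y : PSp m F} (hy : y ∈ Subgroup.center (PSp m F)) : y = 1 := by
  obtain ⟨s, rfl⟩ := Pr_surj y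
  have h1 : s ∈ Subgroup.center (SP m F) := by
    rw [Subgroup.mem_center_iff] at hy ⊢
    intro g
    have := hy (Pr g)
    rw [← map_mul, ← map_mul] at this
    exact Pr_inj this
  rw [center_trivial h1, map_one]

lemma card_Inn {m : ℕ} [NeZero m] : Nat.card (Cfsg.Inn (PSp m F)) = Nat.card (PSp m F) := by
  have hinj : Function.Injective (MulAut.conj : PSp m F →* MulAut (PSp m F)) := by
    rw [injective_iff_map_eq_one]
    intro y hy
    apply center_PSp_trivial
    rw [Subgroup.mem_center_iff]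
    intro g
    have := congrArg (fun φ : MulAut (PSp m F) => φ g) hy
    simp only [MulAut.conj_apply, MulAut.one_apply] at this
    rw [mul_inv_eq_iff_eq_mul] at this
    exact this.symm
  exact (Nat.card_congr (MonoidHom.ofInjective hinj).toEquiv).symm

variable [Finite F]

lemma fr2_pow_apply (k : ℕ) (x : F) : ((fr2 : RingAut F) ^ k) x = x ^ (2 ^ k) := by
  induction k generalizing x with
  | zero => simp
  | succ k ih =>
    rw [pow_succ]
    change ((fr2 : RingAut F) ^ k) (fr2 x) = _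
    rw [ih, fr2_apply, ← pow_mul]
    congr 1
    ring

lemma le_of_fr2_pow [Fintype F] {f k : ℕ} (hF : Fintype.card F = 2 ^ f) (hk : 1 ≤ k) (h : (fr2 : RingAut F) ^ k = 1) : f ≤ k := by
  classical
  obtain ⟨ζ, hζ⟩ := IsCyclic.exists_ofOrder_eq_natCard (α := Fˣ)
  have h1 : ζ ^ (2 ^ k - 1) = 1 := by
    have h2 : ζ ^ (2 ^ k) = ζ := by
      apply Units.ext
      rw [Units.val_pow_eq_pow_val, ← fr2_pow_apply, h]
      rfl
    have h3 : 1 ≤ 2 ^ k := Nat.one_le_two_pow
    have h4 : ζ ^ (2 ^ k - 1) * ζ = ζ := by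
      rw [← pow_succ, Nat.sub_add_cancel h3, h2]
    simpa using h4
  have h2 := orderOf_dvd_of_pow_eq_one h1
  rw [hζ, Nat.card_eq_fintype_card, Fintype.card_units, hF] at h2
  have hk2 : 2 ≤ 2 ^ k := by
    calc 2 = 2 ^ 1 := by norm_num
      _ ≤ 2 ^ k := Nat.pow_le_pow_right (by norm_num) hk
  have h3 := Nat.le_of_dvd (by omega) h2
  have h4 : 1 ≤ 2 ^ f := Nat.one_le_two_pow
  have h5 : 2 ^ f ≤ 2 ^ k := by omega
  exact (Nat.pow_le_pow_iff_right (by norm_num)).mp h5

lemma Inn_le_GA {m : ℕ} [NeZero m] : Cfsg.Inn (PSp m F) ≤ GA m F := by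
  intro k hk
  obtain ⟨g, -, rfl⟩ := inn_iff.mp hk
  exact ⟨g, 1, by rw [fS_one, mul_one]⟩

lemma fS_pow {m : ℕ} (σ : RingAut F) (k : ℕ) : (fS σ : MulAut (PSp m F)) ^ k = fS (σ ^ k) := by
  induction k with
  | zero => rw [pow_zero, pow_zero, fS_one]
  | succ k ih => rw [pow_succ, ih, pow_succ, fS_mul]

lemma fS_mem_GA {m : ℕ} (σ : RingAut F) : (fS σ : MulAut (PSp m F)) ∈ GA m F :=
  ⟨1, σ, by rw [cS_one, one_mul]⟩

/-- The outer automorphism group of `PSp₄(2^f)`. -/
theorem out_two [Fintype F] {f : ℕ} (hf : 1 ≤ f) (hF : Fintype.card F = 2 ^ f) :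
    IsCyclic (Cfsg.Out (PSp 2 F)) ∧ Nat.card (Cfsg.Out (PSp 2 F)) = 2 * f := by
  classical
  haveI hp2 : Fact (Nat.Prime 2) := ⟨Nat.prime_two⟩
  have hcardA := card_aut_PSp (F := F) (m := 2) 2 f hf hF (le_refl 2)
  rw [if_pos ⟨rfl, rfl⟩] at hcardA
  have hg : Nat.gcd 2 (2 ^ f - 1) = 1 := by
    have h2 : Odd (2 ^ f - 1) := by
      obtain ⟨k, rfl⟩ : ∃ k, f = k + 1 := ⟨f - 1, by omega⟩
      rw [Nat.odd_iff]
      have h3 : 2 ^ (k + 1) = 2 * 2 ^ k := by ring
      have h4 : 0 < 2 ^ k := by positivity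
      omega
    exact Nat.coprime_two_left.mpr h2
  rw [hg] at hcardA
  have hOut : Nat.card (Cfsg.Out (PSp 2 F)) = 2 * f := by
    have h1 := Subgroup.card_eq_card_quotient_mul_card_subgroup (Cfsg.Inn (PSp 2 F))
    rw [card_Inn, hcardA] at h1
    have hpos : 0 < Nat.card (PSp 2 F) := Nat.card_pos
    have h2 : 2 * f * Nat.card (PSp 2 F) = Nat.card (Cfsg.Out (PSp 2 F)) * Nat.card (PSp 2 F) := by
      rw [← h1]
    exact (Nat.eq_of_mul_eq_mul_right hpos h2).symm
  refine ⟨?_, hOut⟩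
  let x : Cfsg.Out (PSp 2 F) := QuotientGroup.mk gA
  have hpow : ∀ n, x ^ n = 1 ↔ (gA : MulAut (PSp 2 F)) ^ n ∈ Cfsg.Inn (PSp 2 F) := by
    intro n
    rw [← QuotientGroup.eq_one_iff]
    rfl
  have hfp : 0 < 2 * f := by omega
  have hdvd : orderOf x ∣ 2 * f := by
    rw [← hOut]
    exact orderOf_dvd_natCard x
  have hpos : 0 < orderOf x := Nat.pos_of_dvd_of_pos hdvd hfp
  have hord : orderOf x = 2 * f := by
    set n := orderOf x with hn
    have hxn : x ^ n = 1 := pow_orderOf_eq_one x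
    rw [hpow] at hxn
    have hxGA := Inn_le_GA hxn
    rcases Nat.even_or_odd' n with ⟨k, hk | hk⟩
    · have hk1 : 1 ≤ k := by omega
      rw [hk, pow_mul, pow_two, gA_sq, fS_pow] at hxn
      obtain ⟨g, -, hg'⟩ := inn_iff.mp hxn
      have h3 := field_part (p := 2) hg'.symm
      have h4 := le_of_fr2_pow hF hk1 h3
      have h5 := Nat.le_of_dvd hfp hdvd
      omega
    · exfalso
      rw [hk, pow_succ, pow_mul, pow_two, gA_sq, fS_pow] at hxGA
      have h3 := mul_mem (inv_mem (fS_mem_GA (m := 2) (fr2 ^ k))) hxGA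
      rw [inv_mul_cancel_left] at h3
      exact gA_not_mem h3
  exact isCyclic_of_orderOf_eq_card x (by rw [hord, hOut])

end Two

end CfsgLib.PSA
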