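/-
The transvections of `Sp_{2n}(2)` form a class of 3-transpositions.
-/
import Cfsg.Agent.Lib.PSpAut.KeyA

set_option autoImplicit false
set_option linter.unusedSimpArgs false
set_option linter.unusedVariables false
set_option maxHeartbeats 1000000

namespace CfsgLib.PSA

open Matrix Cfsg CfsgLib.ClassGeo

local notation "F2" => ZMod 2

section

variable {n : ℕ}

local notation "MM" => Matrix (Fin n ⊕ Fin n) (Fin n ⊕ Fin n) (ZMod 2)

lemma z2_cases (a : ZMod 2) : a = 0 ∨ a = 1 := by
  revert a
  decide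

lemma rank_spT {v : Fin n ⊕ Fin n → ZMod 2} (hv : v ≠ 0) : ((spT v 1 : SP n (ZMod 2)).1 - 1 : MM).rank = 1 := by
  have hform : ∀ x, ((spT v 1 : SP n (ZMod 2)).1 - 1 : MM) *ᵥ x = (sympForm n (ZMod 2) x v) • v := by
    intro x
    rw [sub_mulVec, one_mulVec, spT_mulVec]
    simp
  rw [Matrix.rank]
  have hr : LinearMap.range (((spT v 1 : SP n (ZMod 2)).1 - 1 : MM)).mulVecLin = Submodule.span (ZMod 2) {v} := by
    apply le_antisymm
    · rintro _ ⟨x, rfl⟩
      rw [Matrix.mulVecLin_apply, hform]
      exact Submodule.smul_mem _ _ (Submodule.mem_span_singleton_self v)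
    · rw [Submodule.span_singleton_le_iff_mem]
      obtain ⟨x, hx⟩ := exists_symp_ne hv
      refine ⟨x, ?_⟩
      rw [Matrix.mulVecLin_apply, hform, (z2_cases _).resolve_left hx, one_smul]
  rw [hr, finrank_span_singleton hv]

lemma eq_spT_of_rank (g : SP n (ZMod 2)) (h : ((g : MM) - 1).rank = 1) : ∃ v : Fin n ⊕ Fin n → ZMod 2, v ≠ 0 ∧ g = spT v 1 := by
  classical
  rw [Matrix.rank, finrank_eq_one_iff'] at h
  obtain ⟨⟨v, hvr⟩, hv0, hv⟩ := h
  have hv0' : v ≠ 0 := fun h0 => hv0 (Subtype.ext h0)
  have hc : ∀ x, ∃ c : ZMod 2, (g : MM) *ᵥ x = x + c • v := by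
    intro x
    obtain ⟨c, hc⟩ := hv ⟨((g : MM) - 1) *ᵥ x, x, rfl⟩
    refine ⟨c, ?_⟩
    have h2 := congrArg Subtype.val hc
    simp only [SetLike.val_smul] at h2
    rw [h2, sub_mulVec, one_mulVec]
    abel
  choose φ hφ using hc
  have e2 := two_eq_zero' (F := ZMod 2)
  have hrel : ∀ x y, φ y * sympForm n (ZMod 2) x v = φ x * sympForm n (ZMod 2) y v := by
    intro x y
    have h1 := sp_preserves g x y
    rw [hφ, hφ] at h1
    simp only [symp_add_left, symp_add_right, symp_smul_left, symp_smul_right, symp_self, mul_zero, add_zero] at h1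
    rw [symp_skew v y] at h1
    have h3 : φ y * sympForm n (ZMod 2) x v - φ x * sympForm n (ZMod 2) y v = 0 := by
      linear_combination h1
    exact sub_eq_zero.mp h3
  -- some value of the functional is one
  have hex : ∃ y, φ y = 1 := by
    by_contra hno
    push Not at hno
    have hz : ∀ y, φ y = 0 := fun y => (z2_cases _).resolve_right (hno y)
    apply hv0'
    have h3 : ((g : MM) - 1) = 0 := by
      apply Matrix.ext_of_mulVec_single
      intro x
      rw [sub_mulVec, one_mulVec, hφ, hz, Matrix.zero_mulVec]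
      simp
    have := hvr
    rw [h3] at this
    obtain ⟨x, hx⟩ := this
    rw [← hx]
    simp
  obtain ⟨y, hy⟩ := hex
  obtain ⟨x₀, hx₀⟩ := exists_symp_ne hv0'
  have hc1 : sympForm n (ZMod 2) y v = 1 := by
    have h3 := hrel x₀ y
    rw [hy, one_mul] at h3
    rw [h3] at hx₀
    have h4 := right_ne_zero_of_mul hx₀
    exact (z2_cases _).resolve_left h4
  have hall : ∀ x, φ x = sympForm n (ZMod 2) x v := by
    intro x
    have h3 := hrel x y
    rw [hy, one_mul, hc1, mul_one] at h3
    exact h3.symm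
  refine ⟨v, hv0', ?_⟩
  apply sp_ext
  intro x
  rw [spT_mulVec, hφ, hall, one_mul]

lemma T_ne_one_z2 {v : Fin n ⊕ Fin n → ZMod 2} (hv : v ≠ 0) : spT v 1 ≠ (1 : SP n (ZMod 2)) := by
  intro h
  have := rank_spT hv
  rw [h] at this
  simp at this

theorem three_transp [NeZero n] : Cfsg.IsThreeTranspositionClass {g : Matrix.symplecticGroup (Fin n) (ZMod 2) | ((g : MM) - 1).rank = 1} := by
  classical
  have e2 := two_eq_zero' (F := ZMod 2)
  set D := {g : Matrix.symplecticGroup (Fin n) (ZMod 2) | ((g : MM) - 1).rank = 1} with hD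
  have hmem : ∀ v : Fin n ⊕ Fin n → ZMod 2, v ≠ 0 → spT v 1 ∈ D := fun v hv => rank_spT hv
  refine ⟨⟨?_, ?_⟩, ⟨spT (EE 0) 1, hmem _ (EE_ne _), ?_⟩, ?_⟩
  · intro d hd
    obtain ⟨v, hv, rfl⟩ := eq_spT_of_rank d hd
    apply orderOf_eq_prime
    · rw [pow_two, spT_sq]
    · exact T_ne_one_z2 hv
  · intro d hd e he
    obtain ⟨v, hv, rfl⟩ := eq_spT_of_rank d hd
    obtain ⟨w, hw, rfl⟩ := eq_spT_of_rank e he
    rcases z2_cases (sympForm n (ZMod 2) v w) with h0 | h1
    · left
      have hc : Commute (spT v (1 : ZMod 2)) (spT w 1) := spT_comm_of_perp 1 1 (by rw [symp_skew, h0, neg_zero])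
      rw [hc.mul_pow, pow_two, pow_two, spT_sq, spT_sq, one_mul]
    · right
      have hwv : sympForm n (ZMod 2) w v = 1 := by rw [symp_skew, h1, neg_eq_self']
      set Y := spT v (1 : ZMod 2) * spT w 1 with hY
      have hact : ∀ z, (Y : MM) *ᵥ z = z + (sympForm n (ZMod 2) z w) • w +
          (sympForm n (ZMod 2) z v + sympForm n (ZMod 2) z w) • v := by
        intro z
        rw [hY, sp_mul_mulVec, spT_mulVec, spT_mulVec]
        simp only [symp_add_left, symp_smul_left, hwv, one_mul, mul_one]
      apply sp_ext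
      intro z
      have e : Y ^ 3 = Y * (Y * Y) := by simp only [pow_succ, pow_zero, one_mul, mul_assoc]
      rw [e, sp_mul_mulVec Y (Y * Y), sp_mul_mulVec Y Y, hact, hact, hact]
      simp only [symp_add_left, symp_smul_left, symp_self, hwv, h1, mul_zero, add_zero, zero_add, mul_one]
      change _ = (1 : MM) *ᵥ z
      rw [one_mulVec]
      funext k
      simp only [Pi.add_apply, Pi.smul_apply, smul_eq_mul]
      generalize sympForm n (ZMod 2) z v = a
      generalize sympForm n (ZMod 2) z w = b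
      generalize v k = V
      generalize w k = W
      generalize z k = Z
      revert a b V W Z
      decide
  · ext g
    constructor
    · intro hg
      obtain ⟨v, hv, rfl⟩ := eq_spT_of_rank g hg
      obtain ⟨h, -, hh⟩ := sp_trans_vec (⊤ : Submodule (ZMod 2) (Fin n ⊕ Fin n → ZMod 2)) sp_nondeg_top (EE 0) v trivial trivial (EE_ne _) hv
      refine isConj_iff.mpr ⟨h, ?_⟩
      rw [sp_conj_T, hh]
    · intro hg
      obtain ⟨h, rfl⟩ := isConj_iff.mp hg
      rw [sp_conj_T]
      exact hmem _ (sp_ne h (EE_ne _))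
  · rw [eq_top_iff, ← sp_TG_eq_top, spTG, Subgroup.closure_le]
    rintro A ⟨w, c, hA⟩
    by_cases hw : w = 0
    · have : A = 1 := by
        apply Subtype.ext
        rw [hA, hw]
        simp [sympTransvection]
      rw [this]
      exact one_mem _
    rcases z2_cases c with rfl | rfl
    · have : A = 1 := by
        apply Subtype.ext
        rw [hA]
        simp [sympTransvection]
      rw [this]
      exact one_mem _
    · apply Subgroup.subset_closure
      have : A = spT w 1 := Subtype.ext hA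
      rw [this]
      exact hmem w hw

end

end CfsgLib.PSA
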